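import Mathlib
import Cfsg.Agent.Lib.Helper4.CharClosure
import Cfsg.Agent.Lib.Helper4.CharDecomp
import Cfsg.Agent.Lib.Helper4.CharLinear

/-!
# Linear characters of an abelian subgroup: orthogonality, Fourier inversion, the coefficients
`a_χ(ψ - 1)` (helper1)
-/

set_option autoImplicit false

namespace Cfsg.Agent.Lib.Helper1

open Cfsg
open scoped ComplexConjugate
open scoped IsMulCommutative

section LinChar

variable {A : Type*} [Group A]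

/-- a homomorphism to `ℂˣ` as an irreducible character -/
noncomputable def babLin (ψ : A →* ℂˣ) : IrrCharacter A :=
  ⟨fun y => ((ψ y : ℂˣ) : ℂ), Cfsg.Agent.Lib.Helper4.isIrrCharacter_lin ψ⟩

theorem babLin_apply (ψ : A →* ℂˣ) (y : A) : (babLin ψ : A → ℂ) y = ((ψ y : ℂˣ) : ℂ) := rfl

theorem babLin_injective : Function.Injective (babLin (A := A)) := by
  intro ψ ψ' h
  apply MonoidHom.ext
  intro y
  apply Units.ext
  exact congrFun (congrArg Subtype.val h) y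

variable [Finite A]

theorem bab_conj_lin (ψ : A →* ℂˣ) (y : A) :
    conj ((ψ y : ℂˣ) : ℂ) = ((ψ y⁻¹ : ℂˣ) : ℂ) := by
  have h1 : ((ψ y : ℂˣ) : ℂ) ^ orderOf y = 1 := by
    rw [← Units.val_pow_eq_pow_val, ← map_pow, pow_orderOf_eq_one, map_one, Units.val_one]
  have h2 : ‖((ψ y : ℂˣ) : ℂ)‖ = 1 :=
    Complex.norm_eq_one_of_pow_eq_one h1 (orderOf_pos y).ne'
  rw [map_inv, Units.val_inv_eq_inv_val, Complex.inv_eq_conj h2]

/-- first orthogonality for linear characters -/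
theorem bab_orth [Fintype A] (ψ ψ' : A →* ℂˣ) [Decidable (ψ = ψ')] :
    ∑ y : A, ((ψ y : ℂˣ) : ℂ) * conj ((ψ' y : ℂˣ) : ℂ) =
      if ψ = ψ' then (Nat.card A : ℂ) else 0 := by
  have h := Cfsg.Agent.Lib.Helper4.classInner_irr (babLin ψ) (babLin ψ')
  have hA : (Nat.card A : ℂ) ≠ 0 := Nat.cast_ne_zero.mpr Nat.card_pos.ne'
  have h' : (Nat.card A : ℂ)⁻¹ * ∑ y : A, ((ψ y : ℂˣ) : ℂ) * conj ((ψ' y : ℂˣ) : ℂ) =
      if babLin ψ = babLin ψ' then 1 else 0 := by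
    rw [← h]; rfl
  by_cases hψ : ψ = ψ'
  · rw [if_pos hψ]
    rw [if_pos (congrArg babLin hψ)] at h'
    field_simp at h'
    exact h'
  · rw [if_neg hψ]
    rw [if_neg (fun hh => hψ (babLin_injective hh))] at h'
    rcases mul_eq_zero.mp h' with h0 | h0
    · exact absurd (inv_eq_zero.mp h0) hA
    · exact h0

theorem bab_sum_lin [Fintype A] (ψ : A →* ℂˣ) (hψ : ψ ≠ 1) :
    ∑ y : A, ((ψ y : ℂˣ) : ℂ) = 0 := by
  classical
  have h := bab_orth ψ 1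
  rw [if_neg hψ] at h
  rw [← h]
  refine Finset.sum_congr rfl fun y _ => ?_
  simp

theorem bab_sum_lin_conj [Fintype A] (ψ : A →* ℂˣ) (hψ : ψ ≠ 1) :
    ∑ y : A, conj ((ψ y : ℂˣ) : ℂ) = 0 := by
  classical
  have h := bab_orth 1 ψ
  rw [if_neg (Ne.symm hψ)] at h
  rw [← h]
  refine Finset.sum_congr rfl fun y _ => ?_
  simp

theorem bab_inner_sub_one [Fintype A] (ψ ψ' : A →* ℂˣ) (hψ : ψ ≠ 1) (hψ' : ψ' ≠ 1)
    [Decidable (ψ = ψ')] :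
    ∑ y : A, (((ψ y : ℂˣ) : ℂ) - 1) * conj (((ψ' y : ℂˣ) : ℂ) - 1) =
      (Nat.card A : ℂ) * ((if ψ = ψ' then 1 else 0) + 1) := by
  have h1 : ∀ y : A, (((ψ y : ℂˣ) : ℂ) - 1) * conj (((ψ' y : ℂˣ) : ℂ) - 1) =
      ((ψ y : ℂˣ) : ℂ) * conj ((ψ' y : ℂˣ) : ℂ) - ((ψ y : ℂˣ) : ℂ) -
        conj ((ψ' y : ℂˣ) : ℂ) + 1 := by
    intro y
    rw [map_sub, map_one]
    ring
  rw [Finset.sum_congr rfl (fun y _ => h1 y), Finset.sum_add_distrib, Finset.sum_sub_distrib,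
    Finset.sum_sub_distrib, bab_orth, bab_sum_lin ψ hψ, bab_sum_lin_conj ψ' hψ',
    Finset.sum_const, Finset.card_univ, ← Nat.card_eq_fintype_card]
  split_ifs
  · simp
    ring
  · simp

/-- second orthogonality for linear characters of an abelian group -/
theorem bab_orth_dual [IsMulCommutative A] [Fintype (A →* ℂˣ)] (y : A) [Decidable (y = 1)] :
    ∑ ψ : A →* ℂˣ, ((ψ y : ℂˣ) : ℂ) = if y = 1 then (Nat.card A : ℂ) else 0 := by
  have hne : Monoid.exponent A ≠ 0 := Monoid.exponent_ne_zero_of_finite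
  have : NeZero ((Monoid.exponent A : ℕ) : ℂ) := ⟨Nat.cast_ne_zero.mpr hne⟩
  by_cases hy : y = 1
  · rw [if_pos hy, hy]
    have h1 : ∀ ψ : A →* ℂˣ, ((ψ 1 : ℂˣ) : ℂ) = 1 := fun ψ => by rw [map_one, Units.val_one]
    rw [Finset.sum_congr rfl (fun ψ _ => h1 ψ), Finset.sum_const, Finset.card_univ,
      ← Nat.card_eq_fintype_card]
    have h2 : Nat.card (A →* ℂˣ) = Nat.card A :=
      CommGroup.card_monoidHom_of_hasEnoughRootsOfUnity A ℂ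
    rw [h2]
    simp
  · rw [if_neg hy]
    obtain ⟨φ, hφ⟩ : ∃ φ : A →* ℂˣ, φ y ≠ 1 :=
      CommGroup.exists_apply_ne_one_of_hasEnoughRootsOfUnity A ℂ hy
    have h1 : ∑ ψ : A →* ℂˣ, ((ψ y : ℂˣ) : ℂ) =
        ((φ y : ℂˣ) : ℂ) * ∑ ψ : A →* ℂˣ, ((ψ y : ℂˣ) : ℂ) := by
      rw [Finset.mul_sum, ← Equiv.sum_comp (Equiv.mulLeft φ)]
      refine Finset.sum_congr rfl fun ψ _ => ?_
      simp
    have h2 : (((φ y : ℂˣ) : ℂ) - 1) * ∑ ψ : A →* ℂˣ, ((ψ y : ℂˣ) : ℂ) = 0 := by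
      rw [sub_mul, one_mul, ← h1, sub_self]
    rcases mul_eq_zero.mp h2 with h0 | h0
    · exfalso
      apply hφ
      apply Units.ext
      rw [Units.val_one]
      exact sub_eq_zero.mp h0
    · exact h0

/-- an abelian group has as many linear characters as elements -/
theorem bab_card_hom [IsMulCommutative A] : Nat.card (A →* ℂˣ) = Nat.card A := by
  have hne : Monoid.exponent A ≠ 0 := Monoid.exponent_ne_zero_of_finite
  have : NeZero ((Monoid.exponent A : ℕ) : ℂ) := ⟨Nat.cast_ne_zero.mpr hne⟩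
  exact CommGroup.card_monoidHom_of_hasEnoughRootsOfUnity A ℂ

/-- Fourier inversion off the identity, in the form used for `a_χ(ψ - 1)`. -/
theorem bab_fourier_aux [IsMulCommutative A] [Fintype A] [Fintype (A →* ℂˣ)] (f : A → ℂ)
    (y : A) (hy : y ≠ 1) :
    ∑ ψ : A →* ℂˣ, ((Nat.card A : ℂ)⁻¹ * ∑ z : A, f z * (((ψ z⁻¹ : ℂˣ) : ℂ) - 1)) *
      ((ψ y : ℂˣ) : ℂ) = f y := by
  classical
  have hA : (Nat.card A : ℂ) ≠ 0 := Nat.cast_ne_zero.mpr Nat.card_pos.ne'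
  have key : ∀ z : A, ∑ ψ : A →* ℂˣ, (((ψ z⁻¹ : ℂˣ) : ℂ) - 1) * ((ψ y : ℂˣ) : ℂ) =
      if z = y then (Nat.card A : ℂ) else 0 := by
    intro z
    have h1 : ∀ ψ : A →* ℂˣ, (((ψ z⁻¹ : ℂˣ) : ℂ) - 1) * ((ψ y : ℂˣ) : ℂ) =
        ((ψ (z⁻¹ * y) : ℂˣ) : ℂ) - ((ψ y : ℂˣ) : ℂ) := by
      intro ψ
      rw [map_mul, Units.val_mul]
      ring
    rw [Finset.sum_congr rfl (fun ψ _ => h1 ψ), Finset.sum_sub_distrib, bab_orth_dual,
      bab_orth_dual, if_neg hy, sub_zero]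
    by_cases hz : z = y
    · rw [if_pos hz, if_pos (by rw [hz, inv_mul_cancel])]
    · rw [if_neg hz, if_neg (fun h => hz (inv_mul_eq_one.mp h))]
  have h2 : ∀ ψ : A →* ℂˣ, ((Nat.card A : ℂ)⁻¹ * ∑ z : A, f z * (((ψ z⁻¹ : ℂˣ) : ℂ) - 1)) *
      ((ψ y : ℂˣ) : ℂ) =
      ∑ z : A, (Nat.card A : ℂ)⁻¹ * f z * ((((ψ z⁻¹ : ℂˣ) : ℂ) - 1) * ((ψ y : ℂˣ) : ℂ)) := by
    intro ψ
    rw [Finset.mul_sum, Finset.sum_mul]
    refine Finset.sum_congr rfl fun z _ => ?_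
    ring
  rw [Finset.sum_congr rfl (fun ψ _ => h2 ψ), Finset.sum_comm]
  have h3 : ∀ z : A, ∑ ψ : A →* ℂˣ,
      (Nat.card A : ℂ)⁻¹ * f z * ((((ψ z⁻¹ : ℂˣ) : ℂ) - 1) * ((ψ y : ℂˣ) : ℂ)) =
      if z = y then f z else 0 := by
    intro z
    rw [← Finset.mul_sum, key z]
    split_ifs
    · field_simp
    · rw [mul_zero]
  rw [Finset.sum_congr rfl (fun z _ => h3 z), Finset.sum_ite_eq' Finset.univ y f,
    if_pos (Finset.mem_univ y)]

end LinChar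

section Coef

variable {G : Type*} [Group G] [Finite G] (P : Subgroup G)

/-- `a_χ(ψ - 1) = |P|⁻¹ ∑_{y ∈ P} χ(y) (ψ(y⁻¹) - 1)`: the coefficient of S4720 for
`θ = ψ - 1`; it equals `(χ_P, ψ) - (χ_P, 1)`. -/
noncomputable def babCoef (χ : G → ℂ) (ψ : ↥P →* ℂˣ) : ℂ :=
  (Nat.card ↥P : ℂ)⁻¹ * ∑ᶠ y : ↥P, χ (y : G) * (((ψ y⁻¹ : ℂˣ) : ℂ) - 1)

omit [Finite G] in
theorem babCoef_eq_sum [Fintype ↥P] (χ : G → ℂ) (ψ : ↥P →* ℂˣ) :
    babCoef P χ ψ =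
      (Nat.card ↥P : ℂ)⁻¹ * ∑ y : ↥P, χ (y : G) * (((ψ y⁻¹ : ℂˣ) : ℂ) - 1) := by
  rw [babCoef, finsum_eq_sum_of_fintype]

theorem babCoef_one (χ : G → ℂ) : babCoef P χ 1 = 0 := by
  classical
  let _ : Fintype ↥P := Fintype.ofFinite _
  rw [babCoef_eq_sum, Finset.sum_eq_zero, mul_zero]
  intro y _
  simp

/-- the coefficients are integers -/
theorem babCoef_int (χ : IrrCharacter G) (ψ : ↥P →* ℂˣ) :
    ∃ k : ℤ, babCoef P (χ : G → ℂ) ψ = (k : ℂ) := by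
  classical
  let _ : Fintype ↥P := Fintype.ofFinite _
  have := Cfsg.Agent.Lib.Helper4.irr_finite (G := ↥P)
  let _ : Fintype (IrrCharacter ↥P) := Fintype.ofFinite _
  have hres := Cfsg.Agent.Lib.Helper4.isCharacter_restrict P (χ : G → ℂ)
    (Cfsg.Agent.Lib.Helper4.isCharacter_of_irr χ)
  obtain ⟨k1, hk1⟩ := Cfsg.Agent.Lib.Helper4.classInner_isCharacter_nat _ hres (babLin ψ)
  obtain ⟨k2, hk2⟩ := Cfsg.Agent.Lib.Helper4.classInner_isCharacter_nat _ hres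
    (babLin (1 : ↥P →* ℂˣ))
  refine ⟨(k1 : ℤ) - k2, ?_⟩
  rw [babCoef_eq_sum]
  push_cast
  rw [← hk1, ← hk2]
  unfold classInner
  rw [← mul_sub, ← Finset.sum_sub_distrib]
  congr 1
  refine Finset.sum_congr rfl fun y _ => ?_
  rw [babLin_apply, babLin_apply, bab_conj_lin, bab_conj_lin]
  simp
  ring

theorem babCoef_triv (ψ : ↥P →* ℂˣ) (hψ : ψ ≠ 1) :
    babCoef P (fun _ => (1 : ℂ)) ψ = -1 := by
  classical
  let _ : Fintype ↥P := Fintype.ofFinite _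
  have hA : (Nat.card ↥P : ℂ) ≠ 0 := Nat.cast_ne_zero.mpr Nat.card_pos.ne'
  rw [babCoef_eq_sum]
  have h1 : ∀ y : ↥P, (1 : ℂ) * (((ψ y⁻¹ : ℂˣ) : ℂ) - 1) = conj ((ψ y : ℂˣ) : ℂ) - 1 := by
    intro y
    rw [bab_conj_lin, one_mul]
  rw [Finset.sum_congr rfl (fun y _ => h1 y), Finset.sum_sub_distrib, bab_sum_lin_conj ψ hψ,
    Finset.sum_const, Finset.card_univ, ← Nat.card_eq_fintype_card]
  simp

/-- Fourier inversion: `χ(y) = ∑_ψ a_χ(ψ - 1) ψ(y)` for `y ∈ P \ {1}`, `P` abelian. -/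
theorem bab_fourier [IsMulCommutative P] [Fintype (↥P →* ℂˣ)] (χ : G → ℂ) (y : ↥P)
    (hy : y ≠ 1) :
    ∑ ψ : ↥P →* ℂˣ, babCoef P χ ψ * ((ψ y : ℂˣ) : ℂ) = χ (y : G) := by
  classical
  let _ : Fintype ↥P := Fintype.ofFinite _
  have h := bab_fourier_aux (fun z : ↥P => χ (z : G)) y hy
  rw [← h]
  refine Finset.sum_congr rfl fun ψ _ => ?_
  rw [babCoef_eq_sum]

end Coef

end Cfsg.Agent.Lib.Helper1
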