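import Mathlib
import Cfsg.Agent.Lib.Helper81.PSolv2

/-!
# Group theory for Brauer's theorem on abelian Sylow subgroups with Frobenius normalizer (helper1)

`P` an abelian Sylow `p`-subgroup of `G`, `N = N_G(P)`, `C = C_G(P)`, with
`C_G(y) ∩ N = C` for `y ∈ P \ {1}`:

* `bab_index_pPrimeCore`: `C_G(y)` has a normal `p`-complement (Burnside), for `y ∈ P \ {1}`;
* `bab_fusion`: `N` controls fusion in `P` (Burnside);
* `babConj`: conjugate linear characters of `P`; `bab_semireg`: a non-trivial linear character of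
  `P` is fixed only by `C`; `bab_card_conj_eq`, `bab_card_orbit`: the resulting counts.
-/

set_option autoImplicit false

namespace Cfsg.Agent.Lib.Helper1

open Subgroup

section BrauerAbGrp

variable {G : Type*} [Group G] [Finite G] {p : ℕ} [Fact p.Prime] (P : Sylow p G)

omit [Finite G] [Fact p.Prime] in
theorem bab_le_cent (hab : IsMulCommutative P) {y : G} (hy : y ∈ (P : Subgroup G)) :
    (P : Subgroup G) ≤ centralizer ({y} : Set G) := by
  intro x hx
  rw [mem_centralizer_iff]
  intro z hz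
  rw [Set.mem_singleton_iff] at hz
  subst hz
  exact mem_centralizer_iff.mp ((P : Subgroup G).le_centralizer hx) z hy

omit [Finite G] [Fact p.Prime] in
/-- The normalizer condition of Burnside's transfer theorem inside `C_G(y)`. -/
theorem bab_burnside_cond (hab : IsMulCommutative P) {y : G} (hy : y ∈ (P : Subgroup G))
    (hfrobY : centralizer ({y} : Set G) ⊓ normalizer ((P : Subgroup G) : Set G) =
      centralizer ((P : Subgroup G) : Set G)) :
    normalizer (((P.subtype (bab_le_cent P hab hy) :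
        Sylow p (centralizer ({y} : Set G))) : Subgroup (centralizer ({y} : Set G))) :
        Set (centralizer ({y} : Set G))) ≤
      centralizer (((P.subtype (bab_le_cent P hab hy) :
        Sylow p (centralizer ({y} : Set G))) : Subgroup (centralizer ({y} : Set G))) :
        Set (centralizer ({y} : Set G))) := by
  have hPC := bab_le_cent P hab hy
  intro t ht
  rw [Sylow.coe_subtype] at ht ⊢
  have htG : (t : G) ∈ normalizer ((P : Subgroup G) : Set G) := by
    rw [mem_normalizer_iff]
    intro h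
    constructor
    · intro hh
      have hhC : h ∈ centralizer ({y} : Set G) := hPC hh
      have h1 := (mem_normalizer_iff.mp ht ⟨h, hhC⟩).mp (by rw [mem_subgroupOf]; exact hh)
      rw [mem_subgroupOf] at h1
      exact h1
    · intro hh
      have hhC : h ∈ centralizer ({y} : Set G) := by
        have h1 : (t : G) * h * (t : G)⁻¹ ∈ centralizer ({y} : Set G) := hPC hh
        have h2 : h = (t : G)⁻¹ * ((t : G) * h * (t : G)⁻¹) * (t : G) := by group
        rw [h2]
        exact mul_mem (mul_mem (inv_mem t.2) h1) t.2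
      have h1 := (mem_normalizer_iff.mp ht ⟨h, hhC⟩).mpr (by rw [mem_subgroupOf]; exact hh)
      rw [mem_subgroupOf] at h1
      exact h1
  have htC : (t : G) ∈ centralizer ((P : Subgroup G) : Set G) := by
    rw [← hfrobY]; exact ⟨t.2, htG⟩
  rw [mem_centralizer_iff]
  intro x hx
  rw [SetLike.mem_coe, mem_subgroupOf] at hx
  apply Subtype.ext
  push_cast
  exact mem_centralizer_iff.mp htC x hx

/-- `C_G(y)` has a normal `p`-complement: its `p'`-core has index `|P|`. -/
theorem bab_index_pPrimeCore (hab : IsMulCommutative P) {y : G} (hy : y ∈ (P : Subgroup G))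
    (hfrobY : centralizer ({y} : Set G) ⊓ normalizer ((P : Subgroup G) : Set G) =
      centralizer ((P : Subgroup G) : Set G)) :
    (Cfsg.pPrimeCore p (centralizer ({y} : Set G))).index = Nat.card (P : Subgroup G) := by
  have hp : p.Prime := Fact.out
  have hPC := bab_le_cent P hab hy
  have hN := bab_burnside_cond P hab hy hfrobY
  have hc := MonoidHom.ker_transferSylow_isComplement' (P.subtype hPC) hN
  have hodd := MonoidHom.not_dvd_card_ker_transferSylow (P.subtype hPC) hN
  have hle : (MonoidHom.transferSylow (P.subtype hPC) hN).ker ≤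
      Cfsg.pPrimeCore p (centralizer ({y} : Set G)) :=
    Cfsg.Agent.Lib.Helper81.le_pPrimeCore p _ (MonoidHom.normal_ker _)
      ((Nat.Prime.coprime_iff_not_dvd hp).2 hodd).symm
  have h1 := Subgroup.index_dvd_of_le hle
  have hcardP : Nat.card ((P.subtype hPC : Sylow p (centralizer ({y} : Set G))) :
      Subgroup (centralizer ({y} : Set G))) = Nat.card (P : Subgroup G) := by
    rw [Sylow.coe_subtype, Nat.card_congr (Subgroup.subgroupOfEquivOfLe hPC).toEquiv]
  rw [hc.symm.index_eq_card, hcardP] at h1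
  have h2 := Subgroup.card_mul_index (Cfsg.pPrimeCore p (centralizer ({y} : Set G)))
  have h3 : Nat.card (P : Subgroup G) ∣ Nat.card (centralizer ({y} : Set G)) :=
    Subgroup.card_dvd_of_le hPC
  have hco : Nat.Coprime (Nat.card (P : Subgroup G))
      (Nat.card (Cfsg.pPrimeCore p (centralizer ({y} : Set G)))) := by
    have h4 := Cfsg.Agent.Lib.Helper81.pPrimeCore_coprime (G := centralizer ({y} : Set G)) p
    rw [P.card_eq_multiplicity]
    exact Nat.Coprime.pow_left _ h4.symm
  rw [← h2] at h3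
  exact Nat.dvd_antisymm h1 (hco.dvd_of_dvd_mul_left h3)

/-- Burnside: `N_G(P)` controls fusion in an abelian Sylow subgroup `P`. -/
theorem bab_fusion (hab : IsMulCommutative P) (u : G) (hu : u ∈ (P : Subgroup G)) (g : G)
    (hg : g * u * g⁻¹ ∈ (P : Subgroup G)) :
    ∃ n ∈ normalizer ((P : Subgroup G) : Set G), n * u * n⁻¹ = g * u * g⁻¹ := by
  have := hab
  obtain ⟨n, hn, h⟩ := P.conj_eq_normalizer_conj_of_mem u g⁻¹ hu (by rwa [inv_inv])
  refine ⟨n⁻¹, inv_mem hn, ?_⟩
  rw [inv_inv] at h ⊢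
  exact h.symm

/-- the `x`-conjugate of a linear character of `P`: `w ↦ ψ (x w x⁻¹)` -/
noncomputable def babConj (x : ↥(normalizer ((P : Subgroup G) : Set G)))
    (ψ : ↥(P : Subgroup G) →* ℂˣ) : ↥(P : Subgroup G) →* ℂˣ :=
  ψ.comp (MulDistribMulAction.toMonoidHom ↥(P : Subgroup G) x)

omit [Finite G] [Fact p.Prime] in
theorem babConj_apply (x : ↥(normalizer ((P : Subgroup G) : Set G)))
    (ψ : ↥(P : Subgroup G) →* ℂˣ) (w : ↥(P : Subgroup G)) :
    babConj P x ψ w = ψ (x • w) := rfl

omit [Finite G] [Fact p.Prime] in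
theorem babConj_mul (x y : ↥(normalizer ((P : Subgroup G) : Set G)))
    (ψ : ↥(P : Subgroup G) →* ℂˣ) :
    babConj P (x * y) ψ = babConj P y (babConj P x ψ) := by
  apply MonoidHom.ext
  intro w
  rw [babConj_apply, babConj_apply, babConj_apply, mul_smul]

omit [Finite G] [Fact p.Prime] in
theorem babConj_one (ψ : ↥(P : Subgroup G) →* ℂˣ) : babConj P 1 ψ = ψ := by
  apply MonoidHom.ext
  intro w
  rw [babConj_apply, one_smul]

omit [Finite G] [Fact p.Prime] in
theorem babConj_triv (x : ↥(normalizer ((P : Subgroup G) : Set G))) :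
    babConj P x 1 = 1 := by
  apply MonoidHom.ext
  intro w
  rw [babConj_apply]
  rfl

omit [Finite G] [Fact p.Prime] in
theorem babConj_injective (x : ↥(normalizer ((P : Subgroup G) : Set G))) :
    Function.Injective (babConj P x) := by
  intro ψ ψ' h
  have h1 := congrArg (babConj P x⁻¹) h
  rwa [← babConj_mul, ← babConj_mul, mul_inv_cancel, babConj_one, babConj_one] at h1

omit [Finite G] [Fact p.Prime] in
theorem babConj_ne_one (x : ↥(normalizer ((P : Subgroup G) : Set G)))
    (ψ : ↥(P : Subgroup G) →* ℂˣ) (hψ : ψ ≠ 1) : babConj P x ψ ≠ 1 := by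
  intro h
  apply hψ
  apply babConj_injective P x
  rw [h, babConj_triv]

omit [Fact p.Prime] in
/-- a linear character of `P` fixed by an element of `N \ C` is trivial -/
theorem bab_semireg
    (hfrob : ∀ y : G, y ∈ (P : Subgroup G) → y ≠ 1 →
      centralizer ({y} : Set G) ⊓ normalizer ((P : Subgroup G) : Set G) =
        centralizer ((P : Subgroup G) : Set G))
    (x : ↥(normalizer ((P : Subgroup G) : Set G)))
    (hx : (x : G) ∉ centralizer ((P : Subgroup G) : Set G))
    (ψ : ↥(P : Subgroup G) →* ℂˣ) (hψ : babConj P x ψ = ψ) : ψ = 1 := by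
  have hinj : Function.Injective (fun w : ↥(P : Subgroup G) => (x • w) * w⁻¹) := by
    intro w1 w2 h
    have h' : (x • w1) * w1⁻¹ = (x • w2) * w2⁻¹ := h
    have hu : x • (w2⁻¹ * w1) = w2⁻¹ * w1 := by
      rw [smul_mul', smul_inv']
      calc (x • w2)⁻¹ * (x • w1) = (x • w2)⁻¹ * ((x • w1) * w1⁻¹) * w1 := by group
        _ = (x • w2)⁻¹ * ((x • w2) * w2⁻¹) * w1 := by rw [h']
        _ = w2⁻¹ * w1 := by group
    by_contra hne
    have hu1 : ((w2⁻¹ * w1 : ↥(P : Subgroup G)) : G) ≠ 1 := by
      intro h1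
      apply hne
      have h2 : w2⁻¹ * w1 = 1 := Subtype.ext h1
      exact (inv_mul_eq_one.mp h2).symm
    apply hx
    rw [← hfrob _ (w2⁻¹ * w1).2 hu1]
    refine Subgroup.mem_inf.mpr ⟨?_, x.2⟩
    rw [mem_centralizer_iff]
    intro z hz
    rw [Set.mem_singleton_iff] at hz
    subst hz
    have h3 : (x : G) * ((w2⁻¹ * w1 : ↥(P : Subgroup G)) : G) * (x : G)⁻¹ =
        ((w2⁻¹ * w1 : ↥(P : Subgroup G)) : G) := congrArg Subtype.val hu
    calc ((w2⁻¹ * w1 : ↥(P : Subgroup G)) : G) * (x : G)
        = ((x : G) * ((w2⁻¹ * w1 : ↥(P : Subgroup G)) : G) * (x : G)⁻¹) * (x : G) := by rw [h3]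
      _ = (x : G) * ((w2⁻¹ * w1 : ↥(P : Subgroup G)) : G) := by group
  have hsurj := Finite.surjective_of_injective hinj
  apply MonoidHom.ext
  intro w
  obtain ⟨v, hv⟩ := hsurj w
  have hv' : (x • v) * v⁻¹ = w := hv
  have h1 : ψ (x • v) = ψ v := by rw [← babConj_apply, hψ]
  rw [← hv', map_mul, h1, map_inv, mul_inv_cancel]
  rfl

omit [Fact p.Prime] in
theorem babConj_fix_iff
    (hfrob : ∀ y : G, y ∈ (P : Subgroup G) → y ≠ 1 →
      centralizer ({y} : Set G) ⊓ normalizer ((P : Subgroup G) : Set G) =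
        centralizer ((P : Subgroup G) : Set G))
    (ψ : ↥(P : Subgroup G) →* ℂˣ) (hψ : ψ ≠ 1)
    (t : ↥(normalizer ((P : Subgroup G) : Set G))) :
    babConj P t ψ = ψ ↔ (t : G) ∈ centralizer ((P : Subgroup G) : Set G) := by
  constructor
  · intro h
    by_contra hcon
    exact hψ (bab_semireg P hfrob t hcon ψ h)
  · intro h
    apply MonoidHom.ext
    intro w
    rw [babConj_apply]
    congr 1
    apply Subtype.ext
    show (t : G) * (w : G) * (t : G)⁻¹ = (w : G)
    rw [← mem_centralizer_iff.mp h (w : G) w.2]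
    group

omit [Fact p.Prime] in
/-- the number of `x ∈ N` conjugating `ψ'` to `ψ` is `|C|` (if there is one) -/
theorem bab_card_conj_eq
    (hfrob : ∀ y : G, y ∈ (P : Subgroup G) → y ≠ 1 →
      centralizer ({y} : Set G) ⊓ normalizer ((P : Subgroup G) : Set G) =
        centralizer ((P : Subgroup G) : Set G))
    (ψ' : ↥(P : Subgroup G) →* ℂˣ) (hψ' : ψ' ≠ 1) (ψ : ↥(P : Subgroup G) →* ℂˣ)
    (x0 : ↥(normalizer ((P : Subgroup G) : Set G))) (hx0 : babConj P x0 ψ' = ψ) :
    Nat.card {x : ↥(normalizer ((P : Subgroup G) : Set G)) // babConj P x ψ' = ψ} =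
      Nat.card ↥(centralizer ((P : Subgroup G) : Set G)) := by
  have hCN : centralizer ((P : Subgroup G) : Set G) ≤ normalizer ((P : Subgroup G) : Set G) :=
    Subgroup.centralizer_le_normalizer _
  rw [← Nat.card_congr (Subgroup.subgroupOfEquivOfLe hCN).toEquiv]
  apply Nat.card_congr
  refine ⟨fun x => ⟨x.1 * x0⁻¹, ?_⟩, fun t => ⟨t.1 * x0, ?_⟩, ?_, ?_⟩
  · rw [mem_subgroupOf]
    rw [← babConj_fix_iff P hfrob ψ' hψ', babConj_mul, x.2, ← hx0, ← babConj_mul,
      mul_inv_cancel, babConj_one]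
  · have h1 := (babConj_fix_iff P hfrob ψ' hψ' t.1).mpr (mem_subgroupOf.mp t.2)
    rw [babConj_mul, h1, hx0]
  · intro x
    apply Subtype.ext
    show x.1 * x0⁻¹ * x0 = x.1
    group
  · intro t
    apply Subtype.ext
    show t.1 * x0 * x0⁻¹ = t.1
    group

omit [Fact p.Prime] in
/-- every `N`-orbit of non-trivial linear characters of `P` has `|N : C|` elements -/
theorem bab_card_orbit
    (hfrob : ∀ y : G, y ∈ (P : Subgroup G) → y ≠ 1 →
      centralizer ({y} : Set G) ⊓ normalizer ((P : Subgroup G) : Set G) =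
        centralizer ((P : Subgroup G) : Set G))
    (ψ0 : ↥(P : Subgroup G) →* ℂˣ) (hψ0 : ψ0 ≠ 1) :
    Nat.card {ψ : ↥(P : Subgroup G) →* ℂˣ //
        ∃ x : ↥(normalizer ((P : Subgroup G) : Set G)), babConj P x ψ0 = ψ} =
      (centralizer ((P : Subgroup G) : Set G)).relIndex
        (normalizer ((P : Subgroup G) : Set G)) := by
  classical
  let _ : Fintype ↥(normalizer ((P : Subgroup G) : Set G)) := Fintype.ofFinite _
  let _ : Fintype (↥(P : Subgroup G) →* ℂˣ) := Fintype.ofFinite _
  have hCN : centralizer ((P : Subgroup G) : Set G) ≤ normalizer ((P : Subgroup G) : Set G) :=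
    Subgroup.centralizer_le_normalizer _
  have h1 := Finset.card_eq_sum_card_fiberwise (f := fun x => babConj P x ψ0)
    (s := (Finset.univ : Finset ↥(normalizer ((P : Subgroup G) : Set G))))
    (t := (Finset.univ : Finset (↥(P : Subgroup G) →* ℂˣ))) (fun _ _ => Finset.mem_coe.mpr (Finset.mem_univ _))
  have h2 : ∀ b : ↥(P : Subgroup G) →* ℂˣ,
      (Finset.univ.filter (fun a : ↥(normalizer ((P : Subgroup G) : Set G)) =>
        babConj P a ψ0 = b)).card =
      if (∃ x : ↥(normalizer ((P : Subgroup G) : Set G)), babConj P x ψ0 = b) then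
        Nat.card ↥(centralizer ((P : Subgroup G) : Set G)) else 0 := by
    intro b
    split_ifs with hb
    · obtain ⟨x0, hx0⟩ := hb
      rw [← bab_card_conj_eq P hfrob ψ0 hψ0 b x0 hx0, Nat.card_eq_fintype_card,
        Fintype.card_subtype]
    · rw [Finset.card_eq_zero, Finset.filter_eq_empty_iff]
      intro x _ hx
      exact hb ⟨x, hx⟩
  rw [Finset.sum_congr rfl (fun b _ => h2 b), ← Finset.sum_filter, Finset.sum_const,
    smul_eq_mul, Finset.card_univ, ← Nat.card_eq_fintype_card] at h1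
  have h3 := Subgroup.card_mul_index
    ((centralizer ((P : Subgroup G) : Set G)).subgroupOf (normalizer ((P : Subgroup G) : Set G)))
  rw [Nat.card_congr (Subgroup.subgroupOfEquivOfLe hCN).toEquiv] at h3
  have h4 : Nat.card {ψ : ↥(P : Subgroup G) →* ℂˣ //
        ∃ x : ↥(normalizer ((P : Subgroup G) : Set G)), babConj P x ψ0 = ψ} =
      (Finset.univ.filter (fun ψ : ↥(P : Subgroup G) →* ℂˣ =>
        ∃ x : ↥(normalizer ((P : Subgroup G) : Set G)), babConj P x ψ0 = ψ)).card := by
    rw [Nat.card_eq_fintype_card, Fintype.card_subtype]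
  rw [h4]
  have hpos : 0 < Nat.card ↥(centralizer ((P : Subgroup G) : Set G)) := Nat.card_pos
  have h5 : (Finset.univ.filter (fun ψ : ↥(P : Subgroup G) →* ℂˣ =>
        ∃ x : ↥(normalizer ((P : Subgroup G) : Set G)), babConj P x ψ0 = ψ)).card *
      Nat.card ↥(centralizer ((P : Subgroup G) : Set G)) =
      Nat.card ↥(centralizer ((P : Subgroup G) : Set G)) *
        ((centralizer ((P : Subgroup G) : Set G)).subgroupOf
          (normalizer ((P : Subgroup G) : Set G))).index := by
    rw [h3, ← h1]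
  rw [mul_comm] at h5
  exact Nat.eq_of_mul_eq_mul_left hpos h5

omit [Finite G] [Fact p.Prime] in
/-- the relation of the statement in terms of `babConj` -/
theorem bab_rel_iff (ψ ψ' : ↥(P : Subgroup G) →* ℂˣ) :
    (∃ n : G, n ∈ normalizer ((P : Subgroup G) : Set G) ∧
      ∀ w w' : ↥(P : Subgroup G), (w' : G) = n * w * n⁻¹ → ψ' w' = ψ w) ↔
    ∃ x : ↥(normalizer ((P : Subgroup G) : Set G)), babConj P x ψ' = ψ := by
  constructor
  · rintro ⟨n, hn, h⟩
    refine ⟨⟨n, hn⟩, ?_⟩
    apply MonoidHom.ext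
    intro w
    rw [babConj_apply]
    exact h w _ rfl
  · rintro ⟨x, hx⟩
    refine ⟨x.1, x.2, ?_⟩
    intro w w' hw
    have h1 : w' = x • w := Subtype.ext hw
    rw [h1, ← babConj_apply, hx]

end BrauerAbGrp

end Cfsg.Agent.Lib.Helper1
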