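import Mathlib
import Cfsg.Agent.S4720
import Cfsg.Agent.S0942
import Cfsg.Agent.Lib.Helper1.BrauerAbGrp
import Cfsg.Agent.Lib.Helper1.BrauerAbChar
import Cfsg.Agent.Lib.Helper79.Prin2
import Cfsg.Agent.Lib.Helper81.RegPart
import Cfsg.Agent.Lib.Helper21.Loc2
import Cfsg.Agent.Lib.Helper83.Linear
import Cfsg.Agent.Lib.Helper83.IrrBasic

/-!
# Brauer's theorem on abelian Sylow subgroups with Frobenius normalizer: the block-theoretic
inputs (helper1)

* `bab_gram`: the Gram matrix `∑_{χ ∈ B₀} a_χ(ψ - 1) conj a_χ(ψ' - 1) = m + [ψ ~ ψ']`, from the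
  column lemma S4720;
* `bab_orth_reg`: orthogonality of the coefficient vectors to the `p`-regular columns;
* `bab_ne_zero`: non-vanishing of `B₀` on `P`; `bab_section`: values on the sections of `P \ {1}`.
-/

set_option autoImplicit false

namespace Cfsg.Agent.Lib.Helper1

open Cfsg Subgroup
open scoped ComplexConjugate

theorem bab_finsum_mem {α M : Type*} [Fintype α] [AddCommMonoid M] (s : Set α)
    [DecidablePred (· ∈ s)] (f : α → M) :
    ∑ᶠ i ∈ s, f i = ∑ i ∈ Finset.univ.filter (· ∈ s), f i := by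
  apply finsum_mem_eq_sum_of_inter_support_eq
  ext x
  simp

section

variable {G : Type*} [Group G] [Finite G] {p : ℕ} [Fact p.Prime] {M : Ideal Cfsg.AlgInt}

/-- `λ(C_G(y)) = |P|` for `y ∈ P \ {1}` -/
theorem bab_lambda (hM : Cfsg.IsPModular p M) (P : Sylow p G) (hab : IsMulCommutative P)
    {y : G} (hy : y ∈ (P : Subgroup G))
    (hfrobY : centralizer ({y} : Set G) ⊓ normalizer ((P : Subgroup G) : Set G) =
      centralizer ((P : Subgroup G) : Set G)) :
    ∑ᶠ ψ ∈ principalBlock M ↥(centralizer ({y} : Set G)),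
      ((charDegree (ψ : ↥(centralizer ({y} : Set G)) → ℂ) : ℚ)) ^ 2 =
      (Nat.card ↥(P : Subgroup G) : ℚ) := by
  classical
  have hp : p.Prime := Fact.out
  let _ : Fintype ↥(centralizer ({y} : Set G)) := Fintype.ofFinite _
  have := Cfsg.Agent.Lib.Helper4.irr_finite (G := ↥(centralizer ({y} : Set G)))
  let _ : Fintype (IrrCharacter ↥(centralizer ({y} : Set G))) := Fintype.ofFinite _
  have hidx := bab_index_pPrimeCore P hab hy hfrobY
  have hcard := P.card_eq_multiplicity
  rw [hcard] at hidx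
  have hsum := Cfsg.Agent.Lib.Helper79.principal_sum_of_index hM _ hidx
    (1 : ↥(centralizer ({y} : Set G))) (by rw [orderOf_one]; exact hp.not_dvd_one)
  have h1 : ∀ χ : IrrCharacter ↥(centralizer ({y} : Set G)),
      (χ : ↥(centralizer ({y} : Set G)) → ℂ) 1 * conj ((χ : ↥(centralizer ({y} : Set G)) → ℂ) 1) =
      (((charDegree (χ : ↥(centralizer ({y} : Set G)) → ℂ) : ℚ) ^ 2 : ℚ) : ℂ) := by
    intro χ
    rw [(Cfsg.Agent.Lib.Helper83.irr_degree χ.2).2]
    push_cast
    rw [Complex.conj_natCast, sq]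
  rw [bab_finsum_mem] at hsum ⊢
  rw [Finset.sum_congr rfl (fun χ _ => h1 χ), ← Rat.cast_sum] at hsum
  rw [hcard]
  have h2 : (((p ^ (Nat.card G).factorization p : ℕ) : ℚ) : ℂ) =
      ((p ^ (Nat.card G).factorization p : ℕ) : ℂ) := by push_cast; rfl
  rw [← h2] at hsum
  exact Rat.cast_injective hsum

/-- **The Gram matrix** of the coefficient vectors `χ ↦ a_χ(ψ - 1)` over the principal block. -/
theorem bab_gram (hM : Cfsg.IsPModular p M) (P : Sylow p G) (hab : IsMulCommutative P)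
    (hP1 : Nat.card P ≠ 1)
    (hfrob : ∀ y : G, y ∈ (P : Subgroup G) → y ≠ 1 →
      centralizer ({y} : Set G) ⊓ normalizer ((P : Subgroup G) : Set G) =
        centralizer ((P : Subgroup G) : Set G))
    (ψ ψ' : ↥(P : Subgroup G) →* ℂˣ) (hψ : ψ ≠ 1) (hψ' : ψ' ≠ 1) :
    ((∃ x : ↥(normalizer ((P : Subgroup G) : Set G)), babConj P x ψ' = ψ) →
      ∑ᶠ χ ∈ principalBlock M G, babCoef (P : Subgroup G) (χ : G → ℂ) ψ *
        conj (babCoef (P : Subgroup G) (χ : G → ℂ) ψ') =
      (((centralizer ((P : Subgroup G) : Set G)).relIndex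
        (normalizer ((P : Subgroup G) : Set G)) : ℕ) : ℂ) + 1) ∧
    ((¬ ∃ x : ↥(normalizer ((P : Subgroup G) : Set G)), babConj P x ψ' = ψ) →
      ∑ᶠ χ ∈ principalBlock M G, babCoef (P : Subgroup G) (χ : G → ℂ) ψ *
        conj (babCoef (P : Subgroup G) (χ : G → ℂ) ψ') =
      (((centralizer ((P : Subgroup G) : Set G)).relIndex
        (normalizer ((P : Subgroup G) : Set G)) : ℕ) : ℂ)) := by
  classical
  have hp : p.Prime := Fact.out
  let _ : Fintype ↥(P : Subgroup G) := Fintype.ofFinite _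
  let _ : Fintype ↥(normalizer ((P : Subgroup G) : Set G)) := Fintype.ofFinite _
  have hCN : centralizer ((P : Subgroup G) : Set G) ≤ normalizer ((P : Subgroup G) : Set G) :=
    Subgroup.centralizer_le_normalizer _
  have hPpos : (Nat.card ↥(P : Subgroup G) : ℂ) ≠ 0 := Nat.cast_ne_zero.mpr Nat.card_pos.ne'
  have hCpos : (Nat.card ↥(centralizer ((P : Subgroup G) : Set G)) : ℂ) ≠ 0 :=
    Nat.cast_ne_zero.mpr Nat.card_pos.ne'
  have hCposQ : (Nat.card ↥(centralizer ((P : Subgroup G) : Set G)) : ℚ) ≠ 0 :=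
    Nat.cast_ne_zero.mpr Nat.card_pos.ne'
  obtain ⟨U, hU⟩ : ∃ U : Set G, U = {u | u ∈ (P : Subgroup G) ∧ u ≠ 1} := ⟨_, rfl⟩
  have hUne : U.Nonempty := by
    by_contra hcon
    apply hP1
    have hbot : (P : Subgroup G) = ⊥ := by
      rw [Subgroup.eq_bot_iff_forall]
      intro x hx
      by_contra hx1
      apply hcon
      rw [hU]
      exact ⟨x, hx, hx1⟩
    rw [hbot]
    exact Subgroup.card_bot
  have hUP : U ⊆ ((P : Subgroup G) : Set G) := by rw [hU]; exact fun u hu => hu.1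
  have hUN : ∀ n ∈ normalizer ((P : Subgroup G) : Set G), ∀ u ∈ U, n * u * n⁻¹ ∈ U := by
    intro n hn u hu
    rw [hU] at hu ⊢
    refine ⟨(mem_normalizer_iff.mp hn u).mp hu.1, ?_⟩
    intro h
    exact hu.2 (conj_eq_one_iff.mp h)
  have hfus : ∀ u ∈ U, ∀ g : G, g * u * g⁻¹ ∈ ((P : Subgroup G) : Set G) →
      ∃ n ∈ normalizer ((P : Subgroup G) : Set G), n * u * n⁻¹ = g * u * g⁻¹ := by
    intro u hu g hg
    rw [hU] at hu
    exact bab_fusion P hab u hu.1 g hg
  have hw : ∀ y ∈ U, (∑ᶠ ψ ∈ principalBlock M ↥(centralizer ({y} : Set G)),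
      ((charDegree (ψ : ↥(centralizer ({y} : Set G)) → ℂ) : ℚ)) ^ 2) =
      ((Nat.card ↥(P : Subgroup G) : ℚ) /
        (Nat.card ↥(centralizer ((P : Subgroup G) : Set G)) : ℚ)) *
      (Nat.card ↥(normalizer ((P : Subgroup G) : Set G) ⊓ centralizer ({y} : Set G)) : ℚ) := by
    intro y hy
    rw [hU] at hy
    rw [bab_lambda hM P hab hy.1 (hfrob y hy.1 hy.2), inf_comm, hfrob y hy.1 hy.2]
    field_simp
  have hθ : ∀ φ : ↥(P : Subgroup G) →* ℂˣ,
      IsGeneralizedCharacter ↥(P : Subgroup G) (fun y => ((φ y : ℂˣ) : ℂ) - 1) := by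
    intro φ
    exact ⟨fun y => ((φ y : ℂˣ) : ℂ), fun _ => 1,
      Cfsg.Agent.Lib.Helper4.isCharacter_of_irr (babLin φ),
      Cfsg.Agent.Lib.Helper4.isCharacter_of_irr (Cfsg.Agent.Lib.Helper83.trivIrr _), rfl⟩
  have hθU : ∀ y : ↥(P : Subgroup G), (y : G) ∉ U → ((ψ y : ℂˣ) : ℂ) - 1 = 0 := by
    intro y hy
    have hy1 : y = 1 := by
      by_contra h
      apply hy
      rw [hU]
      exact ⟨y.2, fun h1 => h (Subtype.ext h1)⟩
    rw [hy1, map_one, Units.val_one, sub_self]
  have key := Cfsg.Agent.S4720.result p M hM (P : Subgroup G) P.isPGroup'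
    (normalizer ((P : Subgroup G) : Set G)) Subgroup.le_normalizer le_rfl U hUne hUP hUN hfus _ hw
    (fun y => ((ψ y : ℂˣ) : ℂ) - 1) (fun y => ((ψ' y : ℂˣ) : ℂ) - 1) (hθ ψ) (hθ ψ') hθU
  have h1 : ∀ (x : ↥(normalizer ((P : Subgroup G) : Set G))) (y : ↥(P : Subgroup G)),
      extendByZero (P : Subgroup G) (fun y => ((ψ' y : ℂˣ) : ℂ) - 1)
        ((x : G) * (y : G) * (x : G)⁻¹) = ((babConj P x ψ' y : ℂˣ) : ℂ) - 1 := by
    intro x y
    have h2 : (x : G) * (y : G) * (x : G)⁻¹ = ((x • y : ↥(P : Subgroup G)) : G) := rfl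
    rw [h2, Cfsg.Agent.Lib.Helper4.extendByZero_apply_mem]
    rfl
  have hR : ∑ᶠ y : ↥(P : Subgroup G), (((ψ y : ℂˣ) : ℂ) - 1) *
      conj (∑ᶠ x : ↥(normalizer ((P : Subgroup G) : Set G)),
        extendByZero (P : Subgroup G) (fun y => ((ψ' y : ℂˣ) : ℂ) - 1)
          ((x : G) * (y : G) * (x : G)⁻¹)) =
      (Nat.card ↥(P : Subgroup G) : ℂ) *
        (((Finset.univ.filter (fun x : ↥(normalizer ((P : Subgroup G) : Set G)) =>
            ψ = babConj P x ψ')).card : ℂ) +
          (Nat.card ↥(normalizer ((P : Subgroup G) : Set G)) : ℂ)) := by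
    rw [finsum_eq_sum_of_fintype]
    have h3 : ∀ y : ↥(P : Subgroup G), (((ψ y : ℂˣ) : ℂ) - 1) *
        conj (∑ᶠ x : ↥(normalizer ((P : Subgroup G) : Set G)),
          extendByZero (P : Subgroup G) (fun y => ((ψ' y : ℂˣ) : ℂ) - 1)
            ((x : G) * (y : G) * (x : G)⁻¹)) =
        ∑ x : ↥(normalizer ((P : Subgroup G) : Set G)), (((ψ y : ℂˣ) : ℂ) - 1) *
          conj (((babConj P x ψ' y : ℂˣ) : ℂ) - 1) := by
      intro y
      rw [finsum_eq_sum_of_fintype, map_sum, Finset.mul_sum]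
      refine Finset.sum_congr rfl fun x _ => ?_
      rw [h1]
    rw [Finset.sum_congr rfl (fun y _ => h3 y), Finset.sum_comm]
    have h4 : ∀ x : ↥(normalizer ((P : Subgroup G) : Set G)),
        ∑ y : ↥(P : Subgroup G), (((ψ y : ℂˣ) : ℂ) - 1) *
          conj (((babConj P x ψ' y : ℂˣ) : ℂ) - 1) =
        (Nat.card ↥(P : Subgroup G) : ℂ) * ((if ψ = babConj P x ψ' then 1 else 0) + 1) :=
      fun x => bab_inner_sub_one ψ (babConj P x ψ') hψ (babConj_ne_one P x ψ' hψ')
    rw [Finset.sum_congr rfl (fun x _ => h4 x), ← Finset.mul_sum, Finset.sum_add_distrib,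
      Finset.sum_boole, Finset.sum_const, Finset.card_univ, ← Nat.card_eq_fintype_card]
    simp
  have hL : ∑ᶠ χ ∈ principalBlock M G, babCoef (P : Subgroup G) (χ : G → ℂ) ψ *
      conj (babCoef (P : Subgroup G) (χ : G → ℂ) ψ') =
      ((((Nat.card ↥(P : Subgroup G) : ℚ) /
        (Nat.card ↥(centralizer ((P : Subgroup G) : Set G)) : ℚ) : ℚ) : ℂ) /
        (Nat.card ↥(P : Subgroup G) : ℂ) ^ 2) *
      ((Nat.card ↥(P : Subgroup G) : ℂ) *
        (((Finset.univ.filter (fun x : ↥(normalizer ((P : Subgroup G) : Set G)) =>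
            ψ = babConj P x ψ')).card : ℂ) +
          (Nat.card ↥(normalizer ((P : Subgroup G) : Set G)) : ℂ))) := by
    rw [← hR]
    exact key
  have hN : (Nat.card ↥(normalizer ((P : Subgroup G) : Set G)) : ℂ) =
      (Nat.card ↥(centralizer ((P : Subgroup G) : Set G)) : ℂ) *
        (((centralizer ((P : Subgroup G) : Set G)).relIndex
          (normalizer ((P : Subgroup G) : Set G)) : ℕ) : ℂ) := by
    have h3 := Subgroup.card_mul_index
      ((centralizer ((P : Subgroup G) : Set G)).subgroupOf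
        (normalizer ((P : Subgroup G) : Set G)))
    rw [Nat.card_congr (Subgroup.subgroupOfEquivOfLe hCN).toEquiv] at h3
    rw [← h3]
    push_cast
    rfl
  constructor
  · rintro ⟨x0, hx0⟩
    have hcnt : (Finset.univ.filter (fun x : ↥(normalizer ((P : Subgroup G) : Set G)) =>
        ψ = babConj P x ψ')).card = Nat.card ↥(centralizer ((P : Subgroup G) : Set G)) := by
      rw [← bab_card_conj_eq P hfrob ψ' hψ' ψ x0 hx0, Nat.card_eq_fintype_card,
        Fintype.card_subtype]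
      congr 1
      ext x
      simp [eq_comm]
    rw [hL, hcnt, hN]
    push_cast
    field_simp
    ring
  · intro hno
    have hcnt : (Finset.univ.filter (fun x : ↥(normalizer ((P : Subgroup G) : Set G)) =>
        ψ = babConj P x ψ')).card = 0 := by
      rw [Finset.card_eq_zero, Finset.filter_eq_empty_iff]
      intro x _ hx
      exact hno ⟨x, hx.symm⟩
    rw [hL, hcnt, hN]
    push_cast
    field_simp
    ring

open scoped Classical in
/-- the coefficient vectors are orthogonal to the `p`-regular columns of the principal block -/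
theorem bab_orth_reg (hM : Cfsg.IsPModular p M) (P : Sylow p G)
    (ψ : ↥(P : Subgroup G) →* ℂˣ) (g : G) (hg : ¬ p ∣ orderOf g) [Fintype (IrrCharacter G)] :
    ∑ χ : IrrCharacter G, (if χ ∈ principalBlock M G then
      babCoef (P : Subgroup G) (χ : G → ℂ) ψ * conj ((χ : G → ℂ) g) else 0) = 0 := by
  have hp : p.Prime := Fact.out
  let _ : Fintype G := Fintype.ofFinite G
  let _ : Fintype ↥(P : Subgroup G) := Fintype.ofFinite _
  have h1 : ∀ χ : IrrCharacter G, (if χ ∈ principalBlock M G then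
      babCoef (P : Subgroup G) (χ : G → ℂ) ψ * conj ((χ : G → ℂ) g) else 0) =
      ∑ y : ↥(P : Subgroup G), ((Nat.card ↥(P : Subgroup G) : ℂ)⁻¹ *
        (((ψ y⁻¹ : ℂˣ) : ℂ) - 1)) *
        (if χ ∈ principalBlock M G then (χ : G → ℂ) (y : G) * conj ((χ : G → ℂ) g) else 0) := by
    intro χ
    split_ifs with h
    · rw [babCoef_eq_sum, Finset.mul_sum, Finset.sum_mul]
      refine Finset.sum_congr rfl fun y _ => ?_
      ring
    · simp
  rw [Finset.sum_congr rfl (fun χ _ => h1 χ), Finset.sum_comm]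
  apply Finset.sum_eq_zero
  intro y _
  rw [← Finset.mul_sum]
  by_cases hy : y = 1
  · rw [hy]
    simp
  · have hy2 : p ∣ orderOf (y : G) := by
      have h2 : orderOf y ∣ Nat.card ↥(P : Subgroup G) := orderOf_dvd_natCard y
      rw [P.card_eq_multiplicity] at h2
      obtain ⟨i, -, hyi⟩ := (Nat.dvd_prime_pow hp).mp h2
      rw [Subgroup.orderOf_coe, hyi]
      have hi : i ≠ 0 := by
        rintro rfl
        rw [pow_zero, orderOf_eq_one_iff] at hyi
        exact hy hyi
      exact dvd_pow_self p hi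
    rw [Cfsg.Agent.Lib.Helper81.weak_orth_sum' hM _
      Cfsg.Agent.Lib.Helper79.isPBlock_principalBlock g (y : G) hg hy2, mul_zero]

/-- characters of the principal block do not vanish on an abelian Sylow subgroup -/
theorem bab_ne_zero (hM : Cfsg.IsPModular p M) (P : Sylow p G) (hab : IsMulCommutative P)
    (χ : IrrCharacter G) (hχ : χ ∈ principalBlock M G) (y : G) (hy : y ∈ (P : Subgroup G)) :
    (χ : G → ℂ) y ≠ 0 := by
  intro h0
  have h : MemLocalIdeal M (centralChar (fun _ : G => (1 : ℂ)) y - centralChar (χ : G → ℂ) y) :=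
    hχ y
  unfold centralChar at h
  rw [h0, mul_zero, zero_div, sub_zero, mul_one, div_one] at h
  have h1 := (Cfsg.Agent.Lib.Helper21.locIdeal_natCast_iff hM _).mp h
  have h2 : (centralizer ({y} : Set G)).index ∣ (P : Subgroup G).index :=
    Subgroup.index_dvd_of_le (bab_le_cent P hab hy)
  exact P.not_dvd_index (h1.trans h2)

/-- the value of a character of the principal block at an element whose `p`-part `y` lies in
`P \ {1}` is its value at `y` -/
theorem bab_section (hM : Cfsg.IsPModular p M) (P : Sylow p G) (hab : IsMulCommutative P)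
    (hfrob : ∀ y : G, y ∈ (P : Subgroup G) → y ≠ 1 →
      centralizer ({y} : Set G) ⊓ normalizer ((P : Subgroup G) : Set G) =
        centralizer ((P : Subgroup G) : Set G))
    (χ : IrrCharacter G) (hχ : χ ∈ principalBlock M G) (z y : G) (hz : IsPPart p z y)
    (hy : y ∈ (P : Subgroup G)) (hy1 : y ≠ 1) : (χ : G → ℂ) z = (χ : G → ℂ) y := by
  obtain ⟨y', hyy', hcomm, hyk, hy'reg⟩ := hz
  rw [← hyy']
  refine Cfsg.Agent.S0942.result p M hM y hyk y' ?_ χ hχ
  have hy'C : y' ∈ centralizer ({y} : Set G) := by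
    rw [mem_centralizer_iff]
    intro h hh
    rw [Set.mem_singleton_iff] at hh
    subst hh
    exact hcomm.eq
  have hidx := bab_index_pPrimeCore P hab hy (hfrob y hy hy1)
  rw [P.card_eq_multiplicity] at hidx
  have := Cfsg.Agent.Lib.Helper81.pPrimeCore_normal (G := ↥(centralizer ({y} : Set G))) p
  have hmem : (⟨y', hy'C⟩ : ↥(centralizer ({y} : Set G))) ∈
      pPrimeCore p ↥(centralizer ({y} : Set G)) :=
    (Cfsg.Agent.Lib.Helper79.mem_iff_pRegular_of_index _ _ hidx
      (Cfsg.Agent.Lib.Helper81.pPrimeCore_coprime p) _).mpr (by rwa [Subgroup.orderOf_mk])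
  exact Subgroup.mem_map.mpr ⟨⟨y', hy'C⟩, hmem, rfl⟩

end

end Cfsg.Agent.Lib.Helper1
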