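import Mathlib
import Cfsg.Agent.Lib.Helper1.BrauerAbStar
import Cfsg.Agent.Lib.Helper1.BrauerAbGram

/-!
# Brauer's theorem on abelian Sylow subgroups with Frobenius normalizer: the structure of the
coefficient vectors (helper1)

* `bab_struct`: `a_χ(ψ - 1) = D χ + ε [χ = Θ ψ]` on the principal block;
* `bab_card_image`: the number of exceptional characters;
* `bab_value_X`, `bab_value_Y`: the values on `P \ {1}`.
-/

set_option autoImplicit false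

namespace Cfsg.Agent.Lib.Helper1

open Cfsg Subgroup
open scoped ComplexConjugate

theorem bab_sum_split {α M : Type*} [Fintype α] [DecidableEq α] [AddCommMonoid M]
    (Bf Yf : Finset α) (hY : Yf ⊆ Bf) (f : α → M) (hf : ∀ x, x ∉ Bf → f x = 0) :
    ∑ x, f x = ∑ x ∈ Yf, f x + ∑ x ∈ Bf \ Yf, f x := by
  rw [← Finset.sum_union Finset.disjoint_sdiff, Finset.union_sdiff_of_subset hY]
  exact (Finset.sum_subset (Finset.subset_univ _) (fun x _ hx => hf x hx)).symm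

section

variable {G : Type*} [Group G] [Finite G] {p : ℕ} [Fact p.Prime] {M : Ideal Cfsg.AlgInt}

/-- the orbit relation on linear characters of `P`: `ψ` is an `N_G(P)`-conjugate of `ψ'` -/
def babRel (P : Sylow p G) (ψ ψ' : ↥(P : Subgroup G) →* ℂˣ) : Prop :=
  ∃ x : ↥(normalizer ((P : Subgroup G) : Set G)), babConj P x ψ' = ψ

omit [Finite G] [Fact p.Prime] in
theorem babRel_refl (P : Sylow p G) (ψ : ↥(P : Subgroup G) →* ℂˣ) : babRel P ψ ψ :=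
  ⟨1, babConj_one P ψ⟩

omit [Finite G] [Fact p.Prime] in
theorem babRel_ne_one (P : Sylow p G) {ψ ψ' : ↥(P : Subgroup G) →* ℂˣ} (h : babRel P ψ ψ')
    (hψ : ψ ≠ 1) : ψ' ≠ 1 := by
  rintro rfl
  obtain ⟨x, hx⟩ := h
  rw [babConj_triv] at hx
  exact hψ hx.symm

omit [Finite G] [Fact p.Prime] in
theorem babRel_ne_one' (P : Sylow p G) {ψ ψ' : ↥(P : Subgroup G) →* ℂˣ} (h : babRel P ψ ψ')
    (hψ' : ψ' ≠ 1) : ψ ≠ 1 := by
  obtain ⟨x, hx⟩ := h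
  rw [← hx]
  exact babConj_ne_one P x ψ' hψ'

omit [Fact p.Prime] in
/-- there are at least two orbits of non-trivial linear characters -/
theorem bab_exists_not_rel (P : Sylow p G) (hab : IsMulCommutative P)
    (hfrob : ∀ y : G, y ∈ (P : Subgroup G) → y ≠ 1 →
      centralizer ({y} : Set G) ⊓ normalizer ((P : Subgroup G) : Set G) =
        centralizer ((P : Subgroup G) : Set G))
    (m : ℕ) (hm2 : m + 1 < Nat.card P)
    (hCN : (centralizer ((P : Subgroup G) : Set G)).relIndex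
      (normalizer ((P : Subgroup G) : Set G)) = m)
    (ψ0 : ↥(P : Subgroup G) →* ℂˣ) (hψ0 : ψ0 ≠ 1) :
    ∃ ψ' : ↥(P : Subgroup G) →* ℂˣ, ψ' ≠ 1 ∧ ¬ babRel P ψ' ψ0 := by
  classical
  by_contra hcon
  push Not at hcon
  let _ : Fintype (↥(P : Subgroup G) →* ℂˣ) := Fintype.ofFinite _
  have h1 : Nat.card {ψ' : ↥(P : Subgroup G) →* ℂˣ // ψ' ≠ 1} ≤
      Nat.card {ψ : ↥(P : Subgroup G) →* ℂˣ //
        ∃ x : ↥(normalizer ((P : Subgroup G) : Set G)), babConj P x ψ0 = ψ} := by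
    apply Nat.card_le_card_of_injective
      (fun ψ' : {ψ' : ↥(P : Subgroup G) →* ℂˣ // ψ' ≠ 1} =>
        (⟨ψ'.1, hcon ψ'.1 ψ'.2⟩ : {ψ : ↥(P : Subgroup G) →* ℂˣ //
          ∃ x : ↥(normalizer ((P : Subgroup G) : Set G)), babConj P x ψ0 = ψ}))
    intro a b h
    have h' := congrArg (fun z : {ψ : ↥(P : Subgroup G) →* ℂˣ //
      ∃ x : ↥(normalizer ((P : Subgroup G) : Set G)), babConj P x ψ0 = ψ} => z.1) h
    exact Subtype.ext h'
  rw [bab_card_orbit P hfrob ψ0 hψ0, hCN] at h1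
  have h2 : Nat.card {ψ' : ↥(P : Subgroup G) →* ℂˣ // ψ' ≠ 1} =
      Nat.card ↥(P : Subgroup G) - 1 := by
    rw [Nat.card_eq_fintype_card, Fintype.card_subtype_compl, Fintype.card_subtype_eq,
      ← Nat.card_eq_fintype_card]
    have := hab
    rw [bab_card_hom]
  rw [h2] at h1
  omega

open scoped Classical in
/-- **Structure of the coefficient vectors** on the principal block. -/
theorem bab_struct (hM : Cfsg.IsPModular p M) (P : Sylow p G) (hab : IsMulCommutative P)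
    (hP1 : Nat.card P ≠ 1) (m : ℕ) (hm2 : m + 1 < Nat.card P)
    (hCN : (centralizer ((P : Subgroup G) : Set G)).relIndex
      (normalizer ((P : Subgroup G) : Set G)) = m)
    (hfrob : ∀ y : G, y ∈ (P : Subgroup G) → y ≠ 1 →
      centralizer ({y} : Set G) ⊓ normalizer ((P : Subgroup G) : Set G) =
        centralizer ((P : Subgroup G) : Set G))
    [Fintype (IrrCharacter G)] :
    ∃ (ε d : ℤ) (D : IrrCharacter G → ℤ)
      (Θ : (↥(P : Subgroup G) →* ℂˣ) → IrrCharacter G),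
      (ε = 1 ∨ ε = -1) ∧
      (∀ ψ, ψ ≠ 1 → Θ ψ ∈ principalBlock M G) ∧
      (∀ ψ, ψ ≠ 1 → ∀ χ ∈ principalBlock M G,
        babCoef (P : Subgroup G) (χ : G → ℂ) ψ =
          (D χ : ℂ) + (ε : ℂ) * (if χ = Θ ψ then 1 else 0)) ∧
      (∀ χ, χ ∉ principalBlock M G → D χ = 0) ∧
      (∀ ψ, ψ ≠ 1 → ∀ ψ', ψ' ≠ 1 → (Θ ψ = Θ ψ' ↔ babRel P ψ ψ')) ∧
      (∀ ψ, ψ ≠ 1 → D (Θ ψ) = -d) ∧
      (∑ χ, D χ ^ 2 = (m : ℤ) + 2 * ε * d) ∧
      (∀ ψ, ψ ≠ 1 → ∀ g : G, ¬ p ∣ orderOf g →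
        ∑ χ, (D χ : ℂ) * conj ((χ : G → ℂ) g) + (ε : ℂ) * conj ((Θ ψ : G → ℂ) g) = 0) := by
  have hp : p.Prime := Fact.out
  let _ : Fintype (↥(P : Subgroup G) →* ℂˣ) := Fintype.ofFinite _
  choose kf hkf using (fun (χ : IrrCharacter G) (ψ : ↥(P : Subgroup G) →* ℂˣ) =>
    babCoef_int (P : Subgroup G) χ ψ)
  obtain ⟨c, hcdef⟩ : ∃ c : (↥(P : Subgroup G) →* ℂˣ) → IrrCharacter G → ℤ,
      c = fun ψ χ => if χ ∈ principalBlock M G then kf χ ψ else 0 := ⟨_, rfl⟩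
  have hcB : ∀ ψ χ, χ ∈ principalBlock M G →
      babCoef (P : Subgroup G) (χ : G → ℂ) ψ = (c ψ χ : ℂ) := by
    intro ψ χ h
    rw [hcdef]
    simp only [if_pos h]
    exact hkf χ ψ
  have hcnB : ∀ ψ χ, χ ∉ principalBlock M G → c ψ χ = 0 := by
    intro ψ χ h
    rw [hcdef]
    simp only [if_neg h]
  have hdegpos : ∀ χ : IrrCharacter G, 0 < (charDegree (χ : G → ℂ) : ℤ) := fun χ => by
    exact_mod_cast (Cfsg.Agent.Lib.Helper83.irr_degree χ.2).1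
  have hsumZ : ∀ ψ ψ' : ↥(P : Subgroup G) →* ℂˣ, ((∑ χ, c ψ χ * c ψ' χ : ℤ) : ℂ) =
      ∑ᶠ χ ∈ principalBlock M G, babCoef (P : Subgroup G) (χ : G → ℂ) ψ *
        conj (babCoef (P : Subgroup G) (χ : G → ℂ) ψ') := by
    intro ψ ψ'
    rw [bab_finsum_mem, Finset.sum_filter]
    push_cast
    refine Finset.sum_congr rfl fun χ _ => ?_
    split_ifs with h
    · rw [hcB ψ χ h, hcB ψ' χ h, map_intCast]
    · rw [hcnB ψ χ h]
      simp
  have horth : ∀ (ψ : ↥(P : Subgroup G) →* ℂˣ) (g : G), ¬ p ∣ orderOf g →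
      ∑ χ, (c ψ χ : ℂ) * conj ((χ : G → ℂ) g) = 0 := by
    intro ψ g hg
    rw [← bab_orth_reg hM P ψ g hg]
    refine Finset.sum_congr rfl fun χ _ => ?_
    split_ifs with h
    · rw [hcB ψ χ h]
    · rw [hcnB ψ χ h]
      simp
  have hG1 : ∀ ψ ∈ {ψ : ↥(P : Subgroup G) →* ℂˣ | ψ ≠ 1},
      ∀ ψ' ∈ {ψ : ↥(P : Subgroup G) →* ℂˣ | ψ ≠ 1}, babRel P ψ ψ' →
      ∑ χ, c ψ χ * c ψ' χ = (m : ℤ) + 1 := by
    intro ψ hψ ψ' hψ' hR
    have h1 := (bab_gram hM P hab hP1 hfrob ψ ψ' hψ hψ').1 hR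
    rw [hCN, ← hsumZ] at h1
    exact_mod_cast h1
  have hG0 : ∀ ψ ∈ {ψ : ↥(P : Subgroup G) →* ℂˣ | ψ ≠ 1},
      ∀ ψ' ∈ {ψ : ↥(P : Subgroup G) →* ℂˣ | ψ ≠ 1}, ¬ babRel P ψ ψ' →
      ∑ χ, c ψ χ * c ψ' χ = (m : ℤ) := by
    intro ψ hψ ψ' hψ' hR
    have h1 := (bab_gram hM P hab hP1 hfrob ψ ψ' hψ hψ').2 hR
    rw [hCN, ← hsumZ] at h1
    exact_mod_cast h1
  have hD : ∀ ψ ∈ {ψ : ↥(P : Subgroup G) →* ℂˣ | ψ ≠ 1},
      ∑ χ, c ψ χ * (charDegree (χ : G → ℂ) : ℤ) = 0 := by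
    intro ψ _
    have h1 := horth ψ 1 (by rw [orderOf_one]; exact hp.not_dvd_one)
    have h2 : ∀ χ : IrrCharacter G, (c ψ χ : ℂ) * conj ((χ : G → ℂ) 1) =
        ((c ψ χ * (charDegree (χ : G → ℂ) : ℤ) : ℤ) : ℂ) := by
      intro χ
      rw [(Cfsg.Agent.Lib.Helper83.irr_degree χ.2).2, Complex.conj_natCast]
      push_cast
      rfl
    rw [Finset.sum_congr rfl (fun χ _ => h2 χ), ← Int.cast_sum] at h1
    exact_mod_cast h1
  obtain ⟨ψ0, hψ0⟩ : ∃ ψ0 : ↥(P : Subgroup G) →* ℂˣ, ψ0 ≠ 1 := by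
    by_contra hcon
    push Not at hcon
    have h1 : Nat.card (↥(P : Subgroup G) →* ℂˣ) = 1 := by
      rw [Nat.card_eq_one_iff_unique]
      exact ⟨⟨fun a b => (hcon a).trans (hcon b).symm⟩, ⟨1⟩⟩
    have := hab
    rw [bab_card_hom] at h1
    exact hP1 h1
  obtain ⟨ψ1, hψ1, hnR⟩ := bab_exists_not_rel P hab hfrob m hm2 hCN ψ0 hψ0
  obtain ⟨ε, d, D, Θ, hε, hc, hΘiff, hDΘ, hΘsupp⟩ :=
    gram_core {ψ : ↥(P : Subgroup G) →* ℂˣ | ψ ≠ 1} (babRel P) c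
      (fun χ => (charDegree (χ : G → ℂ) : ℤ)) (m : ℤ)
      (fun ψ _ χ _ => hdegpos χ) hG1 hG0 (fun ψ _ => babRel_refl P ψ) hD
      ⟨ψ1, hψ1, ψ0, hψ0, hnR⟩
  have hε2 : ε ^ 2 = 1 := by rcases hε with h | h <;> rw [h] <;> norm_num
  have hΘB : ∀ ψ, ψ ≠ 1 → Θ ψ ∈ principalBlock M G := by
    intro ψ hψ
    obtain ⟨ψ', -, hne⟩ := hΘsupp ψ hψ
    by_contra h
    exact hne (hcnB ψ' _ h)
  have hDnB : ∀ χ, χ ∉ principalBlock M G → D χ = 0 := by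
    intro χ hχ
    have h1 := hc ψ0 hψ0 χ
    rw [hcnB ψ0 χ hχ,
      if_neg (show ¬ χ = Θ ψ0 from fun h => hχ (by rw [h]; exact hΘB ψ0 hψ0))] at h1
    linarith
  refine ⟨ε, d, D, Θ, hε, hΘB, ?_, hDnB, hΘiff, hDΘ, ?_, ?_⟩
  · intro ψ hψ χ hχ
    rw [hcB ψ χ hχ, hc ψ hψ χ]
    push_cast
    split_ifs <;> simp
  · have h1 := hG1 ψ0 hψ0 ψ0 hψ0 (babRel_refl P ψ0)
    have h2 : ∀ χ, c ψ0 χ * c ψ0 χ =
        D χ ^ 2 + (if χ = Θ ψ0 then 2 * ε * D χ + ε ^ 2 else 0) := by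
      intro χ
      rw [hc ψ0 hψ0 χ]
      split_ifs <;> ring
    rw [Finset.sum_congr rfl (fun χ _ => h2 χ), Finset.sum_add_distrib,
      Finset.sum_ite_eq' Finset.univ (Θ ψ0) (fun χ => 2 * ε * D χ + ε ^ 2),
      if_pos (Finset.mem_univ _), hDΘ ψ0 hψ0, hε2] at h1
    linarith
  · intro ψ hψ g hg
    have h1 := horth ψ g hg
    have h2 : ∀ χ : IrrCharacter G, (c ψ χ : ℂ) * conj ((χ : G → ℂ) g) =
        (D χ : ℂ) * conj ((χ : G → ℂ) g) +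
          (if χ = Θ ψ then (ε : ℂ) * conj ((χ : G → ℂ) g) else 0) := by
      intro χ
      rw [hc ψ hψ χ]
      push_cast
      split_ifs <;> ring
    rw [Finset.sum_congr rfl (fun χ _ => h2 χ), Finset.sum_add_distrib,
      Finset.sum_ite_eq' Finset.univ (Θ ψ) (fun χ => (ε : ℂ) * conj ((χ : G → ℂ) g)),
      if_pos (Finset.mem_univ _)] at h1
    exact h1

omit [Fact p.Prime] in
/-- the number of exceptional characters -/
theorem bab_card_image (P : Sylow p G) (hab : IsMulCommutative P)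
    (hfrob : ∀ y : G, y ∈ (P : Subgroup G) → y ≠ 1 →
      centralizer ({y} : Set G) ⊓ normalizer ((P : Subgroup G) : Set G) =
        centralizer ((P : Subgroup G) : Set G))
    (m : ℕ)
    (hCN : (centralizer ((P : Subgroup G) : Set G)).relIndex
      (normalizer ((P : Subgroup G) : Set G)) = m)
    {β : Type*} [DecidableEq β] [Fintype (↥(P : Subgroup G) →* ℂˣ)]
    [DecidableEq (↥(P : Subgroup G) →* ℂˣ)]
    (Θ : (↥(P : Subgroup G) →* ℂˣ) → β)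
    (hΘiff : ∀ ψ, ψ ≠ 1 → ∀ ψ', ψ' ≠ 1 → (Θ ψ = Θ ψ' ↔ babRel P ψ ψ')) :
    ((Finset.univ.filter (fun ψ : ↥(P : Subgroup G) →* ℂˣ => ψ ≠ 1)).image Θ).card * m =
      Nat.card ↥(P : Subgroup G) - 1 := by
  classical
  have h1 := Finset.card_eq_sum_card_image Θ
    (Finset.univ.filter (fun ψ : ↥(P : Subgroup G) →* ℂˣ => ψ ≠ 1))
  have h2 : ∀ b ∈ (Finset.univ.filter (fun ψ : ↥(P : Subgroup G) →* ℂˣ => ψ ≠ 1)).image Θ,
      ((Finset.univ.filter (fun ψ : ↥(P : Subgroup G) →* ℂˣ => ψ ≠ 1)).filter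
        (fun ψ => Θ ψ = b)).card = m := by
    intro b hb
    obtain ⟨ψ0, hψ0, rfl⟩ := Finset.mem_image.mp hb
    have hψ0' : ψ0 ≠ 1 := (Finset.mem_filter.mp hψ0).2
    have h3 : (Finset.univ.filter (fun ψ : ↥(P : Subgroup G) →* ℂˣ => ψ ≠ 1)).filter
        (fun ψ => Θ ψ = Θ ψ0) =
        Finset.univ.filter (fun ψ : ↥(P : Subgroup G) →* ℂˣ =>
          ∃ x : ↥(normalizer ((P : Subgroup G) : Set G)), babConj P x ψ0 = ψ) := by
      ext ψ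
      simp only [Finset.mem_filter, Finset.mem_univ, true_and]
      constructor
      · rintro ⟨hψ, h⟩
        exact (hΘiff ψ hψ ψ0 hψ0').mp h
      · intro h
        have hψ : ψ ≠ 1 := babRel_ne_one' P h hψ0'
        exact ⟨hψ, (hΘiff ψ hψ ψ0 hψ0').mpr h⟩
    rw [h3, ← hCN, ← bab_card_orbit P hfrob ψ0 hψ0', Nat.card_eq_fintype_card,
      Fintype.card_subtype]
  rw [Finset.sum_congr rfl h2, Finset.sum_const, smul_eq_mul] at h1
  rw [← h1, Finset.filter_ne' Finset.univ (1 : ↥(P : Subgroup G) →* ℂˣ),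
    Finset.card_erase_of_mem (Finset.mem_univ _), Finset.card_univ, ← Nat.card_eq_fintype_card]
  have := hab
  rw [bab_card_hom]

/-- values on `P \ {1}` of a function whose coefficients `a_χ(ψ - 1)` do not depend on `ψ ≠ 1` -/
theorem bab_value_X (P : Subgroup G) [IsMulCommutative P] (χ : G → ℂ) (Dχ : ℂ)
    (h : ∀ ψ : ↥P →* ℂˣ, ψ ≠ 1 → babCoef P χ ψ = Dχ) (y : ↥P) (hy : y ≠ 1) :
    χ (y : G) = -Dχ := by
  classical
  let _ : Fintype (↥P →* ℂˣ) := Fintype.ofFinite _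
  rw [← bab_fourier P χ y hy]
  have h1 : ∀ ψ : ↥P →* ℂˣ, babCoef P χ ψ * ((ψ y : ℂˣ) : ℂ) =
      Dχ * ((ψ y : ℂˣ) : ℂ) - (if ψ = 1 then Dχ else 0) := by
    intro ψ
    by_cases hψ : ψ = 1
    · rw [hψ, babCoef_one, if_pos rfl]
      simp
    · rw [if_neg hψ, sub_zero, h ψ hψ]
  rw [Finset.sum_congr rfl (fun ψ _ => h1 ψ), Finset.sum_sub_distrib, ← Finset.mul_sum,
    bab_orth_dual, if_neg hy, Finset.sum_ite_eq' Finset.univ (1 : ↥P →* ℂˣ) (fun _ => Dχ),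
    if_pos (Finset.mem_univ _)]
  ring

omit [Fact p.Prime] in
open scoped Classical in
/-- values on `P \ {1}` of a function whose coefficients are `-d + ε [ψ ~ ψ'']` -/
theorem bab_value_Y (P : Sylow p G) (hab : IsMulCommutative P) (χ : G → ℂ) (d ε : ℂ)
    (ψ : ↥(P : Subgroup G) →* ℂˣ) (hψ : ψ ≠ 1)
    (h : ∀ ψ'' : ↥(P : Subgroup G) →* ℂˣ, ψ'' ≠ 1 →
      babCoef (P : Subgroup G) χ ψ'' = -d + ε * (if babRel P ψ ψ'' then 1 else 0))
    (y : ↥(P : Subgroup G)) (hy : y ≠ 1) :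
    χ (y : G) = d + ε * ∑ᶠ ψ' ∈ {ψ' : ↥(P : Subgroup G) →* ℂˣ |
      ∃ n : G, n ∈ normalizer ((P : Subgroup G) : Set G) ∧
        ∀ w w' : ↥(P : Subgroup G), (w' : G) = n * w * n⁻¹ → ψ' w' = ψ w},
      ((ψ' y : ℂˣ) : ℂ) := by
  let _ : Fintype (↥(P : Subgroup G) →* ℂˣ) := Fintype.ofFinite _
  have := hab
  rw [← bab_fourier (P : Subgroup G) χ y hy]
  have h1 : ∀ ψ'' : ↥(P : Subgroup G) →* ℂˣ,
      babCoef (P : Subgroup G) χ ψ'' * ((ψ'' y : ℂˣ) : ℂ) =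
      -d * ((ψ'' y : ℂˣ) : ℂ) + (if ψ'' = 1 then d else 0) +
        ε * (if babRel P ψ ψ'' then ((ψ'' y : ℂˣ) : ℂ) else 0) := by
    intro ψ''
    by_cases hψ'' : ψ'' = 1
    · rw [hψ'', babCoef_one, if_pos rfl,
        if_neg (fun hR => babRel_ne_one P hR hψ rfl)]
      simp
    · rw [if_neg hψ'', h ψ'' hψ'']
      split_ifs <;> ring
  have h2 : ∑ᶠ ψ' ∈ {ψ' : ↥(P : Subgroup G) →* ℂˣ |
      ∃ n : G, n ∈ normalizer ((P : Subgroup G) : Set G) ∧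
        ∀ w w' : ↥(P : Subgroup G), (w' : G) = n * w * n⁻¹ → ψ' w' = ψ w},
      ((ψ' y : ℂˣ) : ℂ) =
      ∑ ψ'' : ↥(P : Subgroup G) →* ℂˣ, (if babRel P ψ ψ'' then ((ψ'' y : ℂˣ) : ℂ) else 0) := by
    rw [bab_finsum_mem, Finset.sum_filter]
    refine Finset.sum_congr rfl fun ψ' _ => ?_
    exact if_congr (bab_rel_iff P ψ ψ') rfl rfl
  rw [Finset.sum_congr rfl (fun ψ _ => h1 ψ), Finset.sum_add_distrib, Finset.sum_add_distrib,
    ← Finset.mul_sum, ← Finset.mul_sum, bab_orth_dual, if_neg hy,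
    Finset.sum_ite_eq' Finset.univ (1 : ↥(P : Subgroup G) →* ℂˣ) (fun _ => d),
    if_pos (Finset.mem_univ _), h2]
  ring

end

end Cfsg.Agent.Lib.Helper1
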