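import Mathlib
import Cfsg.Agent.Lib.Helper1.BrauerAbAsm

/-!
# Brauer's theorem on abelian Sylow subgroups with Frobenius normalizer, `|N : C| = 3`:
normal form of the coefficient vectors (helper1)

* `bab3_struct`: for `m = 3` the integer `d` of `bab_struct` can be taken to be `0`
  (after relabelling the exceptional characters when `|P| = 7`), and `∑ D² = 3`.
-/

set_option autoImplicit false

namespace Cfsg.Agent.Lib.Helper1

open Cfsg Subgroup
open scoped ComplexConjugate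

section

variable {G : Type*} [Group G] [Finite G] {p : ℕ} [Fact p.Prime] {M : Ideal Cfsg.AlgInt}

open scoped Classical in
/-- **Normal form of the coefficient vectors for `|N : C| = 3`.** -/
theorem bab3_struct (hM : Cfsg.IsPModular p M) (P : Sylow p G) (hab : IsMulCommutative P)
    (hP1 : Nat.card P ≠ 1) (hm2 : 3 + 1 < Nat.card P)
    (hCN : (centralizer ((P : Subgroup G) : Set G)).relIndex
      (normalizer ((P : Subgroup G) : Set G)) = 3)
    (hfrob : ∀ y : G, y ∈ (P : Subgroup G) → y ≠ 1 →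
      centralizer ({y} : Set G) ⊓ normalizer ((P : Subgroup G) : Set G) =
        centralizer ((P : Subgroup G) : Set G))
    [Fintype (IrrCharacter G)] :
    ∃ (ε : ℤ) (D : IrrCharacter G → ℤ)
      (Θ : (↥(P : Subgroup G) →* ℂˣ) → IrrCharacter G),
      (ε = 1 ∨ ε = -1) ∧
      (∀ ψ, ψ ≠ 1 → Θ ψ ∈ principalBlock M G) ∧
      (∀ ψ, ψ ≠ 1 → ∀ χ ∈ principalBlock M G,
        babCoef (P : Subgroup G) (χ : G → ℂ) ψ =
          (D χ : ℂ) + (ε : ℂ) * (if χ = Θ ψ then 1 else 0)) ∧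
      (∀ χ, χ ∉ principalBlock M G → D χ = 0) ∧
      (∀ ψ, ψ ≠ 1 → ∀ ψ', ψ' ≠ 1 → (Θ ψ = Θ ψ' ↔ babRel P ψ ψ')) ∧
      (∀ ψ, ψ ≠ 1 → D (Θ ψ) = 0) ∧
      (∑ χ, D χ ^ 2 = 3) ∧
      (∀ ψ, ψ ≠ 1 → ∀ g : G, ¬ p ∣ orderOf g →
        ∑ χ, (D χ : ℂ) * conj ((χ : G → ℂ) g) + (ε : ℂ) * conj ((Θ ψ : G → ℂ) g) = 0) := by
  have hp : p.Prime := Fact.out
  let _ : Fintype (↥(P : Subgroup G) →* ℂˣ) := Fintype.ofFinite _
  obtain ⟨ε, d, D, Θ, hε, hΘB, hcoef, hDnB, hΘiff, hDΘ, hDsq, hT⟩ :=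
    bab_struct hM P hab hP1 3 hm2 hCN hfrob
  by_cases hd : d = 0
  · subst hd
    refine ⟨ε, D, Θ, hε, hΘB, hcoef, hDnB, hΘiff, ?_, ?_, hT⟩
    · intro ψ hψ
      rw [hDΘ ψ hψ, neg_zero]
    · rw [hDsq]
      push_cast
      ring
  · -- the exceptional case `d ≠ 0`
    have hε2 : ε ^ 2 = 1 := by rcases hε with h | h <;> rw [h] <;> norm_num
    have hε0 : (ε : ℂ) ≠ 0 := by
      rcases hε with h | h <;> rw [h] <;> norm_num
    obtain ⟨Yf, hYf⟩ : ∃ Yf : Finset (IrrCharacter G), Yf =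
        (Finset.univ.filter (fun ψ : ↥(P : Subgroup G) →* ℂˣ => ψ ≠ 1)).image Θ := ⟨_, rfl⟩
    obtain ⟨Bf, hBf⟩ : ∃ Bf : Finset (IrrCharacter G), Bf =
        Finset.univ.filter (fun χ => χ ∈ principalBlock M G) := ⟨_, rfl⟩
    have hmemY : ∀ χ, χ ∈ Yf ↔ ∃ ψ : ↥(P : Subgroup G) →* ℂˣ, ψ ≠ 1 ∧ Θ ψ = χ := by
      intro χ
      rw [hYf]
      simp
    have hmemB : ∀ χ, χ ∈ Bf ↔ χ ∈ principalBlock M G := by
      intro χ
      rw [hBf]
      simp
    have hYB : Yf ⊆ Bf := by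
      intro χ hχ
      obtain ⟨ψ, hψ, rfl⟩ := (hmemY χ).mp hχ
      exact (hmemB _).mpr (hΘB ψ hψ)
    have hcardY : Yf.card * 3 = Nat.card ↥(P : Subgroup G) - 1 := by
      rw [hYf]
      exact bab_card_image P hab hfrob 3 hCN Θ hΘiff
    have hY2 : 2 ≤ Yf.card := by omega
    have hDY : ∀ χ ∈ Yf, D χ = -d := by
      intro χ hχ
      obtain ⟨ψ, hψ, rfl⟩ := (hmemY χ).mp hχ
      exact hDΘ ψ hψ
    obtain ⟨ψ0, hψ0⟩ : ∃ ψ0 : ↥(P : Subgroup G) →* ℂˣ, ψ0 ≠ 1 := by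
      have hpos : 0 < Yf.card := by omega
      obtain ⟨χ, hχ⟩ := Finset.card_pos.mp hpos
      obtain ⟨ψ, hψ, -⟩ := (hmemY χ).mp hχ
      exact ⟨ψ, hψ⟩
    have hB1 : Cfsg.Agent.Lib.Helper83.trivIrr G ∈ principalBlock M G :=
      Cfsg.Agent.Lib.Helper79.trivIrr_mem_principalBlock hM
    have h1Y : Cfsg.Agent.Lib.Helper83.trivIrr G ∉ Yf := by
      intro hY
      obtain ⟨ψ0, hψ0, hΘ0⟩ := (hmemY _).mp hY
      obtain ⟨ψ1, hψ1, hnR⟩ := bab_exists_not_rel P hab hfrob 3 hm2 hCN ψ0 hψ0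
      have e0 : babCoef (P : Subgroup G)
          ((Cfsg.Agent.Lib.Helper83.trivIrr G : IrrCharacter G) : G → ℂ) ψ0 = -1 :=
        babCoef_triv (P : Subgroup G) ψ0 hψ0
      have e1 : babCoef (P : Subgroup G)
          ((Cfsg.Agent.Lib.Helper83.trivIrr G : IrrCharacter G) : G → ℂ) ψ1 = -1 :=
        babCoef_triv (P : Subgroup G) ψ1 hψ1
      have h0 := hcoef ψ0 hψ0 _ hB1
      have h1 := hcoef ψ1 hψ1 _ hB1
      rw [e0, if_pos hΘ0.symm] at h0
      rw [e1, if_neg (fun h => hnR ((hΘiff ψ1 hψ1 ψ0 hψ0).mp (by rw [hΘ0]; exact h.symm)))] at h1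
      apply hε0
      linear_combination h1 - h0
    have h1mem : Cfsg.Agent.Lib.Helper83.trivIrr G ∈ Bf \ Yf :=
      Finset.mem_sdiff.mpr ⟨(hmemB _).mpr hB1, h1Y⟩
    have hD1 : D (Cfsg.Agent.Lib.Helper83.trivIrr G) = -1 := by
      have e0 : babCoef (P : Subgroup G)
          ((Cfsg.Agent.Lib.Helper83.trivIrr G : IrrCharacter G) : G → ℂ) ψ0 = -1 :=
        babCoef_triv (P : Subgroup G) ψ0 hψ0
      have h0 := hcoef ψ0 hψ0 _ hB1
      rw [e0, if_neg (fun h => h1Y ((hmemY _).mpr ⟨ψ0, hψ0, h.symm⟩))] at h0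
      have h2 : ((D (Cfsg.Agent.Lib.Helper83.trivIrr G) : ℤ) : ℂ) = ((-1 : ℤ) : ℂ) := by
        push_cast
        linear_combination -h0
      exact_mod_cast h2
    have hX2 : ∑ χ ∈ Bf \ Yf, D χ ^ 2 = 3 + 2 * ε * d - (Yf.card : ℤ) * d ^ 2 := by
      have h1 := bab_sum_split Bf Yf hYB (fun χ => D χ ^ 2) (by
        intro χ hχ
        show D χ ^ 2 = 0
        rw [hDnB χ (fun h => hχ ((hmemB χ).mpr h))]
        norm_num)
      have h2 : ∑ χ ∈ Yf, D χ ^ 2 = (Yf.card : ℤ) * d ^ 2 := by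
        rw [Finset.sum_congr rfl (fun χ hχ => by rw [hDY χ hχ]), Finset.sum_const, nsmul_eq_mul]
        ring
      rw [hDsq, h2] at h1
      push_cast at h1
      linarith
    have hge : 1 ≤ ∑ χ ∈ Bf \ Yf, D χ ^ 2 := by
      have h := Finset.single_le_sum (f := fun χ => D χ ^ 2) (fun χ _ => sq_nonneg (D χ)) h1mem
      have h' : D (Cfsg.Agent.Lib.Helper83.trivIrr G) ^ 2 ≤ ∑ χ ∈ Bf \ Yf, D χ ^ 2 := h
      rw [hD1] at h'
      linarith
    have hY2' : (2 : ℤ) ≤ (Yf.card : ℤ) := by exact_mod_cast hY2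
    have hdε : d = ε := by
      rw [hX2] at hge
      rcases hε with rfl | rfl
      · by_contra hne
        have h3 : d ≤ -1 ∨ 2 ≤ d := by omega
        rcases h3 with h | h
        · nlinarith [sq_nonneg d]
        · nlinarith [sq_nonneg d]
      · by_contra hne
        have h3 : d ≤ -2 ∨ 1 ≤ d := by omega
        rcases h3 with h | h
        · nlinarith [sq_nonneg d]
        · nlinarith [sq_nonneg d]
    subst hdε
    have hr4 : Yf.card ≤ 4 := by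
      rw [hX2] at hge
      have h3 : ((Yf.card : ℤ)) ≤ 4 := by nlinarith
      exact_mod_cast h3
    have hreg : ∀ ψ : ↥(P : Subgroup G) →* ℂˣ, ψ ≠ 1 → ∀ ψ' : ↥(P : Subgroup G) →* ℂˣ,
        ψ' ≠ 1 → ∀ g : G, ¬ p ∣ orderOf g → (Θ ψ : G → ℂ) g = (Θ ψ' : G → ℂ) g := by
      intro ψ hψ ψ' hψ' g hg
      have h1 := hT ψ hψ g hg
      have h2 := hT ψ' hψ' g hg
      have h3 : (d : ℂ) * (starRingEnd ℂ) ((Θ ψ : G → ℂ) g) =
          (d : ℂ) * (starRingEnd ℂ) ((Θ ψ' : G → ℂ) g) := by linear_combination h1 - h2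
      exact (starRingEnd ℂ).injective (mul_left_cancel₀ hε0 h3)
    have hsplit : ∀ g : G, ∑ χ, (D χ : ℂ) * conj ((χ : G → ℂ) g) =
        ∑ χ ∈ Yf, (D χ : ℂ) * conj ((χ : G → ℂ) g) +
          ∑ χ ∈ Bf \ Yf, (D χ : ℂ) * conj ((χ : G → ℂ) g) := by
      intro g
      exact bab_sum_split Bf Yf hYB (fun χ => (D χ : ℂ) * conj ((χ : G → ℂ) g)) (by
        intro χ hχ
        show (D χ : ℂ) * conj ((χ : G → ℂ) g) = 0
        rw [hDnB χ (fun h => hχ ((hmemB χ).mpr h))]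
        simp)
    have hcases : Yf.card = 2 ∨ Yf.card = 3 ∨ Yf.card = 4 := by omega
    rcases hcases with hc | hc | hc
    · -- `|P| = 7`: relabel
      obtain ⟨η₁, η₂, hne, hYeq⟩ := Finset.card_eq_two.mp hc
      have hη₁ : η₁ ∈ Yf := by rw [hYeq]; simp
      have hη₂ : η₂ ∈ Yf := by rw [hYeq]; simp
      have hYmem : ∀ χ, χ ∈ Yf → χ = η₁ ∨ χ = η₂ := by
        intro χ hχ
        rw [hYeq] at hχ
        simpa using hχ
      obtain ⟨Θ', hΘ'⟩ : ∃ Θ' : (↥(P : Subgroup G) →* ℂˣ) → IrrCharacter G,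
          Θ' = fun ψ => if Θ ψ = η₁ then η₂ else η₁ := ⟨_, rfl⟩
      obtain ⟨D', hD'⟩ : ∃ D' : IrrCharacter G → ℤ,
          D' = fun χ => if χ ∈ Yf then 0 else D χ := ⟨_, rfl⟩
      have hΘc : ∀ ψ : ↥(P : Subgroup G) →* ℂˣ, ψ ≠ 1 →
          (Θ ψ = η₁ ∧ Θ' ψ = η₂) ∨ (Θ ψ = η₂ ∧ Θ' ψ = η₁) := by
        intro ψ hψ
        rcases hYmem (Θ ψ) ((hmemY _).mpr ⟨ψ, hψ, rfl⟩) with h | h
        · left
          refine ⟨h, ?_⟩
          rw [hΘ']
          simp only [if_pos h]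
        · right
          refine ⟨h, ?_⟩
          rw [hΘ']
          have : Θ ψ ≠ η₁ := by rw [h]; exact hne.symm
          simp only [if_neg this]
      have hD'Y : ∀ χ, χ ∈ Yf → D' χ = 0 := by
        intro χ hχ
        rw [hD']
        simp only [if_pos hχ]
      have hD'nY : ∀ χ, χ ∉ Yf → D' χ = D χ := by
        intro χ hχ
        rw [hD']
        simp only [if_neg hχ]
      refine ⟨-d, D', Θ', ?_, ?_, ?_, ?_, ?_, ?_, ?_, ?_⟩
      · rcases hε with h | h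
        · right; rw [h]
        · left; rw [h]; norm_num
      · intro ψ hψ
        rcases hΘc ψ hψ with ⟨-, h⟩ | ⟨-, h⟩
        · rw [h]; exact (hmemB _).mp (hYB hη₂)
        · rw [h]; exact (hmemB _).mp (hYB hη₁)
      · intro ψ hψ χ hχ
        have h0 := hcoef ψ hψ χ hχ
        by_cases hχY : χ ∈ Yf
        · rw [hD'Y χ hχY]
          rw [hDY χ hχY] at h0
          rcases hΘc ψ hψ with ⟨h1, h2⟩ | ⟨h1, h2⟩
          · rcases hYmem χ hχY with h | h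
            · rw [if_pos (by rw [h, h1])] at h0
              rw [if_neg (by rw [h, h2]; exact hne), h0]
              push_cast
              ring
            · rw [if_neg (by rw [h, h1]; exact hne.symm)] at h0
              rw [if_pos (by rw [h, h2]), h0]
              push_cast
              ring
          · rcases hYmem χ hχY with h | h
            · rw [if_neg (by rw [h, h1]; exact hne)] at h0
              rw [if_pos (by rw [h, h2]), h0]
              push_cast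
              ring
            · rw [if_pos (by rw [h, h1])] at h0
              rw [if_neg (by rw [h, h2]; exact hne.symm), h0]
              push_cast
              ring
        · rw [hD'nY χ hχY]
          have hΘ'Y : Θ' ψ ∈ Yf := by
            rcases hΘc ψ hψ with ⟨-, h⟩ | ⟨-, h⟩
            · rw [h]; exact hη₂
            · rw [h]; exact hη₁
          rw [if_neg (fun h => hχY ((hmemY _).mpr ⟨ψ, hψ, h.symm⟩))] at h0
          rw [if_neg (fun h => hχY (by rw [h]; exact hΘ'Y)), h0]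
          push_cast
          ring
      · intro χ hχ
        by_cases hχY : χ ∈ Yf
        · exact hD'Y χ hχY
        · rw [hD'nY χ hχY]
          exact hDnB χ hχ
      · intro ψ hψ ψ' hψ'
        rw [← hΘiff ψ hψ ψ' hψ']
        rcases hΘc ψ hψ with ⟨h1, h2⟩ | ⟨h1, h2⟩ <;>
          rcases hΘc ψ' hψ' with ⟨h3, h4⟩ | ⟨h3, h4⟩ <;> rw [h1, h2, h3, h4]
        · simp
        · constructor
          · intro h; exact absurd h hne.symm
          · intro h; exact absurd h hne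
        · constructor
          · intro h; exact absurd h hne
          · intro h; exact absurd h hne.symm
        · simp
      · intro ψ hψ
        apply hD'Y
        rcases hΘc ψ hψ with ⟨-, h⟩ | ⟨-, h⟩
        · rw [h]; exact hη₂
        · rw [h]; exact hη₁
      · have h1 := bab_sum_split Bf Yf hYB (fun χ => D' χ ^ 2) (by
          intro χ hχ
          show D' χ ^ 2 = 0
          by_cases hχY : χ ∈ Yf
          · rw [hD'Y χ hχY]; norm_num
          · rw [hD'nY χ hχY, hDnB χ (fun h => hχ ((hmemB χ).mpr h))]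
            norm_num)
        have h2 : ∑ χ ∈ Yf, D' χ ^ 2 = 0 := by
          apply Finset.sum_eq_zero
          intro χ hχ
          rw [hD'Y χ hχ]
          norm_num
        have h3 : ∑ χ ∈ Bf \ Yf, D' χ ^ 2 = ∑ χ ∈ Bf \ Yf, D χ ^ 2 := by
          refine Finset.sum_congr rfl fun χ hχ => ?_
          rw [hD'nY χ (Finset.mem_sdiff.mp hχ).2]
        rw [h1, h2, h3, hX2, hc]
        push_cast
        linear_combination 0 * hε2
      · intro ψ hψ g hg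
        have h1 := hT ψ hψ g hg
        rw [hsplit g] at h1
        have h2 := bab_sum_split Bf Yf hYB (fun χ => (D' χ : ℂ) * conj ((χ : G → ℂ) g)) (by
          intro χ hχ
          show (D' χ : ℂ) * conj ((χ : G → ℂ) g) = 0
          by_cases hχY : χ ∈ Yf
          · rw [hD'Y χ hχY]; simp
          · rw [hD'nY χ hχY, hDnB χ (fun h => hχ ((hmemB χ).mpr h))]
            simp)
        have h3 : ∑ χ ∈ Yf, (D' χ : ℂ) * conj ((χ : G → ℂ) g) = 0 := by
          apply Finset.sum_eq_zero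
          intro χ hχ
          rw [hD'Y χ hχ]
          simp
        have h4 : ∑ χ ∈ Bf \ Yf, (D' χ : ℂ) * conj ((χ : G → ℂ) g) =
            ∑ χ ∈ Bf \ Yf, (D χ : ℂ) * conj ((χ : G → ℂ) g) := by
          refine Finset.sum_congr rfl fun χ hχ => ?_
          rw [hD'nY χ (Finset.mem_sdiff.mp hχ).2]
        have h5 : ∑ χ ∈ Yf, (D χ : ℂ) * conj ((χ : G → ℂ) g) =
            -(d : ℂ) * (conj ((η₁ : G → ℂ) g) + conj ((η₂ : G → ℂ) g)) := by
          rw [hYeq, Finset.sum_pair hne, hDY η₁ hη₁, hDY η₂ hη₂]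
          push_cast
          ring
        rw [h2, h3, h4]
        rw [h5] at h1
        rcases hΘc ψ hψ with ⟨e1, e2⟩ | ⟨e1, e2⟩
        · rw [e2]
          rw [e1] at h1
          push_cast
          linear_combination h1
        · rw [e2]
          rw [e1] at h1
          push_cast
          linear_combination h1
    · -- `|P| = 10` is not a prime power
      exfalso
      have hcard : Nat.card ↥(P : Subgroup G) = 10 := by omega
      obtain ⟨n, hn⟩ := IsPGroup.iff_card.mp P.isPGroup'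
      rw [hcard] at hn
      have hn0 : n ≠ 0 := by
        rintro rfl
        simp at hn
      have hpd : p ∣ 10 := by
        rw [hn]
        exact dvd_pow_self p hn0
      have hp10 : p ≤ 10 := Nat.le_of_dvd (by norm_num) hpd
      have hn4 : n < 4 := by
        by_contra h
        have h1 : p ^ 4 ≤ p ^ n := Nat.pow_le_pow_right hp.pos (by omega)
        have h2 : 2 ^ 4 ≤ p ^ 4 := Nat.pow_le_pow_left hp.two_le 4
        omega
      have hp2 := hp.two_le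
      interval_cases p
      all_goals first
        | (exfalso; revert hp; norm_num; done)
        | (exfalso; revert hpd; norm_num; done)
        | (interval_cases n <;> norm_num at hn)
    · -- `|P| = 13`: excluded by the degrees
      exfalso
      have hone : ¬ p ∣ orderOf (1 : G) := by
        rw [orderOf_one]
        exact hp.one_lt.ne' ∘ Nat.dvd_one.mp
      have h1 := hT ψ0 hψ0 1 hone
      rw [hsplit 1] at h1
      have hXsum : ∑ χ ∈ Bf \ Yf, D χ ^ 2 = 1 := by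
        rw [hX2, hc]
        push_cast
        linear_combination -2 * hε2
      have hDX : ∀ χ ∈ Bf \ Yf, χ ≠ Cfsg.Agent.Lib.Helper83.trivIrr G → D χ = 0 := by
        intro χ hχ hne
        by_contra h0
        have h2 : D (Cfsg.Agent.Lib.Helper83.trivIrr G) ^ 2 + D χ ^ 2 ≤
            ∑ χ ∈ Bf \ Yf, D χ ^ 2 := by
          have h3 : ∑ χ ∈ ({Cfsg.Agent.Lib.Helper83.trivIrr G, χ} : Finset (IrrCharacter G)),
              D χ ^ 2 ≤ ∑ χ ∈ Bf \ Yf, D χ ^ 2 := by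
            apply Finset.sum_le_sum_of_subset_of_nonneg
            · intro x hx
              rw [Finset.mem_insert, Finset.mem_singleton] at hx
              rcases hx with rfl | rfl
              · exact h1mem
              · exact hχ
            · intro x _ _
              exact sq_nonneg _
          rwa [Finset.sum_pair hne.symm] at h3
        rw [hXsum, hD1] at h2
        have h4 : 0 < D χ ^ 2 := by positivity
        linarith
      have h2 : ∑ χ ∈ Bf \ Yf, (D χ : ℂ) * conj ((χ : G → ℂ) 1) = -1 := by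
        rw [Finset.sum_eq_single (Cfsg.Agent.Lib.Helper83.trivIrr G)]
        · rw [hD1]
          have : ((Cfsg.Agent.Lib.Helper83.trivIrr G : IrrCharacter G) : G → ℂ) 1 = 1 := rfl
          rw [this]
          simp
        · intro χ hχ hne
          rw [hDX χ hχ hne]
          simp
        · intro h
          exact absurd h1mem h
      have h3 : ∑ χ ∈ Yf, (D χ : ℂ) * conj ((χ : G → ℂ) 1) =
          ∑ χ ∈ Yf, (-(d : ℂ)) * conj ((Θ ψ0 : G → ℂ) 1) := by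
        refine Finset.sum_congr rfl (fun χ hχ => ?_)
        obtain ⟨ψ', hψ', rfl⟩ := (hmemY χ).mp hχ
        rw [hDΘ ψ' hψ', hreg ψ' hψ' ψ0 hψ0 1 hone]
        push_cast
        rfl
      rw [h2, h3, Finset.sum_const, nsmul_eq_mul, hc,
        (Cfsg.Agent.Lib.Helper83.irr_degree (Θ ψ0).2).2] at h1
      have h4 : ((-3 * d * (charDegree ((Θ ψ0 : IrrCharacter G) : G → ℂ) : ℤ) : ℤ) : ℂ) =
          ((1 : ℤ) : ℂ) := by
        push_cast
        simp only [map_natCast] at h1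
        linear_combination h1
      have h5 : -3 * d * (charDegree ((Θ ψ0 : IrrCharacter G) : G → ℂ) : ℤ) = 1 := by
        exact_mod_cast h4
      have h6 : (3 : ℤ) ∣ 1 := ⟨-d * (charDegree ((Θ ψ0 : IrrCharacter G) : G → ℂ) : ℤ), by
        linear_combination -h5⟩
      omega

open scoped Classical in
/-- **The principal block for `|N : C| = 3`**: besides the exceptional characters `Θ ψ` it
consists of the principal character and two further characters `χ₂`, `χ₃`. -/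
theorem bab3_data (hM : Cfsg.IsPModular p M) (P : Sylow p G) (hab : IsMulCommutative P)
    (hP1 : Nat.card P ≠ 1) (hm2 : 3 + 1 < Nat.card P)
    (hCN : (centralizer ((P : Subgroup G) : Set G)).relIndex
      (normalizer ((P : Subgroup G) : Set G)) = 3)
    (hfrob : ∀ y : G, y ∈ (P : Subgroup G) → y ≠ 1 →
      centralizer ({y} : Set G) ⊓ normalizer ((P : Subgroup G) : Set G) =
        centralizer ((P : Subgroup G) : Set G))
    [Fintype (IrrCharacter G)] :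
    ∃ (ε : ℤ) (D : IrrCharacter G → ℤ)
      (Θ : (↥(P : Subgroup G) →* ℂˣ) → IrrCharacter G) (χ₂ χ₃ : IrrCharacter G),
      (ε = 1 ∨ ε = -1) ∧
      (∀ ψ, ψ ≠ 1 → Θ ψ ∈ principalBlock M G) ∧
      (∀ ψ, ψ ≠ 1 → ∀ χ ∈ principalBlock M G,
        babCoef (P : Subgroup G) (χ : G → ℂ) ψ =
          (D χ : ℂ) + (ε : ℂ) * (if χ = Θ ψ then 1 else 0)) ∧
      (∀ ψ, ψ ≠ 1 → ∀ ψ', ψ' ≠ 1 → (Θ ψ = Θ ψ' ↔ babRel P ψ ψ')) ∧
      (∀ ψ, ψ ≠ 1 → ∀ g : G, ¬ p ∣ orderOf g →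
        ∑ χ, (D χ : ℂ) * conj ((χ : G → ℂ) g) + (ε : ℂ) * conj ((Θ ψ : G → ℂ) g) = 0) ∧
      χ₂ ≠ χ₃ ∧ χ₂ ≠ Cfsg.Agent.Lib.Helper83.trivIrr G ∧
      χ₃ ≠ Cfsg.Agent.Lib.Helper83.trivIrr G ∧
      χ₂ ∈ principalBlock M G ∧ χ₃ ∈ principalBlock M G ∧
      (D χ₂ = 1 ∨ D χ₂ = -1) ∧ (D χ₃ = 1 ∨ D χ₃ = -1) ∧
      D (Cfsg.Agent.Lib.Helper83.trivIrr G) = -1 ∧
      (∀ χ, χ ≠ Cfsg.Agent.Lib.Helper83.trivIrr G → χ ≠ χ₂ → χ ≠ χ₃ → D χ = 0) ∧
      (∀ χ ∈ principalBlock M G, χ = Cfsg.Agent.Lib.Helper83.trivIrr G ∨ χ = χ₂ ∨ χ = χ₃ ∨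
        ∃ ψ, ψ ≠ 1 ∧ Θ ψ = χ) ∧
      (∀ ψ, ψ ≠ 1 → Θ ψ ≠ Cfsg.Agent.Lib.Helper83.trivIrr G ∧ Θ ψ ≠ χ₂ ∧ Θ ψ ≠ χ₃) ∧
      (∀ χ ∈ principalBlock M G, (∀ ψ, ψ ≠ 1 → Θ ψ ≠ χ) →
        ∀ y : ↥(P : Subgroup G), y ≠ 1 → (χ : G → ℂ) (y : G) = ((-D χ : ℤ) : ℂ)) ∧
      (∀ ψ : ↥(P : Subgroup G) →* ℂˣ, ψ ≠ 1 → ∀ y : ↥(P : Subgroup G), y ≠ 1 →
        (Θ ψ : G → ℂ) (y : G) = (ε : ℂ) * ∑ᶠ ψ' ∈ {ψ' : ↥(P : Subgroup G) →* ℂˣ |
          ∃ n : G, n ∈ Subgroup.normalizer ((P : Subgroup G) : Set G) ∧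
            ∀ w w' : ↥(P : Subgroup G), (w' : G) = n * w * n⁻¹ → ψ' w' = ψ w},
          ((ψ' y : ℂˣ) : ℂ)) := by
  have hp : p.Prime := Fact.out
  let _ : Fintype (↥(P : Subgroup G) →* ℂˣ) := Fintype.ofFinite _
  obtain ⟨ε, D, Θ, hε, hΘB, hcoef, hDnB, hΘiff, hDΘ, hDsq, hT⟩ :=
    bab3_struct hM P hab hP1 hm2 hCN hfrob
  have hε0 : (ε : ℂ) ≠ 0 := by
    rcases hε with h | h <;> rw [h] <;> norm_num
  obtain ⟨y0, hy0P, hy01⟩ : ∃ y0 : G, y0 ∈ (P : Subgroup G) ∧ y0 ≠ 1 := by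
    by_contra hcon
    apply hP1
    have hbot : (P : Subgroup G) = ⊥ := by
      rw [Subgroup.eq_bot_iff_forall]
      intro x hx
      by_contra hx1
      exact hcon ⟨x, hx, hx1⟩
    rw [hbot]
    exact Subgroup.card_bot
  obtain ⟨ψ0, hψ0⟩ : ∃ ψ0 : ↥(P : Subgroup G) →* ℂˣ, ψ0 ≠ 1 := by
    by_contra hcon
    push Not at hcon
    have h1 : Nat.card (↥(P : Subgroup G) →* ℂˣ) = 1 := by
      rw [Nat.card_eq_one_iff_unique]
      exact ⟨⟨fun a b => by rw [hcon a, hcon b]⟩, ⟨1⟩⟩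
    have := hab
    rw [bab_card_hom] at h1
    exact hP1 h1
  have hB1 : Cfsg.Agent.Lib.Helper83.trivIrr G ∈ principalBlock M G :=
    Cfsg.Agent.Lib.Helper79.trivIrr_mem_principalBlock hM
  have h1Y : ∀ ψ, ψ ≠ 1 → Θ ψ ≠ Cfsg.Agent.Lib.Helper83.trivIrr G := by
    intro ψ0 hψ0 hΘ0
    obtain ⟨ψ1, hψ1, hnR⟩ := bab_exists_not_rel P hab hfrob 3 hm2 hCN ψ0 hψ0
    have e0 : babCoef (P : Subgroup G)
        ((Cfsg.Agent.Lib.Helper83.trivIrr G : IrrCharacter G) : G → ℂ) ψ0 = -1 :=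
      babCoef_triv (P : Subgroup G) ψ0 hψ0
    have e1 : babCoef (P : Subgroup G)
        ((Cfsg.Agent.Lib.Helper83.trivIrr G : IrrCharacter G) : G → ℂ) ψ1 = -1 :=
      babCoef_triv (P : Subgroup G) ψ1 hψ1
    have h0 := hcoef ψ0 hψ0 _ hB1
    have h1 := hcoef ψ1 hψ1 _ hB1
    rw [e0, if_pos hΘ0.symm] at h0
    rw [e1, if_neg (fun h => hnR ((hΘiff ψ1 hψ1 ψ0 hψ0).mp (by rw [hΘ0]; exact h.symm)))] at h1
    apply hε0
    linear_combination h1 - h0
  have hD1 : D (Cfsg.Agent.Lib.Helper83.trivIrr G) = -1 := by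
    have e0 : babCoef (P : Subgroup G)
        ((Cfsg.Agent.Lib.Helper83.trivIrr G : IrrCharacter G) : G → ℂ) ψ0 = -1 :=
      babCoef_triv (P : Subgroup G) ψ0 hψ0
    have h0 := hcoef ψ0 hψ0 _ hB1
    rw [e0, if_neg (fun h => h1Y ψ0 hψ0 h.symm)] at h0
    have h2 : ((D (Cfsg.Agent.Lib.Helper83.trivIrr G) : ℤ) : ℂ) = ((-1 : ℤ) : ℂ) := by
      push_cast
      linear_combination -h0
    exact_mod_cast h2
  have hXval : ∀ χ ∈ principalBlock M G, (∀ ψ, ψ ≠ 1 → Θ ψ ≠ χ) →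
      ∀ y : ↥(P : Subgroup G), y ≠ 1 → (χ : G → ℂ) (y : G) = ((-D χ : ℤ) : ℂ) := by
    intro χ hχB hχY y hy
    have := hab
    rw [bab_value_X (P : Subgroup G) (χ : G → ℂ) (D χ : ℂ) ?_ y hy]
    · push_cast
      rfl
    · intro ψ hψ
      rw [hcoef ψ hψ χ hχB, if_neg (fun h => hχY ψ hψ h.symm)]
      simp
  have hXne : ∀ χ ∈ principalBlock M G, (∀ ψ, ψ ≠ 1 → Θ ψ ≠ χ) → D χ ≠ 0 := by
    intro χ hχB hχY h0
    have h1 := hXval χ hχB hχY ⟨y0, hy0P⟩ (fun h => hy01 (congrArg Subtype.val h))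
    rw [h0] at h1
    exact bab_ne_zero hM P hab χ hχB y0 hy0P (by simpa using h1)
  have hYval : ∀ ψ : ↥(P : Subgroup G) →* ℂˣ, ψ ≠ 1 → ∀ y : ↥(P : Subgroup G), y ≠ 1 →
      (Θ ψ : G → ℂ) (y : G) = (ε : ℂ) * ∑ᶠ ψ' ∈ {ψ' : ↥(P : Subgroup G) →* ℂˣ |
        ∃ n : G, n ∈ Subgroup.normalizer ((P : Subgroup G) : Set G) ∧
          ∀ w w' : ↥(P : Subgroup G), (w' : G) = n * w * n⁻¹ → ψ' w' = ψ w},
        ((ψ' y : ℂˣ) : ℂ) := by
    intro ψ hψ y hy
    have h1 := bab_value_Y P hab (Θ ψ : G → ℂ) (0 : ℂ) (ε : ℂ) ψ hψ ?_ y hy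
    · rw [h1, zero_add]
    · intro ψ'' hψ''
      rw [hcoef ψ'' hψ'' (Θ ψ) (hΘB ψ hψ), hDΘ ψ hψ]
      by_cases hR : babRel P ψ ψ''
      · rw [if_pos hR, if_pos ((hΘiff ψ hψ ψ'' hψ'').mpr hR)]
        push_cast
        ring
      · rw [if_neg hR, if_neg (fun h => hR ((hΘiff ψ hψ ψ'' hψ'').mp h))]
        push_cast
        ring
  -- the characters with `D ≠ 0` other than the principal one
  obtain ⟨T, hT'⟩ : ∃ T : Finset (IrrCharacter G), T =
      (Finset.univ.erase (Cfsg.Agent.Lib.Helper83.trivIrr G)).filter (fun χ => D χ ≠ 0) :=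
    ⟨_, rfl⟩
  have hmemT : ∀ χ, χ ∈ T ↔ χ ≠ Cfsg.Agent.Lib.Helper83.trivIrr G ∧ D χ ≠ 0 := by
    intro χ
    rw [hT']
    simp
  have hsumT : ∑ χ ∈ T, D χ ^ 2 = 2 := by
    have h1 : ∑ χ ∈ Finset.univ.erase (Cfsg.Agent.Lib.Helper83.trivIrr G), D χ ^ 2 = 2 := by
      have h2 := Finset.add_sum_erase Finset.univ (fun χ => D χ ^ 2)
        (Finset.mem_univ (Cfsg.Agent.Lib.Helper83.trivIrr G))
      rw [hDsq] at h2
      have h3 : D (Cfsg.Agent.Lib.Helper83.trivIrr G) ^ 2 = 1 := by rw [hD1]; norm_num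
      linarith
    rw [hT', Finset.sum_filter, ← h1]
    refine Finset.sum_congr rfl fun χ _ => ?_
    by_cases h : D χ = 0
    · simp [h]
    · simp [h]
  have hTge : ∀ χ ∈ T, 1 ≤ D χ ^ 2 := by
    intro χ hχ
    have h0 := ((hmemT χ).mp hχ).2
    have h2 : 0 < D χ ^ 2 := by positivity
    omega
  have hcardT : T.card = 2 := by
    have h1 : (T.card : ℤ) ≤ ∑ χ ∈ T, D χ ^ 2 := by
      rw [Finset.card_eq_sum_ones, Nat.cast_sum]
      apply Finset.sum_le_sum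
      intro χ hχ
      have := hTge χ hχ
      push_cast
      omega
    rw [hsumT] at h1
    have h2 : T.card ≤ 2 := by exact_mod_cast h1
    have h3 : T.card ≠ 0 := by
      intro h0
      rw [Finset.card_eq_zero] at h0
      rw [h0] at hsumT
      simp at hsumT
    have h4 : T.card ≠ 1 := by
      intro h0
      obtain ⟨χ, hχ⟩ := Finset.card_eq_one.mp h0
      rw [hχ, Finset.sum_singleton] at hsumT
      have h5 : D χ ≤ 1 := by nlinarith
      have h6 : -1 ≤ D χ := by nlinarith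
      have h7 : D χ = -1 ∨ D χ = 0 ∨ D χ = 1 := by omega
      rcases h7 with h | h | h <;> rw [h] at hsumT <;> norm_num at hsumT
    omega
  obtain ⟨χ₂, χ₃, hne23, hTeq⟩ := Finset.card_eq_two.mp hcardT
  have hχ₂T : χ₂ ∈ T := by rw [hTeq]; simp
  have hχ₃T : χ₃ ∈ T := by rw [hTeq]; simp
  have hsq : D χ₂ ^ 2 = 1 ∧ D χ₃ ^ 2 = 1 := by
    rw [hTeq, Finset.sum_pair hne23] at hsumT
    have h2 := hTge χ₂ hχ₂T
    have h3 := hTge χ₃ hχ₃T
    constructor <;> omega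
  have hpm : ∀ k : ℤ, k ^ 2 = 1 → k = 1 ∨ k = -1 := by
    intro k hk
    have h1 : (k - 1) * (k + 1) = 0 := by linear_combination hk
    rcases mul_eq_zero.mp h1 with h | h
    · left; omega
    · right; omega
  have hDz : ∀ χ, χ ≠ Cfsg.Agent.Lib.Helper83.trivIrr G → χ ≠ χ₂ → χ ≠ χ₃ → D χ = 0 := by
    intro χ h1 h2 h3
    by_contra h0
    have hχT : χ ∈ T := (hmemT χ).mpr ⟨h1, h0⟩
    rw [hTeq] at hχT
    simp only [Finset.mem_insert, Finset.mem_singleton] at hχT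
    rcases hχT with h | h
    · exact h2 h
    · exact h3 h
  have hBmem : ∀ χ, D χ ≠ 0 → χ ∈ principalBlock M G := by
    intro χ h0
    by_contra hχ
    exact h0 (hDnB χ hχ)
  refine ⟨ε, D, Θ, χ₂, χ₃, hε, hΘB, hcoef, hΘiff, hT, hne23, ((hmemT χ₂).mp hχ₂T).1,
    ((hmemT χ₃).mp hχ₃T).1, hBmem χ₂ ((hmemT χ₂).mp hχ₂T).2, hBmem χ₃ ((hmemT χ₃).mp hχ₃T).2,
    hpm _ hsq.1, hpm _ hsq.2, hD1, hDz, ?_, ?_, hXval, hYval⟩
  · intro χ hχB
    by_cases hY : ∃ ψ, ψ ≠ 1 ∧ Θ ψ = χ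
    · exact Or.inr (Or.inr (Or.inr hY))
    · push Not at hY
      have h0 := hXne χ hχB hY
      by_contra hcon
      push Not at hcon
      exact h0 (hDz χ hcon.1 hcon.2.1 hcon.2.2.1)
  · intro ψ hψ
    refine ⟨h1Y ψ hψ, ?_, ?_⟩
    · intro h
      have := hDΘ ψ hψ
      rw [h] at this
      exact ((hmemT χ₂).mp hχ₂T).2 this
    · intro h
      have := hDΘ ψ hψ
      rw [h] at this
      exact ((hmemT χ₃).mp hχ₃T).2 this

open scoped Classical in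
/-- **The principal block for `|N : C| = 3`, packaged**: signs `a₂`, `a₃`, `ε`, the values on
`P \ {1}`, the expansion of sums against the coefficients `a_χ(ψ - 1)`, and the degrees of the
exceptional characters. -/
theorem bab3_pack (hM : Cfsg.IsPModular p M) (P : Sylow p G) (hab : IsMulCommutative P)
    (hP1 : Nat.card P ≠ 1) (hm2 : 3 + 1 < Nat.card P)
    (hCN : (centralizer ((P : Subgroup G) : Set G)).relIndex
      (normalizer ((P : Subgroup G) : Set G)) = 3)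
    (hfrob : ∀ y : G, y ∈ (P : Subgroup G) → y ≠ 1 →
      centralizer ({y} : Set G) ⊓ normalizer ((P : Subgroup G) : Set G) =
        centralizer ((P : Subgroup G) : Set G))
    [Fintype (IrrCharacter G)] :
    ∃ (ε a₂ a₃ : ℤ) (Θ : (↥(P : Subgroup G) →* ℂˣ) → IrrCharacter G)
      (χ₂ χ₃ : IrrCharacter G),
      (ε = 1 ∨ ε = -1) ∧ (a₂ = 1 ∨ a₂ = -1) ∧ (a₃ = 1 ∨ a₃ = -1) ∧
      χ₂ ≠ χ₃ ∧ χ₂ ≠ Cfsg.Agent.Lib.Helper83.trivIrr G ∧
      χ₃ ≠ Cfsg.Agent.Lib.Helper83.trivIrr G ∧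
      χ₂ ∈ principalBlock M G ∧ χ₃ ∈ principalBlock M G ∧
      (∀ ψ, ψ ≠ 1 → Θ ψ ∈ principalBlock M G) ∧
      (∀ ψ, ψ ≠ 1 → Θ ψ ≠ Cfsg.Agent.Lib.Helper83.trivIrr G ∧ Θ ψ ≠ χ₂ ∧ Θ ψ ≠ χ₃) ∧
      (∀ χ ∈ principalBlock M G, χ = Cfsg.Agent.Lib.Helper83.trivIrr G ∨ χ = χ₂ ∨ χ = χ₃ ∨
        ∃ ψ, ψ ≠ 1 ∧ Θ ψ = χ) ∧
      (∀ ψ, ψ ≠ 1 → ∀ ψ', ψ' ≠ 1 → (Θ ψ = Θ ψ' ↔ babRel P ψ ψ')) ∧
      (∀ y : ↥(P : Subgroup G), y ≠ 1 → (χ₂ : G → ℂ) (y : G) = (a₂ : ℂ)) ∧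
      (∀ y : ↥(P : Subgroup G), y ≠ 1 → (χ₃ : G → ℂ) (y : G) = (a₃ : ℂ)) ∧
      (∀ ψ : ↥(P : Subgroup G) →* ℂˣ, ψ ≠ 1 → ∀ y : ↥(P : Subgroup G), y ≠ 1 →
        (Θ ψ : G → ℂ) (y : G) = (ε : ℂ) * ∑ᶠ ψ' ∈ {ψ' : ↥(P : Subgroup G) →* ℂˣ |
          ∃ n : G, n ∈ Subgroup.normalizer ((P : Subgroup G) : Set G) ∧
            ∀ w w' : ↥(P : Subgroup G), (w' : G) = n * w * n⁻¹ → ψ' w' = ψ w},
          ((ψ' y : ℂˣ) : ℂ)) ∧
      (∀ ψ, ψ ≠ 1 → ∀ g : IrrCharacter G → ℂ,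
        ∑ χ, (if χ ∈ principalBlock M G then
          babCoef (P : Subgroup G) (χ : G → ℂ) ψ * g χ else 0) =
        -g (Cfsg.Agent.Lib.Helper83.trivIrr G) - (a₂ : ℂ) * g χ₂ - (a₃ : ℂ) * g χ₃ +
          (ε : ℂ) * g (Θ ψ)) ∧
      (∀ ψ, ψ ≠ 1 → (Θ ψ : G → ℂ) 1 =
        (ε : ℂ) * (1 + (a₂ : ℂ) * (χ₂ : G → ℂ) 1 + (a₃ : ℂ) * (χ₃ : G → ℂ) 1)) := by
  have hp : p.Prime := Fact.out
  obtain ⟨ε, D, Θ, χ₂, χ₃, hε, hΘB, hcoef, hΘiff, hT, hne23, hne2, hne3, hχ₂B, hχ₃B, hD2, hD3,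
    hD1, hDz, hBsub, hΘne, hXval, hYval⟩ := bab3_data hM P hab hP1 hm2 hCN hfrob
  have hB1 : Cfsg.Agent.Lib.Helper83.trivIrr G ∈ principalBlock M G :=
    Cfsg.Agent.Lib.Helper79.trivIrr_mem_principalBlock hM
  have hDsum : ∀ g : IrrCharacter G → ℂ, ∑ χ, (D χ : ℂ) * g χ =
      -g (Cfsg.Agent.Lib.Helper83.trivIrr G) - ((-D χ₂ : ℤ) : ℂ) * g χ₂ -
        ((-D χ₃ : ℤ) : ℂ) * g χ₃ := by
    intro g
    have h1 : ∑ χ ∈ ({Cfsg.Agent.Lib.Helper83.trivIrr G, χ₂, χ₃} : Finset (IrrCharacter G)),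
        (D χ : ℂ) * g χ = ∑ χ, (D χ : ℂ) * g χ := by
      apply Finset.sum_subset (Finset.subset_univ _)
      intro χ _ hχ
      rw [Finset.mem_insert, Finset.mem_insert, Finset.mem_singleton] at hχ
      push Not at hχ
      rw [hDz χ hχ.1 hχ.2.1 hχ.2.2]
      simp
    rw [← h1, Finset.sum_insert, Finset.sum_pair hne23, hD1]
    · push_cast
      ring
    · rw [Finset.mem_insert, Finset.mem_singleton]
      push Not
      exact ⟨hne2.symm, hne3.symm⟩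
  have hDnB : ∀ χ, χ ∉ principalBlock M G → D χ = 0 := by
    intro χ hχ
    apply hDz χ
    · rintro rfl; exact hχ hB1
    · rintro rfl; exact hχ hχ₂B
    · rintro rfl; exact hχ hχ₃B
  have hε2 : (ε : ℂ) * (ε : ℂ) = 1 := by
    rcases hε with h | h <;> rw [h] <;> norm_num
  refine ⟨ε, -D χ₂, -D χ₃, Θ, χ₂, χ₃, hε, ?_, ?_, hne23, hne2, hne3, hχ₂B, hχ₃B, hΘB, hΘne,
    hBsub, hΘiff, ?_, ?_, hYval, ?_, ?_⟩
  · rcases hD2 with h | h
    · right; rw [h]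
    · left; rw [h]; norm_num
  · rcases hD3 with h | h
    · right; rw [h]
    · left; rw [h]; norm_num
  · intro y hy
    exact hXval χ₂ hχ₂B (fun ψ hψ => (hΘne ψ hψ).2.1) y hy
  · intro y hy
    exact hXval χ₃ hχ₃B (fun ψ hψ => (hΘne ψ hψ).2.2) y hy
  · intro ψ hψ g
    have h1 : ∀ χ : IrrCharacter G, (if χ ∈ principalBlock M G then
        babCoef (P : Subgroup G) (χ : G → ℂ) ψ * g χ else 0) =
        (D χ : ℂ) * g χ + (if χ = Θ ψ then (ε : ℂ) * g χ else 0) := by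
      intro χ
      by_cases hχ : χ ∈ principalBlock M G
      · rw [if_pos hχ, hcoef ψ hψ χ hχ]
        by_cases h : χ = Θ ψ
        · rw [if_pos h, if_pos h]; ring
        · rw [if_neg h, if_neg h]; ring
      · rw [if_neg hχ, hDnB χ hχ, if_neg (fun h => hχ (by rw [h]; exact hΘB ψ hψ))]
        simp
    rw [Finset.sum_congr rfl (fun χ _ => h1 χ), Finset.sum_add_distrib, hDsum g,
      Finset.sum_ite_eq' Finset.univ (Θ ψ) (fun χ => (ε : ℂ) * g χ),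
      if_pos (Finset.mem_univ _)]
  · intro ψ hψ
    have hone : ¬ p ∣ orderOf (1 : G) := by
      rw [orderOf_one]
      exact hp.one_lt.ne' ∘ Nat.dvd_one.mp
    have h1 := hT ψ hψ 1 hone
    rw [hDsum (fun χ => conj ((χ : G → ℂ) 1))] at h1
    have hconj : ∀ χ : IrrCharacter G, conj ((χ : G → ℂ) 1) = (χ : G → ℂ) 1 := by
      intro χ
      rw [(Cfsg.Agent.Lib.Helper83.irr_degree χ.2).2, map_natCast]
    simp only [hconj] at h1
    have h2 : ((Cfsg.Agent.Lib.Helper83.trivIrr G : IrrCharacter G) : G → ℂ) 1 = 1 := rfl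
    rw [h2] at h1
    linear_combination (ε : ℂ) * h1 + (-(Θ ψ : G → ℂ) 1) * hε2

end

end Cfsg.Agent.Lib.Helper1
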