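import Mathlib
import Cfsg.Agent.Lib.Helper1.BrauerAbGrp

/-!
# Group theory for Brauer's theorem on abelian Sylow subgroups with `|N : C| = 3` (helper1)

`P` an abelian Sylow `p`-subgroup, `N = N_G(P)`, `C = C_G(P)`, `|N : C| = 3`.

* `bab3_cube`: `n³` acts trivially on `P`; `bab3_gen`: an element `x₀` generating `N` mod `C`;
* `bab3_norm_one`: `w · w^x₀ · w^(x₀²) = 1`;
* `bab3_inv_conj`: an element of `P` inverted by some element of `G` is an involution;
* `bab3_two_zero_count`: (`p = 2`) for an involution `t ∈ P` and `u ∈ P` not conjugate to `t`, no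
  product of two conjugates of `t` is the inverse of an element of the `2`-section of `u`.
-/

set_option autoImplicit false

namespace Cfsg.Agent.Lib.Helper1

open Subgroup

section BrauerAb3Grp

variable {G : Type*} [Group G] [Finite G] {p : ℕ} [Fact p.Prime] (P : Sylow p G)

omit [Finite G] [Fact p.Prime] in
theorem bab3_coe_smul (x : ↥(normalizer ((P : Subgroup G) : Set G)))
    (w : ↥(P : Subgroup G)) :
    ((x • w : ↥(P : Subgroup G)) : G) = (x : G) * (w : G) * (x : G)⁻¹ := rfl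

omit [Finite G] [Fact p.Prime] in
theorem bab3_smul_eq_self_iff (x : ↥(normalizer ((P : Subgroup G) : Set G))) :
    (∀ w : ↥(P : Subgroup G), x • w = w) ↔
      (x : G) ∈ centralizer ((P : Subgroup G) : Set G) := by
  constructor
  · intro h
    rw [mem_centralizer_iff]
    intro w hw
    have h1 := congrArg Subtype.val (h ⟨w, hw⟩)
    rw [bab3_coe_smul] at h1
    have h2 : (x : G) * w * (x : G)⁻¹ = w := h1
    calc w * (x : G) = ((x : G) * w * (x : G)⁻¹) * (x : G) := by rw [h2]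
      _ = (x : G) * w := by group
  · intro h w
    apply Subtype.ext
    rw [bab3_coe_smul, ← mem_centralizer_iff.mp h (w : G) w.2]
    group

omit [Finite G] [Fact p.Prime] in
/-- the image of `N` in `Aut P` has order `|N : C|` -/
theorem bab3_card_range :
    Nat.card (MulDistribMulAction.toMulAut ↥(normalizer ((P : Subgroup G) : Set G))
      ↥(P : Subgroup G)).range =
    (centralizer ((P : Subgroup G) : Set G)).relIndex
      (normalizer ((P : Subgroup G) : Set G)) := by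
  rw [← Subgroup.index_ker]
  have hker : (MulDistribMulAction.toMulAut ↥(normalizer ((P : Subgroup G) : Set G))
      ↥(P : Subgroup G)).ker =
      (centralizer ((P : Subgroup G) : Set G)).subgroupOf
        (normalizer ((P : Subgroup G) : Set G)) := by
    ext x
    rw [MonoidHom.mem_ker, mem_subgroupOf, ← bab3_smul_eq_self_iff]
    constructor
    · intro h w
      have := congrArg (fun f : MulAut ↥(P : Subgroup G) => f w) h
      exact this
    · intro h
      apply MulEquiv.ext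
      intro w
      exact h w
  rw [hker]
  rfl

omit [Finite G] [Fact p.Prime] in
/-- the cube of an element of `N` acts trivially on `P` -/
theorem bab3_cube
    (hCN : (centralizer ((P : Subgroup G) : Set G)).relIndex
      (normalizer ((P : Subgroup G) : Set G)) = 3)
    (n : ↥(normalizer ((P : Subgroup G) : Set G))) (w : ↥(P : Subgroup G)) :
    n • n • n • w = w := by
  have h1 := bab3_card_range P
  rw [hCN] at h1
  have h2 : (⟨MulDistribMulAction.toMulAut ↥(normalizer ((P : Subgroup G) : Set G))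
      ↥(P : Subgroup G) n, MonoidHom.mem_range.mpr ⟨n, rfl⟩⟩ :
      (MulDistribMulAction.toMulAut ↥(normalizer ((P : Subgroup G) : Set G))
        ↥(P : Subgroup G)).range) ^ 3 = 1 := by
    rw [← h1]
    exact pow_card_eq_one'
  have h3 := congrArg Subtype.val h2
  rw [Subgroup.coe_pow, Subgroup.coe_one] at h3
  have h4 := congrArg (fun f : MulAut ↥(P : Subgroup G) => f w) h3
  simp only [pow_succ, pow_zero, one_mul, MulAut.mul_apply, MulAut.one_apply] at h4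
  exact h4

omit [Finite G] [Fact p.Prime] in
/-- an element `x₀` of `N` generating `N` modulo `C` -/
theorem bab3_gen
    (hCN : (centralizer ((P : Subgroup G) : Set G)).relIndex
      (normalizer ((P : Subgroup G) : Set G)) = 3) :
    ∃ x₀ : ↥(normalizer ((P : Subgroup G) : Set G)),
      (x₀ : G) ∉ centralizer ((P : Subgroup G) : Set G) ∧
      ∀ (n : ↥(normalizer ((P : Subgroup G) : Set G))),
        (∀ w : ↥(P : Subgroup G), n • w = w) ∨ (∀ w : ↥(P : Subgroup G), n • w = x₀ • w) ∨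
          (∀ w : ↥(P : Subgroup G), n • w = x₀ • x₀ • w) := by
  have h1 := bab3_card_range P
  rw [hCN] at h1
  have : Fact (Nat.Prime 3) := ⟨by norm_num⟩
  obtain ⟨x₀, hx₀⟩ : ∃ x₀ : ↥(normalizer ((P : Subgroup G) : Set G)),
      (x₀ : G) ∉ centralizer ((P : Subgroup G) : Set G) := by
    by_contra hcon
    push Not at hcon
    have h2 : (centralizer ((P : Subgroup G) : Set G)).relIndex
        (normalizer ((P : Subgroup G) : Set G)) = 1 := by
      rw [Subgroup.relIndex_eq_one]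
      intro x hx
      exact hcon ⟨x, hx⟩
    omega
  refine ⟨x₀, hx₀, ?_⟩
  intro n
  obtain ⟨r₀, hr₀⟩ : ∃ r₀ : (MulDistribMulAction.toMulAut
      ↥(normalizer ((P : Subgroup G) : Set G)) ↥(P : Subgroup G)).range,
      r₀ = ⟨MulDistribMulAction.toMulAut ↥(normalizer ((P : Subgroup G) : Set G))
        ↥(P : Subgroup G) x₀, MonoidHom.mem_range.mpr ⟨x₀, rfl⟩⟩ := ⟨_, rfl⟩
  have hr₀1 : r₀ ≠ 1 := by
    intro h
    apply hx₀
    rw [← bab3_smul_eq_self_iff]
    intro w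
    rw [hr₀] at h
    have h3 := congrArg Subtype.val h
    have h4 := congrArg (fun f : MulAut ↥(P : Subgroup G) => f w) h3
    exact h4
  have hr₀3 : r₀ ^ 3 = 1 := by
    rw [← h1]
    exact pow_card_eq_one'
  have hmem : (⟨MulDistribMulAction.toMulAut ↥(normalizer ((P : Subgroup G) : Set G))
      ↥(P : Subgroup G) n, MonoidHom.mem_range.mpr ⟨n, rfl⟩⟩ :
      (MulDistribMulAction.toMulAut ↥(normalizer ((P : Subgroup G) : Set G))
        ↥(P : Subgroup G)).range) ∈ zpowers r₀ := mem_zpowers_of_prime_card h1 hr₀1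
  obtain ⟨k, hk⟩ := mem_zpowers_iff.mp hmem
  have hk' : r₀ ^ (k % 3) = ⟨MulDistribMulAction.toMulAut
      ↥(normalizer ((P : Subgroup G) : Set G)) ↥(P : Subgroup G) n,
      MonoidHom.mem_range.mpr ⟨n, rfl⟩⟩ := by
    rw [← hk]
    conv_rhs => rw [← Int.emod_add_mul_ediv k 3]
    rw [zpow_add, zpow_mul]
    have : r₀ ^ (3 : ℤ) = 1 := by exact_mod_cast hr₀3
    rw [this, one_zpow, mul_one]
  have hlt : k % 3 < 3 := Int.emod_lt_of_pos k (by norm_num)
  have hge : 0 ≤ k % 3 := Int.emod_nonneg k (by norm_num)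
  have hcases : k % 3 = 0 ∨ k % 3 = 1 ∨ k % 3 = 2 := by omega
  rw [hr₀] at hk'
  rcases hcases with h | h | h
  · left
    intro w
    rw [h, zpow_zero] at hk'
    have h3 := congrArg Subtype.val hk'
    have h4 := congrArg (fun f : MulAut ↥(P : Subgroup G) => f w) h3
    exact h4.symm
  · right; left
    intro w
    rw [h, zpow_one] at hk'
    have h3 := congrArg Subtype.val hk'
    have h4 := congrArg (fun f : MulAut ↥(P : Subgroup G) => f w) h3
    exact h4.symm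
  · right; right
    intro w
    rw [h] at hk'
    have h5 : (2 : ℤ) = ((2 : ℕ) : ℤ) := rfl
    rw [h5, zpow_natCast, pow_two] at hk'
    have h3 := congrArg Subtype.val hk'
    have h4 := congrArg (fun f : MulAut ↥(P : Subgroup G) => f w) h3
    exact h4.symm

omit [Finite G] [Fact p.Prime] in
/-- the norm of `x₀` on `P` is trivial -/
theorem bab3_norm_one (hab : IsMulCommutative P)
    (hCN : (centralizer ((P : Subgroup G) : Set G)).relIndex
      (normalizer ((P : Subgroup G) : Set G)) = 3)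
    (hfrob : ∀ y : G, y ∈ (P : Subgroup G) → y ≠ 1 →
      centralizer ({y} : Set G) ⊓ normalizer ((P : Subgroup G) : Set G) =
        centralizer ((P : Subgroup G) : Set G))
    (x₀ : ↥(normalizer ((P : Subgroup G) : Set G)))
    (hx₀ : (x₀ : G) ∉ centralizer ((P : Subgroup G) : Set G)) (w : ↥(P : Subgroup G)) :
    w * (x₀ • w) * (x₀ • x₀ • w) = 1 := by
  by_contra hne
  apply hx₀
  have hfix : x₀ • (w * (x₀ • w) * (x₀ • x₀ • w)) = w * (x₀ • w) * (x₀ • x₀ • w) := by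
    rw [smul_mul', smul_mul', bab3_cube P hCN x₀ w]
    have := hab
    rw [mul_comm' ((x₀ • w) * (x₀ • x₀ • w)) w, mul_assoc]
  have hz1 : ((w * (x₀ • w) * (x₀ • x₀ • w) : ↥(P : Subgroup G)) : G) ≠ 1 := by
    intro h
    exact hne (Subtype.ext h)
  rw [← hfrob _ (w * (x₀ • w) * (x₀ • x₀ • w)).2 hz1]
  refine Subgroup.mem_inf.mpr ⟨?_, x₀.2⟩
  rw [mem_centralizer_iff]
  intro z hz
  rw [Set.mem_singleton_iff] at hz
  subst hz
  have h3 := congrArg Subtype.val hfix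
  rw [bab3_coe_smul] at h3
  calc ((w * (x₀ • w) * (x₀ • x₀ • w) : ↥(P : Subgroup G)) : G) * (x₀ : G)
      = ((x₀ : G) * ((w * (x₀ • w) * (x₀ • x₀ • w) : ↥(P : Subgroup G)) : G) * (x₀ : G)⁻¹) *
          (x₀ : G) := by rw [h3]
    _ = (x₀ : G) * ((w * (x₀ • w) * (x₀ • x₀ • w) : ↥(P : Subgroup G)) : G) := by group

/-- an element of `P` which is inverted by an element of `G` is an involution (or trivial) -/
theorem bab3_inv_conj (hab : IsMulCommutative P)
    (hCN : (centralizer ((P : Subgroup G) : Set G)).relIndex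
      (normalizer ((P : Subgroup G) : Set G)) = 3)
    (u : G) (hu : u ∈ (P : Subgroup G)) (g : G) (h : g * u * g⁻¹ = u⁻¹) : u * u = 1 := by
  obtain ⟨n, hn, hnu⟩ := bab_fusion P hab u hu g (by rw [h]; exact inv_mem hu)
  rw [h] at hnu
  have h1 : (⟨n, hn⟩ : ↥(normalizer ((P : Subgroup G) : Set G))) • (⟨u, hu⟩ : ↥(P : Subgroup G)) =
      (⟨u, hu⟩ : ↥(P : Subgroup G))⁻¹ := by
    apply Subtype.ext
    rw [bab3_coe_smul]
    exact hnu
  have h2 := bab3_cube P hCN ⟨n, hn⟩ ⟨u, hu⟩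
  rw [h1, smul_inv', h1, inv_inv, h1] at h2
  have h3 : (⟨u, hu⟩ : ↥(P : Subgroup G)) * ⟨u, hu⟩ = 1 := by
    calc (⟨u, hu⟩ : ↥(P : Subgroup G)) * ⟨u, hu⟩
        = (⟨u, hu⟩ : ↥(P : Subgroup G)) * (⟨u, hu⟩ : ↥(P : Subgroup G))⁻¹ := by rw [h2]
      _ = 1 := mul_inv_cancel _
  exact congrArg Subtype.val h3

omit [Fact p.Prime] in
open scoped Classical in
/-- the sum over the `N`-orbit of a non-trivial linear character of `P` -/
theorem bab3_orbit_sum
    (hCN : (centralizer ((P : Subgroup G) : Set G)).relIndex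
      (normalizer ((P : Subgroup G) : Set G)) = 3)
    (hfrob : ∀ y : G, y ∈ (P : Subgroup G) → y ≠ 1 →
      centralizer ({y} : Set G) ⊓ normalizer ((P : Subgroup G) : Set G) =
        centralizer ((P : Subgroup G) : Set G))
    (x₀ : ↥(normalizer ((P : Subgroup G) : Set G)))
    (hx₀ : (x₀ : G) ∉ centralizer ((P : Subgroup G) : Set G))
    (hxu : ∀ (n : ↥(normalizer ((P : Subgroup G) : Set G))),
        (∀ w : ↥(P : Subgroup G), n • w = w) ∨ (∀ w : ↥(P : Subgroup G), n • w = x₀ • w) ∨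
          (∀ w : ↥(P : Subgroup G), n • w = x₀ • x₀ • w))
    (ψ : ↥(P : Subgroup G) →* ℂˣ) (hψ : ψ ≠ 1) (F : (↥(P : Subgroup G) →* ℂˣ) → ℂ) :
    ∑ᶠ ψ' ∈ {ψ' : ↥(P : Subgroup G) →* ℂˣ |
        ∃ n : G, n ∈ normalizer ((P : Subgroup G) : Set G) ∧
          ∀ w w' : ↥(P : Subgroup G), (w' : G) = n * w * n⁻¹ → ψ' w' = ψ w}, F ψ' =
      F ψ + F (babConj P x₀ ψ) + F (babConj P x₀ (babConj P x₀ ψ)) := by
  have h1 : babConj P x₀ ψ ≠ ψ := fun h => hψ (bab_semireg P hfrob x₀ hx₀ ψ h)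
  have hψ₁ : babConj P x₀ ψ ≠ 1 := babConj_ne_one P x₀ ψ hψ
  have h2 : babConj P x₀ (babConj P x₀ ψ) ≠ babConj P x₀ ψ :=
    fun h => hψ₁ (bab_semireg P hfrob x₀ hx₀ _ h)
  have h3 : babConj P x₀ (babConj P x₀ (babConj P x₀ ψ)) = ψ := by
    apply MonoidHom.ext
    intro w
    rw [babConj_apply, babConj_apply, babConj_apply, bab3_cube P hCN x₀ w]
  have h4 : babConj P x₀ (babConj P x₀ ψ) ≠ ψ := by
    intro h
    rw [h] at h3
    exact h1 h3
  have hset : {ψ' : ↥(P : Subgroup G) →* ℂˣ |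
        ∃ n : G, n ∈ normalizer ((P : Subgroup G) : Set G) ∧
          ∀ w w' : ↥(P : Subgroup G), (w' : G) = n * w * n⁻¹ → ψ' w' = ψ w} =
      ↑({ψ, babConj P x₀ ψ, babConj P x₀ (babConj P x₀ ψ)} :
        Finset (↥(P : Subgroup G) →* ℂˣ)) := by
    ext ψ'
    rw [Set.mem_ofPred_eq, bab_rel_iff, Finset.mem_coe, Finset.mem_insert, Finset.mem_insert,
      Finset.mem_singleton]
    constructor
    · rintro ⟨x, hx⟩
      have hψ' : ψ' = babConj P x⁻¹ ψ := by
        rw [← hx, ← babConj_mul, mul_inv_cancel, babConj_one]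
      rcases hxu x⁻¹ with h | h | h
      · left
        rw [hψ']
        apply MonoidHom.ext
        intro w
        rw [babConj_apply, h w]
      · right; left
        rw [hψ']
        apply MonoidHom.ext
        intro w
        rw [babConj_apply, babConj_apply, h w]
      · right; right
        rw [hψ']
        apply MonoidHom.ext
        intro w
        rw [babConj_apply, babConj_apply, babConj_apply, h w]
    · rintro (h | h | h)
      · exact ⟨1, by rw [h, babConj_one]⟩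
      · exact ⟨x₀ * x₀, by rw [h, babConj_mul, h3]⟩
      · refine ⟨x₀, ?_⟩
        rw [h, h3]
  rw [hset, finsum_mem_coe_finset, Finset.sum_insert, Finset.sum_insert, Finset.sum_singleton,
    add_assoc]
  · rw [Finset.mem_singleton]
    exact h2.symm
  · rw [Finset.mem_insert, Finset.mem_singleton]
    push Not
    exact ⟨h1.symm, h4.symm⟩

end BrauerAb3Grp

section Two

/-- products in a four-group -/
theorem bab3_tri {A : Type*} [Group A] (c₀ c₁ c₂ : A) (h : c₀ * c₁ * c₂ = 1)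
    (h0 : c₀ * c₀ = 1) (h2 : c₂ * c₂ = 1) :
    c₀ * c₁ = c₂ ∧ c₀ * c₂ = c₁ ∧ c₁ * c₂ = c₀ := by
  have e2 : c₂⁻¹ = c₂ := inv_eq_of_mul_eq_one_left h2
  have e0 : c₀⁻¹ = c₀ := inv_eq_of_mul_eq_one_left h0
  have h01 : c₀ * c₁ = c₂ := by
    rw [← e2]
    exact eq_inv_of_mul_eq_one_left h
  refine ⟨h01, ?_, ?_⟩
  · rw [← h01, ← mul_assoc, h0, one_mul]
  · rw [mul_assoc] at h
    rw [← e0]
    exact eq_inv_of_mul_eq_one_right h

variable {G : Type*} [Group G] [Finite G] (P : Sylow 2 G)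

/-- (`p = 2`) if `u ∈ P` is not conjugate to the involution `t ∈ P`, then no product of two
conjugates of `t` is the inverse of an element with `2`-part `u`. -/
theorem bab3_two_zero_count (hab : IsMulCommutative P)
    (hCN : (centralizer ((P : Subgroup G) : Set G)).relIndex
      (normalizer ((P : Subgroup G) : Set G)) = 3)
    (hfrob : ∀ y : G, y ∈ (P : Subgroup G) → y ≠ 1 →
      centralizer ({y} : Set G) ⊓ normalizer ((P : Subgroup G) : Set G) =
        centralizer ((P : Subgroup G) : Set G))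
    (x₀ : ↥(normalizer ((P : Subgroup G) : Set G)))
    (hx₀ : (x₀ : G) ∉ centralizer ((P : Subgroup G) : Set G))
    (hxn : ∀ (n : ↥(normalizer ((P : Subgroup G) : Set G))) (w : ↥(P : Subgroup G)),
      n • w = w ∨ n • w = x₀ • w ∨ n • w = x₀ • x₀ • w)
    (t : ↥(P : Subgroup G)) (ht2 : t * t = 1) (u : ↥(P : Subgroup G)) (hu1 : u ≠ 1)
    (hut : u ≠ t) (huc1 : u ≠ x₀ • t) (huc2 : u ≠ x₀ • x₀ • t)
    (y : G) (hy : y ∈ centralizer ({(u : G)} : Set G)) (hyodd : ¬ 2 ∣ orderOf y) (h : G) :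
    ¬ IsConj (h * (t : G) * h⁻¹ * (t : G)) ((u : G) * y)⁻¹ := by
  intro hconj
  obtain ⟨k, hk⟩ := isConj_iff.mp hconj
  have ht2' : (t : G) * (t : G) = 1 := congrArg Subtype.val ht2
  obtain ⟨s₁, hs₁⟩ : ∃ s₁ : G, s₁ = (k * h) * (t : G) * (k * h)⁻¹ := ⟨_, rfl⟩
  obtain ⟨s₂, hs₂⟩ : ∃ s₂ : G, s₂ = k * (t : G) * k⁻¹ := ⟨_, rfl⟩
  have hconjsq : ∀ g : G, (g * (t : G) * g⁻¹) * (g * (t : G) * g⁻¹) = 1 := by
    intro g
    calc (g * (t : G) * g⁻¹) * (g * (t : G) * g⁻¹) = g * ((t : G) * (t : G)) * g⁻¹ := by group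
      _ = 1 := by rw [ht2']; group
  have hs₁2 : s₁ * s₁ = 1 := by rw [hs₁]; exact hconjsq _
  have hs₂2 : s₂ * s₂ = 1 := by rw [hs₂]; exact hconjsq _
  have hs₁i : s₁⁻¹ = s₁ := inv_eq_of_mul_eq_one_left hs₁2
  have hs₂i : s₂⁻¹ = s₂ := inv_eq_of_mul_eq_one_left hs₂2
  have hw : s₁ * s₂ = ((u : G) * y)⁻¹ := by
    rw [hs₁, hs₂, ← hk]
    group
  have hcomm : (u : G) * y = y * (u : G) :=
    mem_centralizer_iff.mp hy (u : G) (Set.mem_singleton _)
  have huy : (u : G) * y = s₂ * s₁ := by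
    have h0 : ((u : G) * y) = (s₁ * s₂)⁻¹ := by rw [hw, inv_inv]
    rw [h0, mul_inv_rev, hs₁i, hs₂i]
  have hinv : s₁ * ((u : G) * y) * s₁⁻¹ = ((u : G) * y)⁻¹ := by
    rw [← hw, huy, hs₁i, mul_assoc, mul_assoc, hs₁2, mul_one]
  -- the 2-part
  have h1 : ((u : G) * y) ^ orderOf y = (u : G) ^ orderOf y := by
    rw [(show Commute (u : G) y from hcomm).mul_pow, pow_orderOf_eq_one, mul_one]
  have h2 : s₁ * (u : G) ^ orderOf y * s₁⁻¹ = ((u : G) ^ orderOf y)⁻¹ := by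
    rw [← h1, ← conj_pow, hinv, inv_pow]
  have hcop : Nat.Coprime (orderOf y) (orderOf (u : G)) := by
    obtain ⟨j, hj⟩ := P.isPGroup' u
    have hj' : (u : G) ^ (2 ^ j) = 1 := by simpa using congrArg Subtype.val hj
    have hord : orderOf (u : G) ∣ 2 ^ j := orderOf_dvd_of_pow_eq_one hj'
    have hodd : Nat.Coprime (orderOf y) 2 :=
      Nat.coprime_comm.mp ((Nat.Prime.coprime_iff_not_dvd Nat.prime_two).mpr hyodd)
    exact Nat.Coprime.coprime_dvd_right hord (Nat.Coprime.pow_right _ hodd)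
  obtain ⟨b, hb⟩ := exists_pow_eq_self_of_coprime hcop
  have h3 : s₁ * (u : G) * s₁⁻¹ = (u : G)⁻¹ := by
    calc s₁ * (u : G) * s₁⁻¹ = s₁ * (((u : G) ^ orderOf y) ^ b) * s₁⁻¹ := by rw [hb]
      _ = (s₁ * (u : G) ^ orderOf y * s₁⁻¹) ^ b := (conj_pow).symm
      _ = (((u : G) ^ orderOf y)⁻¹) ^ b := by rw [h2]
      _ = (((u : G) ^ orderOf y) ^ b)⁻¹ := inv_pow _ _
      _ = (u : G)⁻¹ := by rw [hb]
  have hu2 : (u : G) * (u : G) = 1 := bab3_inv_conj P hab hCN (u : G) u.2 s₁ h3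
  have hui : (u : G)⁻¹ = (u : G) := inv_eq_of_mul_eq_one_left hu2
  have hs₁u : s₁ * (u : G) = (u : G) * s₁ := by
    rw [hui] at h3
    calc s₁ * (u : G) = (s₁ * (u : G) * s₁⁻¹) * s₁ := by group
      _ = (u : G) * s₁ := by rw [h3]
  -- `u = (s₁ s₂) ^ r`, `r` odd
  obtain ⟨j, hj⟩ : ∃ j, orderOf y = 2 * j + 1 := by
    have h0 : Odd (orderOf y) := Nat.odd_iff.mpr (by omega)
    exact h0
  have hur : (s₁ * s₂) ^ (2 * j + 1) = (u : G) := by
    rw [hw, inv_pow, ← hj, h1, hj, pow_succ, pow_mul, sq, hu2, one_pow, one_mul, hui]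
  have hs₂w : s₂ * (s₁ * s₂) ^ j = ((s₁ * s₂) ^ j)⁻¹ * s₂ := by
    have e : s₂ * (s₁ * s₂) * s₂⁻¹ = (s₁ * s₂)⁻¹ := by
      rw [mul_inv_rev, hs₁i, hs₂i, mul_assoc, mul_assoc, hs₂2, mul_one]
    have e2 : s₂ * (s₁ * s₂) ^ j * s₂⁻¹ = ((s₁ * s₂) ^ j)⁻¹ := by
      rw [← conj_pow, e, inv_pow]
    calc s₂ * (s₁ * s₂) ^ j = (s₂ * (s₁ * s₂) ^ j * s₂⁻¹) * s₂ := by group
      _ = ((s₁ * s₂) ^ j)⁻¹ * s₂ := by rw [e2]
  have hs₃ : s₁ * (u : G) = ((s₁ * s₂) ^ j)⁻¹ * s₂ * (s₁ * s₂) ^ j := by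
    have e : (s₁ * s₂) ^ (2 * j + 1) = (s₁ * s₂) * ((s₁ * s₂) ^ j * (s₁ * s₂) ^ j) := by
      rw [pow_succ', two_mul, pow_add]
    rw [← hur, e]
    calc s₁ * (s₁ * s₂ * ((s₁ * s₂) ^ j * (s₁ * s₂) ^ j))
        = (s₁ * s₁) * (s₂ * (s₁ * s₂) ^ j) * (s₁ * s₂) ^ j := by simp only [mul_assoc]
      _ = ((s₁ * s₂) ^ j)⁻¹ * s₂ * (s₁ * s₂) ^ j := by rw [hs₁2, hs₂w, one_mul]
  -- Sylow's theorem in `C_G(u)`
  have hPH : (P : Subgroup G) ≤ centralizer ({(u : G)} : Set G) := bab_le_cent P hab u.2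
  have hs₁H : s₁ ∈ centralizer ({(u : G)} : Set G) := by
    rw [mem_centralizer_iff]
    intro z hz
    rw [Set.mem_singleton_iff] at hz
    subst hz
    exact hs₁u.symm
  have hpg : IsPGroup 2 ↥(zpowers (⟨s₁, hs₁H⟩ : ↥(centralizer ({(u : G)} : Set G)))) := by
    rintro ⟨g, hg⟩
    obtain ⟨i, rfl⟩ := mem_zpowers_iff.mp hg
    refine ⟨1, ?_⟩
    apply Subtype.ext
    apply Subtype.ext
    show ((s₁ ^ i) ^ 2 ^ 1 : G) = 1
    rw [pow_one, ← zpow_natCast, ← zpow_mul, mul_comm, zpow_mul, zpow_natCast, sq, hs₁2,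
      one_zpow]
  obtain ⟨Q, hQ⟩ := hpg.exists_le_sylow
  obtain ⟨g, hg⟩ := MulAction.exists_smul_eq ↥(centralizer ({(u : G)} : Set G))
    (P.subtype hPH) Q
  have hs₁Q : (⟨s₁, hs₁H⟩ : ↥(centralizer ({(u : G)} : Set G))) ∈
      (Q : Subgroup ↥(centralizer ({(u : G)} : Set G))) := hQ (mem_zpowers _)
  rw [← hg, Sylow.coe_subgroup_smul, Subgroup.mem_pointwise_smul_iff_inv_smul_mem,
    MulAut.smul_def, MulAut.conj_inv_apply, Sylow.coe_subtype, mem_subgroupOf] at hs₁Q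
  have ha : (g : G)⁻¹ * s₁ * (g : G) ∈ (P : Subgroup G) := hs₁Q
  have hgu : (g : G) * (u : G) = (u : G) * (g : G) :=
    (mem_centralizer_iff.mp g.2 (u : G) (Set.mem_singleton _)).symm
  have ha' : (g : G)⁻¹ * s₁ * (g : G) =
      ((g : G)⁻¹ * (k * h)) * (t : G) * ((g : G)⁻¹ * (k * h))⁻¹ := by
    rw [hs₁]
    group
  obtain ⟨n₁, hn₁, hn₁t⟩ := bab_fusion P hab (t : G) t.2 ((g : G)⁻¹ * (k * h))
    (by rw [← ha']; exact ha)
  have hb' : (g : G)⁻¹ * s₁ * (g : G) * (u : G) =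
      ((g : G)⁻¹ * ((s₁ * s₂) ^ j)⁻¹ * k) * (t : G) *
        ((g : G)⁻¹ * ((s₁ * s₂) ^ j)⁻¹ * k)⁻¹ := by
    calc (g : G)⁻¹ * s₁ * (g : G) * (u : G) = (g : G)⁻¹ * s₁ * ((g : G) * (u : G)) := by group
      _ = (g : G)⁻¹ * (s₁ * (u : G)) * (g : G) := by rw [hgu]; group
      _ = (g : G)⁻¹ * (((s₁ * s₂) ^ j)⁻¹ * (k * (t : G) * k⁻¹) * (s₁ * s₂) ^ j) * (g : G) := by
          rw [hs₃, hs₂]
      _ = _ := by
          have e : ((g : G)⁻¹ * ((s₁ * s₂) ^ j)⁻¹ * k)⁻¹ = k⁻¹ * (s₁ * s₂) ^ j * (g : G) := by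
            group
          rw [e]
          group
  obtain ⟨n₂, hn₂, hn₂t⟩ := bab_fusion P hab (t : G) t.2
    ((g : G)⁻¹ * ((s₁ * s₂) ^ j)⁻¹ * k) (by rw [← hb']; exact mul_mem ha u.2)
  obtain ⟨a, ha_def⟩ : ∃ a : ↥(P : Subgroup G), a = ⟨(g : G)⁻¹ * s₁ * (g : G), ha⟩ := ⟨_, rfl⟩
  have hA : a = (⟨n₁, hn₁⟩ : ↥(normalizer ((P : Subgroup G) : Set G))) • t := by
    rw [ha_def]
    apply Subtype.ext
    rw [bab3_coe_smul]
    show (g : G)⁻¹ * s₁ * (g : G) = n₁ * (t : G) * n₁⁻¹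
    rw [hn₁t, ha']
  have hB : a * u = (⟨n₂, hn₂⟩ : ↥(normalizer ((P : Subgroup G) : Set G))) • t := by
    rw [ha_def]
    apply Subtype.ext
    rw [bab3_coe_smul]
    show (g : G)⁻¹ * s₁ * (g : G) * (u : G) = n₂ * (t : G) * n₂⁻¹
    rw [hn₂t, hb']
  have hc1 : (x₀ • t) * (x₀ • t) = 1 := by rw [← smul_mul', ht2, smul_one]
  have hc2 : (x₀ • x₀ • t) * (x₀ • x₀ • t) = 1 := by
    rw [← smul_mul', ← smul_mul', ht2, smul_one, smul_one]
  have hnorm := bab3_norm_one P hab hCN hfrob x₀ hx₀ t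
  obtain ⟨e01, e02, e12⟩ := bab3_tri t (x₀ • t) (x₀ • x₀ • t) hnorm ht2 hc2
  have hcm : ∀ a b : ↥(P : Subgroup G), a * b = b * a := fun a b => by
    have := hab
    exact mul_comm' a b
  have key : ∀ a b : ↥(P : Subgroup G), a * a = 1 → a * u = b → u = a * b := by
    intro a b ha hb
    rw [← hb, ← mul_assoc, ha, one_mul]
  rcases hxn ⟨n₁, hn₁⟩ t with hA' | hA' | hA' <;>
    rcases hxn ⟨n₂, hn₂⟩ t with hB' | hB' | hB' <;>
    rw [hA'] at hA <;> rw [hB'] at hB <;> rw [hA] at hB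
  · exact hu1 (mul_left_cancel (hB.trans (mul_one t).symm))
  · exact huc2 ((key _ _ ht2 hB).trans e01)
  · exact huc1 ((key _ _ ht2 hB).trans e02)
  · exact huc2 ((key _ _ hc1 hB).trans ((hcm _ _).trans e01))
  · exact hu1 (mul_left_cancel (hB.trans (mul_one _).symm))
  · exact hut ((key _ _ hc1 hB).trans e12)
  · exact huc1 ((key _ _ hc2 hB).trans ((hcm _ _).trans e02))
  · exact hut ((key _ _ hc2 hB).trans ((hcm _ _).trans e12))
  · exact hu1 (mul_left_cancel (hB.trans (mul_one _).symm))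

end Two

end Cfsg.Agent.Lib.Helper1
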