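import Mathlib
import Cfsg.Agent.Lib.Helper1.BrauerAb3
import Cfsg.Agent.Lib.Helper1.BrauerAb3Grp
import Cfsg.Agent.Lib.Helper82.ThetaGen
import Cfsg.Agent.Lib.Helper62.Cent4B
import Cfsg.Agent.Lib.Helper83.Codeg

/-!
# Brauer's theorem on abelian Sylow subgroups with `|N : C| = 3`, `p` odd: the involution
relations (helper1)

* `bab3_arith`: the arithmetic of the three relations
  `∑ e_i x_i = 0`, `∑ e_i τ_i = 0`, `∑ e_i τ_i² / x_i = 0`;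
* `bab3_odd`: for `p` odd and an involution `t` in no proper normal subgroup, exactly two of
  `a₂`, `a₃`, `-ε` are `-1` and the product of the degrees of `χ₂`, `χ₃`, `Θ ψ` is a square.
-/

set_option autoImplicit false

namespace Cfsg.Agent.Lib.Helper1

open Cfsg Subgroup
open scoped ComplexConjugate

theorem bab3_sq_of_mul (n w m : ℤ) (hw : w ≠ 0) (h : n * w ^ 2 = m ^ 2) : IsSquare n := by
  have hdvd : w ^ 2 ∣ m ^ 2 := ⟨n, by linarith⟩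
  have hwm : w ∣ m := (Int.pow_dvd_pow_iff (by norm_num : (2 : ℕ) ≠ 0)).mp hdvd
  obtain ⟨c, rfl⟩ := hwm
  refine ⟨c, ?_⟩
  have hw2 : w ^ 2 ≠ 0 := pow_ne_zero 2 hw
  have h1 : w ^ 2 * n = w ^ 2 * (c * c) := by linear_combination h
  exact mul_left_cancel₀ hw2 h1

theorem bab3_cs (p q s r X T : ℤ) (hp : 0 < p) (hq : 0 < q) (hX : X = 1 + p + q)
    (hT : T = 1 + s + r)
    (h1 : T ^ 2 * p * q = X * p * q + s ^ 2 * q * X + r ^ 2 * p * X) : s = p := by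
  have key : q * (s - p) ^ 2 + p * (r - q) ^ 2 + (s * q - r * p) ^ 2 = 0 := by
    rw [hX, hT] at h1
    linear_combination (-1 : ℤ) * h1
  have h2 : (s - p) ^ 2 ≤ 0 := by
    nlinarith [mul_nonneg hp.le (sq_nonneg (r - q)), sq_nonneg (s * q - r * p),
      mul_nonneg (by linarith : (0 : ℤ) ≤ q - 1) (sq_nonneg (s - p))]
  have h3 : (s - p) ^ 2 = 0 := le_antisymm h2 (sq_nonneg _)
  have h4 := pow_eq_zero_iff (two_ne_zero) |>.mp h3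
  linarith

/-- the arithmetic of Brauer's three relations for four characters -/
theorem bab3_arith (ε a₂ a₃ x₂ x₃ x τ₂ τ₃ τ : ℤ) (hε : ε = 1 ∨ ε = -1)
    (ha₂ : a₂ = 1 ∨ a₂ = -1) (ha₃ : a₃ = 1 ∨ a₃ = -1)
    (hx₂ : 0 < x₂) (hx₃ : 0 < x₃) (hx : 0 < x) (hτ₂ : τ₂ ≠ x₂) (hτ₃ : τ₃ ≠ x₃) (hτ : τ ≠ x)
    (R2 : 1 + a₂ * x₂ + a₃ * x₃ = ε * x) (R3 : 1 + a₂ * τ₂ + a₃ * τ₃ = ε * τ)
    (R1 : x₂ * x₃ * x + a₂ * τ₂ ^ 2 * x₃ * x + a₃ * τ₃ ^ 2 * x₂ * x = ε * τ ^ 2 * x₂ * x₃) :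
    ((if a₂ = -1 then 1 else 0) + (if a₃ = -1 then 1 else 0) + (if ε = 1 then 1 else 0) = 2) ∧
      IsSquare (x * (x₂ * x₃)) := by
  rcases hε with rfl | rfl <;> rcases ha₂ with rfl | rfl <;> rcases ha₃ with rfl | rfl
  · -- (1, 1, 1)
    exfalso
    exact hτ₂ (bab3_cs x₂ x₃ τ₂ τ₃ x τ hx₂ hx₃ (by linarith) (by linarith)
      (by linear_combination (-1 : ℤ) * R1))
  · -- (1, 1, -1)
    refine ⟨by norm_num, ?_⟩
    have hxe : x = 1 + x₂ - x₃ := by linarith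
    have hτe : τ = 1 + τ₂ - τ₃ := by linarith
    apply bab3_sq_of_mul _ (x₂ - τ₂) (x₂ * (τ₃ * x - τ * x₃)) (fun h => hτ₂ (by linarith))
    rw [hxe, hτe] at R1 ⊢
    linear_combination (x₂ * (1 + x₂)) * R1
  · -- (1, -1, 1)
    refine ⟨by norm_num, ?_⟩
    have hxe : x = 1 - x₂ + x₃ := by linarith
    have hτe : τ = 1 - τ₂ + τ₃ := by linarith
    apply bab3_sq_of_mul _ (x₃ - τ₃) (x₃ * (τ₂ * x - τ * x₂)) (fun h => hτ₃ (by linarith))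
    rw [hxe, hτe] at R1 ⊢
    linear_combination (x₃ * (1 + x₃)) * R1
  · -- (1, -1, -1)
    exfalso
    linarith
  · -- (-1, 1, 1)
    exfalso
    linarith
  · -- (-1, 1, -1)
    exfalso
    exact hτ₂ (bab3_cs x₂ x τ₂ τ x₃ τ₃ hx₂ hx (by linarith) (by linarith)
      (by linear_combination (-1 : ℤ) * R1))
  · -- (-1, -1, 1)
    exfalso
    exact hτ₃ (bab3_cs x₃ x τ₃ τ x₂ τ₂ hx₃ hx (by linarith) (by linarith)
      (by linear_combination (-1 : ℤ) * R1))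
  · -- (-1, -1, -1)
    refine ⟨by norm_num, ?_⟩
    have hxe : x₃ = 1 + x - x₂ := by linarith
    have hτe : τ₃ = 1 + τ - τ₂ := by linarith
    apply bab3_sq_of_mul _ (x - τ) (x * (τ₂ * x₃ - τ₃ * x₂)) (fun h => hτ (by linarith))
    rw [hxe, hτe] at R1 ⊢
    linear_combination (x * (1 + x)) * R1

section

variable {G : Type*} [Group G] [Finite G] {p : ℕ} [Fact p.Prime] {M : Ideal Cfsg.AlgInt}

open scoped Classical in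
/-- **Brauer's involution relations for `|N : C| = 3`, `p` odd.** -/
theorem bab3_odd (hM : Cfsg.IsPModular p M) (P : Sylow p G) (hab : IsMulCommutative P)
    (hCN : (centralizer ((P : Subgroup G) : Set G)).relIndex
      (normalizer ((P : Subgroup G) : Set G)) = 3)
    (hp2 : p ≠ 2) [Fintype (IrrCharacter G)]
    (ε a₂ a₃ : ℤ) (χ₂ χ₃ η : IrrCharacter G) (ψ : ↥(P : Subgroup G) →* ℂˣ)
    (hε : ε = 1 ∨ ε = -1) (ha₂ : a₂ = 1 ∨ a₂ = -1) (ha₃ : a₃ = 1 ∨ a₃ = -1)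
    (hne2 : χ₂ ≠ Cfsg.Agent.Lib.Helper83.trivIrr G)
    (hne3 : χ₃ ≠ Cfsg.Agent.Lib.Helper83.trivIrr G)
    (hneη : η ≠ Cfsg.Agent.Lib.Helper83.trivIrr G)
    (hexp : ∀ g : IrrCharacter G → ℂ,
      ∑ χ, (if χ ∈ principalBlock M G then
        babCoef (P : Subgroup G) (χ : G → ℂ) ψ * g χ else 0) =
      -g (Cfsg.Agent.Lib.Helper83.trivIrr G) - (a₂ : ℂ) * g χ₂ - (a₃ : ℂ) * g χ₃ +
        (ε : ℂ) * g η)
    (t : G) (ht : orderOf t = 2) (htK : ∀ K : Subgroup G, K.Normal → t ∈ K → K = ⊤) :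
    ((if a₂ = -1 then 1 else 0) + (if a₃ = -1 then 1 else 0) + (if ε = 1 then 1 else 0) = 2) ∧
      IsSquare (charDegree (η : G → ℂ) *
        (charDegree (χ₂ : G → ℂ) * charDegree (χ₃ : G → ℂ))) := by
  have hp : p.Prime := Fact.out
  have ht2 : t * t = 1 := by
    have := pow_orderOf_eq_one t
    rwa [ht, sq] at this
  -- no element of `P \ {1}` is inverted
  have hinv : ∀ u ∈ {u : G | u ∈ (P : Subgroup G) ∧ u ≠ 1}, ∀ g : G,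
      (g * t * g⁻¹) * u * (g * t * g⁻¹)⁻¹ ≠ u⁻¹ := by
    rintro u ⟨huP, hu1⟩ g h
    have h1 := bab3_inv_conj P hab hCN u huP _ h
    apply hu1
    obtain ⟨j, hj⟩ := P.isPGroup' ⟨u, huP⟩
    have hj' : u ^ (p ^ j) = 1 := by simpa using congrArg Subtype.val hj
    have ho1 : orderOf u ∣ p ^ j := orderOf_dvd_of_pow_eq_one hj'
    have ho2 : orderOf u ∣ 2 := orderOf_dvd_of_pow_eq_one (by rw [sq]; exact h1)
    have hcop : Nat.Coprime (p ^ j) 2 :=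
      Nat.Coprime.pow_left _ ((Nat.coprime_primes hp Nat.prime_two).mpr hp2)
    have ho : orderOf u = 1 := Nat.eq_one_of_dvd_coprimes hcop ho1 ho2
    exact orderOf_eq_one_iff.mp ho
  obtain ⟨r1, r2, r3⟩ := Cfsg.Agent.Lib.Helper82.theta_relations_gen M hM (P : Subgroup G)
    P.isPGroup' {u : G | u ∈ (P : Subgroup G) ∧ u ≠ 1} (fun u hu => hu.1) t ht hinv
    (fun y : ↥(P : Subgroup G) => ((ψ y : ℂˣ) : ℂ) - 1) (by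
      intro y hy
      have hy1 : (y : G) = 1 := by
        by_contra h
        exact hy ⟨y.2, h⟩
      have hy2 : y = 1 := Subtype.ext hy1
      rw [hy2]
      simp) (principalBlock M G) Cfsg.Agent.Lib.Helper79.isPBlock_principalBlock
  have hconv : ∀ g : IrrCharacter G → ℂ, ∑ᶠ χ ∈ principalBlock M G,
      ((Nat.card ↥(P : Subgroup G) : ℂ)⁻¹ * ∑ᶠ y : ↥(P : Subgroup G),
        (χ : G → ℂ) (y : G) * ((fun y : ↥(P : Subgroup G) => ((ψ y : ℂˣ) : ℂ) - 1) y⁻¹)) * g χ =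
      -g (Cfsg.Agent.Lib.Helper83.trivIrr G) - (a₂ : ℂ) * g χ₂ - (a₃ : ℂ) * g χ₃ +
        (ε : ℂ) * g η := by
    intro g
    rw [bab_finsum_mem, Finset.sum_filter, ← hexp g]
    rfl
  simp only [mul_div_assoc] at r1
  have R1c := (hconv (fun χ => (χ : G → ℂ) t ^ 2 / (χ : G → ℂ) 1)).symm.trans r1
  have R2c := (hconv (fun χ => (χ : G → ℂ) 1)).symm.trans r2
  have R3c := (hconv (fun χ => (χ : G → ℂ) t)).symm.trans r3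
  have e1 : ∀ x : G,
      ((Cfsg.Agent.Lib.Helper83.trivIrr G : IrrCharacter G) : G → ℂ) x = 1 := fun _ => rfl
  simp only [e1] at R1c R2c R3c
  obtain ⟨p₂, q₂, hτ₂, hx₂⟩ := Cfsg.Agent.Lib.Helper62.irr_invol χ₂ t ht2
  obtain ⟨p₃, q₃, hτ₃, hx₃⟩ := Cfsg.Agent.Lib.Helper62.irr_invol χ₃ t ht2
  obtain ⟨p₄, q₄, hτ₄, hx₄⟩ := Cfsg.Agent.Lib.Helper62.irr_invol η t ht2
  have hdeg : ∀ (χ : IrrCharacter G) (a b : ℕ), (χ : G → ℂ) 1 = (a : ℂ) + (b : ℂ) →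
      charDegree (χ : G → ℂ) = a + b ∧ 0 < a + b := by
    intro χ a b h
    have h1 := Cfsg.Agent.Lib.Helper83.irr_degree χ.2
    rw [h1.2] at h
    have h2 : charDegree (χ : G → ℂ) = a + b := by exact_mod_cast h
    exact ⟨h2, h2 ▸ h1.1⟩
  obtain ⟨hd₂, hpos₂⟩ := hdeg χ₂ p₂ q₂ hx₂
  obtain ⟨hd₃, hpos₃⟩ := hdeg χ₃ p₃ q₃ hx₃
  obtain ⟨hd₄, hpos₄⟩ := hdeg η p₄ q₄ hx₄
  have hker : ∀ (χ : IrrCharacter G) (a b : ℕ), χ ≠ Cfsg.Agent.Lib.Helper83.trivIrr G →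
      (χ : G → ℂ) t = (a : ℂ) - (b : ℂ) → (χ : G → ℂ) 1 = (a : ℂ) + (b : ℂ) →
      ((a : ℤ) - (b : ℤ)) ≠ ((a : ℤ) + (b : ℤ)) := by
    intro χ a b hne h1 h2 h
    apply hne
    rw [← Cfsg.Agent.Lib.Helper83.irrKer_eq_top_iff]
    apply htK _ (Cfsg.Agent.Lib.Helper83.irrKer_normal χ)
    rw [Cfsg.Agent.Lib.Helper83.mem_irrKer, h1, h2]
    exact_mod_cast h
  rw [hτ₂, hτ₃, hτ₄, hx₂, hx₃, hx₄] at R1c
  rw [hx₂, hx₃, hx₄] at R2c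
  rw [hτ₂, hτ₃, hτ₄] at R3c
  have hx₂0 : ((p₂ : ℂ) + (q₂ : ℂ)) ≠ 0 := by exact_mod_cast hpos₂.ne'
  have hx₃0 : ((p₃ : ℂ) + (q₃ : ℂ)) ≠ 0 := by exact_mod_cast hpos₃.ne'
  have hx₄0 : ((p₄ : ℂ) + (q₄ : ℂ)) ≠ 0 := by exact_mod_cast hpos₄.ne'
  have R2 : 1 + a₂ * ((p₂ : ℤ) + q₂) + a₃ * ((p₃ : ℤ) + q₃) = ε * ((p₄ : ℤ) + q₄) := by
    have h : ((1 + a₂ * ((p₂ : ℤ) + q₂) + a₃ * ((p₃ : ℤ) + q₃) : ℤ) : ℂ) =
        ((ε * ((p₄ : ℤ) + q₄) : ℤ) : ℂ) := by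
      push_cast
      linear_combination -R2c
    exact_mod_cast h
  have R3 : 1 + a₂ * ((p₂ : ℤ) - q₂) + a₃ * ((p₃ : ℤ) - q₃) = ε * ((p₄ : ℤ) - q₄) := by
    have h : ((1 + a₂ * ((p₂ : ℤ) - q₂) + a₃ * ((p₃ : ℤ) - q₃) : ℤ) : ℂ) =
        ((ε * ((p₄ : ℤ) - q₄) : ℤ) : ℂ) := by
      push_cast
      linear_combination -R3c
    exact_mod_cast h
  have R1 : ((p₂ : ℤ) + q₂) * ((p₃ : ℤ) + q₃) * ((p₄ : ℤ) + q₄) +
      a₂ * ((p₂ : ℤ) - q₂) ^ 2 * ((p₃ : ℤ) + q₃) * ((p₄ : ℤ) + q₄) +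
      a₃ * ((p₃ : ℤ) - q₃) ^ 2 * ((p₂ : ℤ) + q₂) * ((p₄ : ℤ) + q₄) =
      ε * ((p₄ : ℤ) - q₄) ^ 2 * ((p₂ : ℤ) + q₂) * ((p₃ : ℤ) + q₃) := by
    have h : ((((p₂ : ℤ) + q₂) * ((p₃ : ℤ) + q₃) * ((p₄ : ℤ) + q₄) +
      a₂ * ((p₂ : ℤ) - q₂) ^ 2 * ((p₃ : ℤ) + q₃) * ((p₄ : ℤ) + q₄) +
      a₃ * ((p₃ : ℤ) - q₃) ^ 2 * ((p₂ : ℤ) + q₂) * ((p₄ : ℤ) + q₄) : ℤ) : ℂ) =
      ((ε * ((p₄ : ℤ) - q₄) ^ 2 * ((p₂ : ℤ) + q₂) * ((p₃ : ℤ) + q₃) : ℤ) : ℂ) := by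
      push_cast
      field_simp at R1c
      linear_combination -R1c
    exact_mod_cast h
  obtain ⟨hcount, hsq⟩ := bab3_arith ε a₂ a₃ ((p₂ : ℤ) + q₂) ((p₃ : ℤ) + q₃) ((p₄ : ℤ) + q₄)
    ((p₂ : ℤ) - q₂) ((p₃ : ℤ) - q₃) ((p₄ : ℤ) - q₄) hε ha₂ ha₃
    (by exact_mod_cast hpos₂) (by exact_mod_cast hpos₃) (by exact_mod_cast hpos₄)
    (hker χ₂ p₂ q₂ hne2 hτ₂ hx₂) (hker χ₃ p₃ q₃ hne3 hτ₃ hx₃) (hker η p₄ q₄ hneη hτ₄ hx₄)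
    R2 R3 R1
  refine ⟨hcount, ?_⟩
  rw [hd₂, hd₃, hd₄, ← Int.isSquare_natCast_iff]
  push_cast
  exact hsq

end

end Cfsg.Agent.Lib.Helper1
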