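import Mathlib
import Cfsg.Agent.Lib.Helper79.Prin2
import Cfsg.Agent.Lib.Helper22.WeakOrth

/-!
# Block parts of class functions vanishing on a `p`-section (helper1)

* `block_section_vanish`: if `∑_χ c_χ χ` vanishes on the `p`-section of the `p`-element `u`,
  then `∑_{χ ∈ B₀} c_χ χ(u) = 0` (Brauer's second main theorem for the principal block);
* `block_class_mult_vanish`: the class multiplication version: if no product of two conjugates of
  `t` lies in the inverse of the `p`-section of `u`, then `∑_{χ ∈ B₀} χ(t)² χ(u) / χ(1) = 0`.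
-/

set_option autoImplicit false

namespace Cfsg.Agent.Lib.Helper1

open Cfsg Subgroup
open scoped ComplexConjugate

section

variable {G : Type*} [Group G] [Finite G] {p : ℕ} [Fact p.Prime] {M : Ideal Cfsg.AlgInt}

open scoped Classical in
/-- If the class function `∑_χ c_χ χ` vanishes on the `p`-section of the `p`-element `u`, then
its principal block part vanishes at `u`. -/
theorem block_section_vanish (hM : Cfsg.IsPModular p M) (u : G)
    (hu : ∃ k : ℕ, orderOf u = p ^ k) [Fintype (IrrCharacter G)] (c : IrrCharacter G → ℂ)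
    (h : ∀ y : G, y ∈ centralizer ({u} : Set G) → ¬ p ∣ orderOf y →
      ∑ χ : IrrCharacter G, (χ : G → ℂ) (u * y) * c χ = 0) :
    ∑ χ : IrrCharacter G,
      (if χ ∈ principalBlock M G then (χ : G → ℂ) u * c χ else 0) = 0 := by
  have hp : p.Prime := Fact.out
  have hone : ¬ p ∣ orderOf (1 : ↥(centralizer ({u} : Set G))) := by
    rw [orderOf_one]
    exact hp.one_lt.ne' ∘ Nat.dvd_one.mp
  have h1 : blockPart (principalBlock M (centralizer ({u} : Set G)))
      (fun k : ↥(centralizer ({u} : Set G)) =>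
        ∑ χ : IrrCharacter G, (χ : G → ℂ) (u * (k : G)) * c χ) 1 =
      ∑ χ : IrrCharacter G, blockPart (principalBlock M (centralizer ({u} : Set G)))
        (fun k : ↥(centralizer ({u} : Set G)) => (χ : G → ℂ) (u * (k : G))) 1 * c χ :=
    Cfsg.Agent.Lib.Helper79.blockPart_sum Finset.univ
      (principalBlock M (centralizer ({u} : Set G))) c
      (fun χ k => (χ : G → ℂ) (u * (k : G))) 1
  have h2 : blockPart (principalBlock M (centralizer ({u} : Set G)))
      (fun k : ↥(centralizer ({u} : Set G)) =>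
        ∑ χ : IrrCharacter G, (χ : G → ℂ) (u * (k : G)) * c χ) 1 =
      blockPart (principalBlock M (centralizer ({u} : Set G)))
        (fun _ : ↥(centralizer ({u} : Set G)) => (0 : ℂ)) 1 := by
    apply Cfsg.Agent.Lib.Helper79.blockPart_congr_reg hM _
      Cfsg.Agent.Lib.Helper79.isPBlock_principalBlock _ _ _ 1 hone
    intro k hk
    apply h (k : G) k.2
    rwa [Subgroup.orderOf_coe]
  have h3 : blockPart (principalBlock M (centralizer ({u} : Set G)))
      (fun _ : ↥(centralizer ({u} : Set G)) => (0 : ℂ)) 1 = 0 := by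
    have h4 := Cfsg.Agent.Lib.Helper79.blockPart_sum (∅ : Finset ℕ)
      (principalBlock M (centralizer ({u} : Set G))) (fun _ => (0 : ℂ))
      (fun _ (_ : ↥(centralizer ({u} : Set G))) => (0 : ℂ)) 1
    simpa using h4
  rw [h2, h3] at h1
  refine Eq.trans ?_ h1.symm
  refine Finset.sum_congr rfl fun χ _ => ?_
  by_cases hχ : χ ∈ principalBlock M G
  · rw [if_pos hχ, ← Cfsg.Agent.Lib.Helper79.twist_eq_blockPart_principal hM u hu χ hχ 1 hone]
    simp
  · rw [if_neg hχ, Cfsg.Agent.Lib.Helper79.blockPart_principal_eq_zero hM u hu χ hχ 1 hone,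
      zero_mul]

open scoped Classical in
/-- Block-wise class multiplication: if no product `t^h t` is conjugate to the inverse of an
element of the `p`-section of the `p`-element `u`, then `∑_{χ ∈ B₀} χ(t)² χ(u) / χ(1) = 0`. -/
theorem block_class_mult_vanish (hM : Cfsg.IsPModular p M) (u : G)
    (hu : ∃ k : ℕ, orderOf u = p ^ k) [Fintype (IrrCharacter G)] (t : G)
    (hzero : ∀ y : G, y ∈ centralizer ({u} : Set G) → ¬ p ∣ orderOf y →
      ∀ h : G, ¬ IsConj (h * t * h⁻¹ * t) (u * y)⁻¹) :
    ∑ χ : IrrCharacter G,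
      (if χ ∈ principalBlock M G then
        (χ : G → ℂ) u * ((χ : G → ℂ) t ^ 2 / (χ : G → ℂ) 1) else 0) = 0 := by
  let _ : Fintype G := Fintype.ofFinite G
  apply block_section_vanish hM u hu
  intro y hy hyreg
  have hG : (Nat.card G : ℂ) ≠ 0 := by exact_mod_cast Nat.card_pos.ne'
  have h1 : ∀ χ : IrrCharacter G, (χ : G → ℂ) (u * y) * ((χ : G → ℂ) t ^ 2 / (χ : G → ℂ) 1) =
      (Nat.card G : ℂ)⁻¹ * ∑ h : G, (χ : G → ℂ) (h * t * h⁻¹ * t) *
        conj ((χ : G → ℂ) (u * y)⁻¹) := by
    intro χ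
    rw [← Finset.sum_mul, Cfsg.Agent.Lib.Helper22.irr_sum_conj_mul,
      ← Cfsg.Agent.Lib.Helper4.irr_inv, inv_inv]
    field_simp
  rw [Finset.sum_congr rfl (fun χ _ => h1 χ), ← Finset.mul_sum, Finset.sum_comm]
  rw [Finset.sum_eq_zero, mul_zero]
  intro h _
  rw [Cfsg.Agent.Lib.Helper4.col_orth, if_neg (hzero y hy hyreg h)]

end

end Cfsg.Agent.Lib.Helper1
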