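import Mathlib
import Cfsg.Agent.Lib.Helper1.BrauerAb3
import Cfsg.Agent.Lib.Helper1.BrauerAb3Grp
import Cfsg.Agent.Lib.Helper1.BrauerAb3Sect

/-!
# Brauer's theorem on abelian Sylow `2`-subgroups with `|N : C| = 3` (helper1)

* `bab3_two_linear`: if `P` is an abelian Sylow `2`-subgroup of `G` with `|P| > 4`, `|N : C| = 3`
  and `C_G(y) ∩ N = C` for `y ∈ P \ {1}`, then `G` has a non-principal linear character (in the
  principal `2`-block) which is trivial on `P`.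
-/

set_option autoImplicit false

namespace Cfsg.Agent.Lib.Helper1

open Cfsg Subgroup
open scoped ComplexConjugate

/-- the Diophantine equation of the degrees -/
theorem bab3_dioph (a b m n : ℤ) (ha : a = 1 + 16 * m) (hb : b = 1 + 16 * n)
    (h : (a * b + a + b) * (1 + a + b) = 9 * (a * b)) : a = 1 ∧ b = 1 := by
  have h1 : (a + b - 8) * (a * b + (a + b) + 9) = -72 := by linear_combination h
  obtain ⟨k, hk⟩ : ∃ k : ℤ, k = m + n := ⟨_, rfl⟩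
  have h2 : (8 * k - 3) * (a * b + (a + b) + 9) = -36 := by
    have h3 : a + b - 8 = 2 * (8 * k - 3) := by rw [ha, hb, hk]; ring
    rw [h3] at h1
    linarith
  have hdvd : (8 * k - 3) ∣ 36 := ⟨-(a * b + (a + b) + 9), by linarith⟩
  have hle1 : 8 * k - 3 ≤ 36 := Int.le_of_dvd (by norm_num) hdvd
  have hle2 : -(8 * k - 3) ≤ 36 := Int.le_of_dvd (by norm_num) (neg_dvd.mpr hdvd)
  have hk0 : k = 0 := by
    have hk1 : k ≤ 4 := by omega
    have hk2 : -4 ≤ k := by omega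
    interval_cases k <;> first | rfl | (norm_num at hdvd)
  have hs : a + b = 2 := by
    rw [ha, hb]
    rw [hk0] at hk
    linarith
  have hq : a * b = 1 := by
    rw [hk0, hs] at h2
    linarith
  have h4 : (a - 1) ^ 2 = 0 := by
    have hb' : b = 2 - a := by linarith
    rw [hb'] at hq
    linear_combination -hq
  have h5 : a = 1 := by
    have := pow_eq_zero_iff (two_ne_zero) |>.mp h4
    linarith
  exact ⟨h5, by linarith⟩

section

variable {G : Type*} [Group G] [Finite G]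

/-- the degree of a character which is constant on `P \ {1}` -/
theorem bab3_congr (P : Subgroup G) (χ : IrrCharacter G) (a : ℤ)
    (h : ∀ y : ↥P, y ≠ 1 → (χ : G → ℂ) (y : G) = (a : ℂ)) :
    ∃ k : ℤ, (charDegree (χ : G → ℂ) : ℤ) = a + (Nat.card ↥P : ℤ) * k := by
  classical
  let _ : Fintype ↥P := Fintype.ofFinite _
  have := Cfsg.Agent.Lib.Helper4.irr_finite (G := ↥P)
  let _ : Fintype (IrrCharacter ↥P) := Fintype.ofFinite _
  have hres := Cfsg.Agent.Lib.Helper4.isCharacter_restrict P (χ : G → ℂ)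
    (Cfsg.Agent.Lib.Helper4.isCharacter_of_irr χ)
  obtain ⟨k2, hk2⟩ := Cfsg.Agent.Lib.Helper4.classInner_isCharacter_nat _ hres
    (babLin (1 : ↥P →* ℂˣ))
  refine ⟨(k2 : ℤ) - a, ?_⟩
  unfold classInner at hk2
  have hsum : ∑ y : ↥P, (χ : G → ℂ) (y : G) * conj ((babLin (1 : ↥P →* ℂˣ) : ↥P → ℂ) y) =
      (charDegree (χ : G → ℂ) : ℂ) + ((Nat.card ↥P : ℂ) - 1) * (a : ℂ) := by
    rw [← Finset.add_sum_erase Finset.univ _ (Finset.mem_univ (1 : ↥P))]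
    have h1 : ∀ y ∈ Finset.univ.erase (1 : ↥P),
        (χ : G → ℂ) (y : G) * conj ((babLin (1 : ↥P →* ℂˣ) : ↥P → ℂ) y) = (a : ℂ) := by
      intro y hy
      rw [h y (Finset.ne_of_mem_erase hy), babLin_apply]
      simp
    rw [Finset.sum_congr rfl h1, Finset.sum_const, Finset.card_erase_of_mem (Finset.mem_univ _),
      Finset.card_univ, ← Nat.card_eq_fintype_card, babLin_apply, nsmul_eq_mul]
    have hpos : 1 ≤ Nat.card ↥P := Nat.card_pos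
    rw [Nat.cast_sub hpos]
    have h2 : (χ : G → ℂ) ((1 : ↥P) : G) = (charDegree (χ : G → ℂ) : ℂ) :=
      (Cfsg.Agent.Lib.Helper83.irr_degree χ.2).2
    rw [h2]
    simp
  rw [hsum] at hk2
  have hP0 : (Nat.card ↥P : ℂ) ≠ 0 := by exact_mod_cast Nat.card_pos.ne'
  have h3 : ((charDegree (χ : G → ℂ) : ℤ) : ℂ) =
      ((a + (Nat.card ↥P : ℤ) * ((k2 : ℤ) - a) : ℤ) : ℂ) := by
    push_cast
    field_simp at hk2
    linear_combination hk2
  exact_mod_cast h3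

variable {M : Ideal Cfsg.AlgInt}

open scoped Classical in
/-- **Brauer**: an abelian Sylow `2`-subgroup `P` with `|P| > 4`, `|N : C| = 3` and
`C_G(y) ∩ N = C` for `y ∈ P \ {1}` lies in the kernel of a non-principal linear character. -/
theorem bab3_two_linear (hM : Cfsg.IsPModular 2 M) (P : Sylow 2 G) (hab : IsMulCommutative P)
    (hP1 : Nat.card P ≠ 1) (hm2 : 3 + 1 < Nat.card P)
    (hCN : (centralizer ((P : Subgroup G) : Set G)).relIndex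
      (normalizer ((P : Subgroup G) : Set G)) = 3)
    (hfrob : ∀ y : G, y ∈ (P : Subgroup G) → y ≠ 1 →
      centralizer ({y} : Set G) ⊓ normalizer ((P : Subgroup G) : Set G) =
        centralizer ((P : Subgroup G) : Set G)) :
    ∃ χ : IrrCharacter G, χ ≠ Cfsg.Agent.Lib.Helper83.trivIrr G ∧ χ ∈ principalBlock M G ∧
      ∀ y : G, y ∈ (P : Subgroup G) → (χ : G → ℂ) y = 1 := by
  have : Fact (Nat.Prime 2) := ⟨Nat.prime_two⟩
  let _ : Fintype G := Fintype.ofFinite G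
  have hirr := Cfsg.Agent.Lib.Helper4.irr_finite (G := G)
  let _ : Fintype (IrrCharacter G) := Fintype.ofFinite _
  let _ : Fintype (↥(P : Subgroup G) →* ℂˣ) := Fintype.ofFinite _
  let _ : Fintype ↥(P : Subgroup G) := Fintype.ofFinite _
  obtain ⟨ε, a₂, a₃, Θ, χ₂, χ₃, hε, ha₂, ha₃, hne23, hne2, hne3, hχ₂B, hχ₃B, hΘB, hΘne, hBsub,
    hΘiff, hv2, hv3, hYval, hexp, hdeg⟩ := bab3_pack hM P hab hP1 hm2 hCN hfrob
  obtain ⟨x₀, hx₀, hxu⟩ := bab3_gen P hCN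
  have hxn : ∀ (n : ↥(normalizer ((P : Subgroup G) : Set G))) (w : ↥(P : Subgroup G)),
      n • w = w ∨ n • w = x₀ • w ∨ n • w = x₀ • x₀ • w := by
    intro n w
    rcases hxu n with h | h | h
    · exact Or.inl (h w)
    · exact Or.inr (Or.inl (h w))
    · exact Or.inr (Or.inr (h w))
  obtain ⟨nP, hnP⟩ := IsPGroup.iff_card.mp P.isPGroup'
  -- an involution of `P`
  obtain ⟨t, ht⟩ : ∃ t : ↥(P : Subgroup G), orderOf t = 2 := by
    apply exists_prime_orderOf_dvd_card' 2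
    rw [hnP]
    rcases Nat.eq_zero_or_pos nP with h0 | h0
    · rw [h0] at hnP
      exact absurd hnP hP1
    · exact dvd_pow_self 2 h0.ne'
  have ht2 : t * t = 1 := by
    have := pow_orderOf_eq_one t
    rwa [ht, sq] at this
  have ht1 : t ≠ 1 := by
    rintro rfl
    rw [orderOf_one] at ht
    norm_num at ht
  -- an element of `P` which is not conjugate to `t`
  obtain ⟨u, hu1, hut, huc1, huc2⟩ : ∃ u : ↥(P : Subgroup G),
      u ≠ 1 ∧ u ≠ t ∧ u ≠ x₀ • t ∧ u ≠ x₀ • x₀ • t := by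
    by_contra hcon
    push Not at hcon
    have hsub : (Finset.univ : Finset ↥(P : Subgroup G)) ⊆ {1, t, x₀ • t, x₀ • x₀ • t} := by
      intro u _
      simp only [Finset.mem_insert, Finset.mem_singleton]
      by_cases h1 : u = 1
      · exact Or.inl h1
      by_cases h2 : u = t
      · exact Or.inr (Or.inl h2)
      by_cases h3 : u = x₀ • t
      · exact Or.inr (Or.inr (Or.inl h3))
      exact Or.inr (Or.inr (Or.inr (hcon u h1 h2 h3)))
    have hcard := Finset.card_le_card hsub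
    have h4 : ({1, t, x₀ • t, x₀ • x₀ • t} : Finset ↥(P : Subgroup G)).card ≤ 4 :=
      Finset.card_le_four
    rw [Finset.card_univ, ← Nat.card_eq_fintype_card] at hcard
    omega
  have huord : ∃ k : ℕ, orderOf (u : G) = 2 ^ k := by
    obtain ⟨j, hj⟩ := P.isPGroup' u
    have hj' : (u : G) ^ (2 ^ j) = 1 := by simpa using congrArg Subtype.val hj
    obtain ⟨m, -, hm⟩ := (Nat.dvd_prime_pow Nat.prime_two).mp (orderOf_dvd_of_pow_eq_one hj')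
    exact ⟨m, hm⟩
  -- block-wise class multiplication
  have H0 := block_class_mult_vanish hM (u : G) huord (t : G)
    (fun y hy hyreg h => bab3_two_zero_count P hab hCN hfrob x₀ hx₀ hxn t ht2 u hu1 hut huc1
      huc2 y hy hyreg h)
  obtain ⟨g, hg⟩ : ∃ g : IrrCharacter G → ℂ,
      g = fun χ : IrrCharacter G => (χ : G → ℂ) (t : G) ^ 2 / (χ : G → ℂ) 1 := ⟨_, rfl⟩
  have H1 : ∑ ψ : ↥(P : Subgroup G) →* ℂˣ, ((ψ u : ℂˣ) : ℂ) *
      ∑ χ, (if χ ∈ principalBlock M G then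
        babCoef (P : Subgroup G) (χ : G → ℂ) ψ * g χ else 0) = 0 := by
    refine Eq.trans ?_ H0
    simp only [Finset.mul_sum]
    rw [Finset.sum_comm]
    refine Finset.sum_congr rfl fun χ _ => ?_
    by_cases hχ : χ ∈ principalBlock M G
    · simp only [if_pos hχ]
      have := hab
      rw [← bab_fourier (P : Subgroup G) (χ : G → ℂ) u hu1, Finset.sum_mul]
      refine Finset.sum_congr rfl fun ψ _ => ?_
      rw [hg]
      ring
    · simp [hχ]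
  -- the degrees
  obtain ⟨n₂, hn₂⟩ : ∃ n₂ : ℕ, n₂ = charDegree (χ₂ : G → ℂ) := ⟨_, rfl⟩
  obtain ⟨n₃, hn₃⟩ : ∃ n₃ : ℕ, n₃ = charDegree (χ₃ : G → ℂ) := ⟨_, rfl⟩
  have hn₂pos : 0 < n₂ := by rw [hn₂]; exact (Cfsg.Agent.Lib.Helper83.irr_degree χ₂.2).1
  have hn₃pos : 0 < n₃ := by rw [hn₃]; exact (Cfsg.Agent.Lib.Helper83.irr_degree χ₃.2).1
  have hx₂ : (χ₂ : G → ℂ) 1 = (n₂ : ℂ) := by
    rw [hn₂]; exact (Cfsg.Agent.Lib.Helper83.irr_degree χ₂.2).2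
  have hx₃ : (χ₃ : G → ℂ) 1 = (n₃ : ℂ) := by
    rw [hn₃]; exact (Cfsg.Agent.Lib.Helper83.irr_degree χ₃.2).2
  have hn₂0 : (n₂ : ℂ) ≠ 0 := by exact_mod_cast hn₂pos.ne'
  have hn₃0 : (n₃ : ℂ) ≠ 0 := by exact_mod_cast hn₃pos.ne'
  obtain ⟨S, hS⟩ : ∃ S : ℂ, S = 1 + (a₂ : ℂ) * (n₂ : ℂ) + (a₃ : ℂ) * (n₃ : ℂ) := ⟨_, rfl⟩
  have hε2 : (ε : ℂ) * (ε : ℂ) = 1 := by
    rcases hε with h | h <;> rw [h] <;> norm_num
  have ha₂2 : (a₂ : ℂ) * (a₂ : ℂ) = 1 := by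
    rcases ha₂ with h | h <;> rw [h] <;> norm_num
  have ha₃2 : (a₃ : ℂ) * (a₃ : ℂ) = 1 := by
    rcases ha₃ with h | h <;> rw [h] <;> norm_num
  obtain ⟨ψ0, hψ0⟩ : ∃ ψ0 : ↥(P : Subgroup G) →* ℂˣ, ψ0 ≠ 1 := by
    by_contra hcon
    push Not at hcon
    have h1 : Nat.card (↥(P : Subgroup G) →* ℂˣ) = 1 := by
      rw [Nat.card_eq_one_iff_unique]
      exact ⟨⟨fun a b => by rw [hcon a, hcon b]⟩, ⟨1⟩⟩
    have := hab
    rw [bab_card_hom] at h1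
    exact hP1 h1
  have hS0 : S ≠ 0 := by
    intro h0
    have h1 := hdeg ψ0 hψ0
    rw [hx₂, hx₃, ← hS, h0, mul_zero] at h1
    have h2 := (Cfsg.Agent.Lib.Helper83.irr_degree (Θ ψ0).2)
    rw [h2.2] at h1
    have h3 : charDegree ((Θ ψ0 : IrrCharacter G) : G → ℂ) = 0 := by exact_mod_cast h1
    omega
  -- the inner sums
  have ht' : (t : ↥(P : Subgroup G)) ≠ 1 := ht1
  have hE : ∀ ψ : ↥(P : Subgroup G) →* ℂˣ, ψ ≠ 1 →
      ∑ χ, (if χ ∈ principalBlock M G then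
        babCoef (P : Subgroup G) (χ : G → ℂ) ψ * g χ else 0) =
      (-1 - (a₂ : ℂ) / (n₂ : ℂ) - (a₃ : ℂ) / (n₃ : ℂ)) +
        (3 + 2 * (((ψ t : ℂˣ) : ℂ) + ((ψ (x₀ • t) : ℂˣ) : ℂ) +
          ((ψ (x₀ • x₀ • t) : ℂˣ) : ℂ))) / S := by
    intro ψ hψ
    rw [hexp ψ hψ g, hg]
    simp only
    have hg1 : ((Cfsg.Agent.Lib.Helper83.trivIrr G : IrrCharacter G) : G → ℂ) (t : G) ^ 2 /
        ((Cfsg.Agent.Lib.Helper83.trivIrr G : IrrCharacter G) : G → ℂ) 1 = 1 := by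
      have e1 : ∀ x : G,
          ((Cfsg.Agent.Lib.Helper83.trivIrr G : IrrCharacter G) : G → ℂ) x = 1 := fun _ => rfl
      rw [e1, e1]
      norm_num
    have hT := bab3_orbit_sum P hCN hfrob x₀ hx₀ hxu ψ hψ (fun ψ' => ((ψ' t : ℂˣ) : ℂ))
    simp only [babConj_apply] at hT
    have hα : ((ψ t : ℂˣ) : ℂ) * ((ψ t : ℂˣ) : ℂ) = 1 := by
      rw [← Units.val_mul, ← map_mul, ht2, map_one, Units.val_one]
    have hc1 : (x₀ • t) * (x₀ • t) = 1 := by rw [← smul_mul', ht2, smul_one]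
    have hc2 : (x₀ • x₀ • t) * (x₀ • x₀ • t) = 1 := by
      rw [← smul_mul', ← smul_mul', ht2, smul_one, smul_one]
    have hβ : ((ψ (x₀ • t) : ℂˣ) : ℂ) * ((ψ (x₀ • t) : ℂˣ) : ℂ) = 1 := by
      rw [← Units.val_mul, ← map_mul, hc1, map_one, Units.val_one]
    have hγ : ((ψ (x₀ • x₀ • t) : ℂˣ) : ℂ) * ((ψ (x₀ • x₀ • t) : ℂˣ) : ℂ) = 1 := by
      rw [← Units.val_mul, ← map_mul, hc2, map_one, Units.val_one]
    have hαβγ : ((ψ t : ℂˣ) : ℂ) * ((ψ (x₀ • t) : ℂˣ) : ℂ) * ((ψ (x₀ • x₀ • t) : ℂˣ) : ℂ) = 1 := by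
      rw [← Units.val_mul, ← Units.val_mul, ← map_mul, ← map_mul,
        bab3_norm_one P hab hCN hfrob x₀ hx₀ t, map_one, Units.val_one]
    rw [hg1, hv2 t ht', hv3 t ht', hYval ψ hψ t ht', hT, hdeg ψ hψ, hx₂, hx₃, ← hS]
    have hεne : (ε : ℂ) ≠ 0 := by
      intro h
      rw [h] at hε2
      norm_num at hε2
    obtain ⟨α, hαd⟩ : ∃ α : ℂ, α = ((ψ t : ℂˣ) : ℂ) := ⟨_, rfl⟩
    obtain ⟨β, hβd⟩ : ∃ β : ℂ, β = ((ψ (x₀ • t) : ℂˣ) : ℂ) := ⟨_, rfl⟩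
    obtain ⟨γ, hγd⟩ : ∃ γ : ℂ, γ = ((ψ (x₀ • x₀ • t) : ℂˣ) : ℂ) := ⟨_, rfl⟩
    rw [← hαd] at hα hαβγ ⊢
    rw [← hβd] at hβ hαβγ ⊢
    rw [← hγd] at hγ hαβγ ⊢
    field_simp
    linear_combination (-S * (a₂ : ℂ) * (n₃ : ℂ)) * ha₂2 + (-S * (n₂ : ℂ) * (a₃ : ℂ)) * ha₃2 +
      ((n₂ : ℂ) * (n₃ : ℂ) * (α + β + γ) ^ 2) * hε2 +
      (n₂ : ℂ) * (n₃ : ℂ) * ((1 - 2 * β * γ) * hα + (1 - 2 * γ * α) * hβ +
        (1 - 2 * α * β) * hγ + 2 * (α + β + γ) * hαβγ)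
  -- the sum over `ψ`
  obtain ⟨K, hK⟩ : ∃ K : ℂ, K = -1 - (a₂ : ℂ) / (n₂ : ℂ) - (a₃ : ℂ) / (n₃ : ℂ) := ⟨_, rfl⟩
  have hterm : ∀ ψ : ↥(P : Subgroup G) →* ℂˣ, ((ψ u : ℂˣ) : ℂ) *
      ∑ χ, (if χ ∈ principalBlock M G then
        babCoef (P : Subgroup G) (χ : G → ℂ) ψ * g χ else 0) =
      ((K + 3 / S) * ((ψ u : ℂˣ) : ℂ) + (2 / S) * ((ψ (u * t) : ℂˣ) : ℂ) +
        (2 / S) * ((ψ (u * (x₀ • t)) : ℂˣ) : ℂ) +
        (2 / S) * ((ψ (u * (x₀ • x₀ • t)) : ℂˣ) : ℂ)) -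
      (if ψ = 1 then K + 9 / S else 0) := by
    intro ψ
    by_cases hψ : ψ = 1
    · rw [if_pos hψ, hψ]
      have h0 : ∑ χ, (if χ ∈ principalBlock M G then
          babCoef (P : Subgroup G) (χ : G → ℂ) 1 * g χ else 0) = 0 := by
        apply Finset.sum_eq_zero
        intro χ _
        rw [babCoef_one]
        simp
      rw [h0]
      simp only [MonoidHom.one_apply, Units.val_one]
      field_simp
      ring
    · rw [if_neg hψ, hE ψ hψ, ← hK, map_mul, map_mul, map_mul, Units.val_mul, Units.val_mul,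
        Units.val_mul]
      field_simp
      ring
  have hsum0 : ∀ w : ↥(P : Subgroup G), w ≠ 1 →
      ∑ ψ : ↥(P : Subgroup G) →* ℂˣ, ((ψ w : ℂˣ) : ℂ) = 0 := by
    intro w hw
    have := hab
    rw [bab_orth_dual, if_neg hw]
  have hmulne : ∀ c : ↥(P : Subgroup G), c * c = 1 → u ≠ c → u * c ≠ 1 := by
    intro c hc huc h
    apply huc
    exact mul_right_cancel (h.trans hc.symm)
  have hc1 : (x₀ • t) * (x₀ • t) = 1 := by rw [← smul_mul', ht2, smul_one]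
  have hc2 : (x₀ • x₀ • t) * (x₀ • x₀ • t) = 1 := by
    rw [← smul_mul', ← smul_mul', ht2, smul_one, smul_one]
  have hKS : K + 9 / S = 0 := by
    rw [Finset.sum_congr rfl (fun ψ _ => hterm ψ), Finset.sum_sub_distrib,
      Finset.sum_add_distrib, Finset.sum_add_distrib, Finset.sum_add_distrib,
      ← Finset.mul_sum, ← Finset.mul_sum, ← Finset.mul_sum, ← Finset.mul_sum,
      hsum0 u hu1, hsum0 _ (hmulne t ht2 hut), hsum0 _ (hmulne _ hc1 huc1),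
      hsum0 _ (hmulne _ hc2 huc2),
      Finset.sum_ite_eq' Finset.univ (1 : ↥(P : Subgroup G) →* ℂˣ) (fun _ => K + 9 / S),
      if_pos (Finset.mem_univ _)] at H1
    linear_combination -H1
  -- the integer equation
  have ha₂Z : a₂ * a₂ = 1 := by rcases ha₂ with h | h <;> rw [h] <;> norm_num
  have ha₃Z : a₃ * a₃ = 1 := by rcases ha₃ with h | h <;> rw [h] <;> norm_num
  have hZ : ((n₂ : ℤ) * n₃ + a₂ * n₃ + a₃ * n₂) * (1 + a₂ * n₂ + a₃ * n₃) =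
      9 * ((n₂ : ℤ) * n₃) := by
    have h1 : ((((n₂ : ℤ) * n₃ + a₂ * n₃ + a₃ * n₂) * (1 + a₂ * n₂ + a₃ * n₃) : ℤ) : ℂ) =
        ((9 * ((n₂ : ℤ) * n₃) : ℤ) : ℂ) := by
      push_cast
      rw [hK] at hKS
      rw [← hS]
      field_simp at hKS
      linear_combination -hKS
    exact_mod_cast h1
  have hZ' : ((a₂ * n₂) * (a₃ * n₃) + a₂ * n₂ + a₃ * n₃) * (1 + a₂ * n₂ + a₃ * n₃) =
      9 * ((a₂ * n₂) * (a₃ * n₃)) := by
    linear_combination (a₂ * a₃) * hZ - (a₃ * n₃ * (1 + a₂ * n₂ + a₃ * n₃)) * ha₂Z -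
      (a₂ * n₂ * (1 + a₂ * n₂ + a₃ * n₃)) * ha₃Z
  -- the congruences
  have hcard3 : ((Finset.univ.filter (fun ψ : ↥(P : Subgroup G) →* ℂˣ => ψ ≠ 1)).image Θ).card
      * 3 = Nat.card ↥(P : Subgroup G) - 1 := bab_card_image P hab hfrob 3 hCN Θ hΘiff
  have hnP4 : 4 ≤ nP := by
    by_contra hlt
    have h3 : nP ≤ 3 := by omega
    rw [hnP] at hm2 hcard3
    interval_cases nP
    all_goals first
      | (norm_num at hm2; done)
      | (norm_num at hcard3; omega)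
  obtain ⟨c, hc⟩ : ∃ c : ℕ, Nat.card ↥(P : Subgroup G) = 16 * c := by
    refine ⟨2 ^ (nP - 4), ?_⟩
    rw [hnP]
    have h4 : (16 : ℕ) = 2 ^ 4 := by norm_num
    rw [h4, ← pow_add, Nat.add_sub_cancel' hnP4]
  obtain ⟨k₂, hk₂⟩ := bab3_congr (P : Subgroup G) χ₂ a₂ hv2
  obtain ⟨k₃, hk₃⟩ := bab3_congr (P : Subgroup G) χ₃ a₃ hv3
  rw [← hn₂, hc] at hk₂
  rw [← hn₃, hc] at hk₃
  push_cast at hk₂ hk₃
  have hA₂ : a₂ * n₂ = 1 + 16 * (c * a₂ * k₂) := by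
    rw [hk₂]
    linear_combination ha₂Z
  have hA₃ : a₃ * n₃ = 1 + 16 * (c * a₃ * k₃) := by
    rw [hk₃]
    linear_combination ha₃Z
  obtain ⟨hA₂1, -⟩ := bab3_dioph (a₂ * n₂) (a₃ * n₃) _ _ hA₂ hA₃ hZ'
  have hn₂Z : (0 : ℤ) < (n₂ : ℤ) := by exact_mod_cast hn₂pos
  have ha₂1 : a₂ = 1 ∧ n₂ = 1 := by
    rcases ha₂ with h | h
    · rw [h] at hA₂1
      refine ⟨h, ?_⟩
      have : (n₂ : ℤ) = 1 := by linarith
      exact_mod_cast this
    · rw [h] at hA₂1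
      exfalso
      linarith
  refine ⟨χ₂, hne2, hχ₂B, ?_⟩
  intro y hy
  by_cases hy1 : y = 1
  · rw [hy1, hx₂, ha₂1.2]
    norm_num
  · have h1 := hv2 ⟨y, hy⟩ (fun h => hy1 (congrArg Subtype.val h))
    rw [ha₂1.1] at h1
    simpa using h1

end

end Cfsg.Agent.Lib.Helper1
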