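import Mathlib
import Cfsg.Agent.Lib.Helper25.StDefs
import Cfsg.Agent.Lib.Helper48.GLnA
import Cfsg.Agent.Lib.Helper8.BN3
import Cfsg.Agent.Lib.Helper68.CoxLR
import Cfsg.Agent.Lib.Helper69.BNR

/-!
# Steinberg project, piece P7 "DCPar" (for helper25)

The double cosets `P_J \ G / P_K` of two standard parabolic subgroups of a group with a
`(B, N)`-pair are in bijection with the elements of the Weyl group that are reduced on both
sides.
-/

set_option autoImplicit false

namespace Cfsg.Agent.Lib.Helper25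

open Cfsg Cfsg.Agent.Lib.Helper8

variable {G : Type*} [Group G]

theorem dcpar_cl_out (P : BNPair G) (w : W P) : cl P (Quotient.out w) = w :=
  QuotientGroup.out_eq' w

/-- two representatives of the same Weyl group element give the same double coset -/
theorem dcpar_class_eq (P : BNPair G) (J K : Set G) {n n' : P.N} (h : cl P n = cl P n') :
    (Quotient.mk (Helper48.dcSetoid (P.parabolic J) (P.parabolic K)) (n : G))
      = Quotient.mk (Helper48.dcSetoid (P.parabolic J) (P.parabolic K)) (n' : G) := by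
  rw [Helper48.dc_eq_iff]
  refine ⟨1, Subgroup.one_mem _, (n : G)⁻¹ * (n' : G), B_le_parabolic P K (cl_eq_iff.1 h), ?_⟩
  group

theorem dcpar_injective (P : BNPair G) {J K : Set G} (hJ : J ⊆ P.S) (hK : K ⊆ P.S)
    {w w' : W P} (hw1 : LMin (SW P) (SWJ P J) w) (hw2 : RMin (SW P) (SWJ P K) w)
    (hw1' : LMin (SW P) (SWJ P J) w') (hw2' : RMin (SW P) (SWJ P K) w')
    (h : (Quotient.mk (Helper48.dcSetoid (P.parabolic J) (P.parabolic K))
        ((Quotient.out w : P.N) : G))
      = Quotient.mk (Helper48.dcSetoid (P.parabolic J) (P.parabolic K))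
        ((Quotient.out w' : P.N) : G)) : w = w' := by
  obtain ⟨p, hp, p', hp', e⟩ := (Helper48.dc_eq_iff _ _ _ _).1 h
  set n : P.N := Quotient.out w with hn
  set n' : P.N := Quotient.out w' with hn'
  have hcn : cl P n = w := dcpar_cl_out P w
  have hcn' : cl P n' = w' := dcpar_cl_out P w'
  obtain ⟨m, hm, h1⟩ := cell_parabolic_mul P hJ n (mem_dc_self P (n : G)) hp
  have h1' : p * (n : G) ∈ dc P (((m * n : P.N) : G)) := h1
  obtain ⟨m', hm', h2⟩ := cell_mul_parabolic P hK (m * n) h1' hp'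
  have h2' : (n' : G) ∈ dc P (((m * n * m' : P.N) : G)) := by
    rw [e]
    exact h2
  have h3 : cl P n' = cl P (m * n * m') := cl_eq_of_dc_eq P (dc_eq_of_mem h2')
  rw [cl_mul, cl_mul, hcn, hcn'] at h3
  have hu : cl P m ∈ Subgroup.closure (SWJ P J) := cl_mem_closure_of_mem P hJ hm
  have hv : cl P m' ∈ Subgroup.closure (SWJ P K) := cl_mem_closure_of_mem P hK hm'
  have h4 := lrmin_unique (SW_exchGen P) (SWJ_subset P J) (SWJ_subset P K) hw1 hw2 hu hv
    (h3 ▸ hw1') (h3 ▸ hw2')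
  rw [h3, h4]

theorem dcpar_surjective (P : BNPair G) {J K : Set G} (hJ : J ⊆ P.S) (hK : K ⊆ P.S) (g : G) :
    ∃ w : W P, LMin (SW P) (SWJ P J) w ∧ RMin (SW P) (SWJ P K) w ∧
      (Quotient.mk (Helper48.dcSetoid (P.parabolic J) (P.parabolic K))
        ((Quotient.out w : P.N) : G))
      = Quotient.mk (Helper48.dcSetoid (P.parabolic J) (P.parabolic K)) g := by
  obtain ⟨n0, hn0, hg⟩ := bruhat P g
  obtain ⟨b1, hb1, b2, hb2, rfl⟩ := mem_dc.1 hg
  set n : P.N := ⟨n0, hn0⟩ with hn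
  obtain ⟨u, hu, v, hv, hl, hr⟩ := exists_lrmin (SW_exchGen P) (SWJ_subset P J) (SWJ_subset P K)
    (cl P n)
  obtain ⟨nu, rfl⟩ := QuotientGroup.mk_surjective u
  obtain ⟨nv, rfl⟩ := QuotientGroup.mk_surjective v
  obtain ⟨mu, hmu, hmu'⟩ := exists_rep_of_mem_closure P (n := nu) hu
  obtain ⟨mv, hmv, hmv'⟩ := exists_rep_of_mem_closure P (n := nv) hv
  set Mu : P.N := ⟨mu, closure_S_le_N P hJ hmu⟩ with hMu
  set Mv : P.N := ⟨mv, closure_S_le_N P hK hmv⟩ with hMv
  have eu : cl P Mu = cl P nu := cl_eq_iff.2 hmu'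
  have ev : cl P Mv = cl P nv := cl_eq_iff.2 hmv'
  have hw : cl P (Mu * n * Mv) = cl P nu * cl P n * cl P nv := by
    rw [cl_mul, cl_mul, eu, ev]
  refine ⟨cl P nu * cl P n * cl P nv, hl, hr, ?_⟩
  have e1 : (Quotient.mk (Helper48.dcSetoid (P.parabolic J) (P.parabolic K))
      ((Quotient.out (cl P nu * cl P n * cl P nv) : P.N) : G))
      = Quotient.mk (Helper48.dcSetoid (P.parabolic J) (P.parabolic K))
        (((Mu * n * Mv : P.N)) : G) := by
    apply dcpar_class_eq
    rw [dcpar_cl_out, hw]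
  rw [e1, Helper48.dc_eq_iff]
  refine ⟨b1 * mu⁻¹, ?_, mv⁻¹ * b2, ?_, ?_⟩
  · exact Subgroup.mul_mem _ (B_le_parabolic P J hb1)
      (Subgroup.inv_mem _ (closure_le_parabolic P J hmu))
  · exact Subgroup.mul_mem _ (Subgroup.inv_mem _ (closure_le_parabolic P K hmv))
      (B_le_parabolic P K hb2)
  · show b1 * n0 * b2 = b1 * mu⁻¹ * (mu * n0 * mv) * (mv⁻¹ * b2)
    group

/-- PIECE P7 -/
theorem card_dc_parabolic [Finite G] (P : BNPair G) {J K : Set G} (hJ : J ⊆ P.S) (hK : K ⊆ P.S) :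
    Nat.card (Cfsg.Agent.Lib.Helper48.DC (P.parabolic J) (P.parabolic K))
      = Nat.card {w : W P // LMin (SW P) (SWJ P J) w ∧ RMin (SW P) (SWJ P K) w} := by
  symm
  apply Nat.card_eq_of_bijective
    (fun w : {w : W P // LMin (SW P) (SWJ P J) w ∧ RMin (SW P) (SWJ P K) w} =>
      (Quotient.mk (Helper48.dcSetoid (P.parabolic J) (P.parabolic K))
        ((Quotient.out w.1 : P.N) : G)))
  constructor
  · intro w w' h
    exact Subtype.ext (dcpar_injective P hJ hK w.2.1 w.2.2 w'.2.1 w'.2.2 h)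
  · intro c
    induction c using Quotient.inductionOn with
    | h g =>
      obtain ⟨w, hl, hr, e⟩ := dcpar_surjective P hJ hK g
      exact ⟨⟨w, hl, hr⟩, e⟩

end Cfsg.Agent.Lib.Helper25
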