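import Mathlib
import Cfsg.Agent.Lib.Helper1.BrauerAbStar

/-!
# The integer-vector analysis for Brauer's theorem on the principal 2-block of a group with
dihedral Sylow 2-subgroups (helper1)

`dih_core`: vectors `c ψ` (norm 3, pairwise products 3 or 2) and `cl` (norm 4, products 2 with
the `c ψ`), all orthogonal to a positive degree vector and with entry `-1` at a distinguished
index of degree 1, have the shape `c ψ = -e₁ - ε e_{χ₁} + ε e_{Θ ψ}`,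
`cl = -e₁ - ε e_{χ₁} + s₂ e_{χ₂} + s₃ e_{χ₃}`.
-/

set_option autoImplicit false

namespace Cfsg.Agent.Lib.Helper1

section Vec

variable {β : Type*} [Fintype β] [DecidableEq β]

omit [DecidableEq β] in
theorem dih_le_list (v : β → ℤ) (l : List β) (hl : l.Nodup) :
    (l.map (fun x => v x ^ 2)).sum ≤ ∑ χ, v χ ^ 2 := by
  classical
  rw [← List.sum_toFinset _ hl]
  exact Finset.sum_le_univ_sum_of_nonneg (fun _ => sq_nonneg _)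

omit [DecidableEq β] in
theorem dih_zero_off (v : β → ℤ) (l : List β) (hl : l.Nodup)
    (hle : ∑ χ, v χ ^ 2 ≤ (l.map (fun x => v x ^ 2)).sum) : ∀ x, x ∉ l → v x = 0 := by
  intro x hx
  have h1 := dih_le_list v (x :: l) (List.nodup_cons.mpr ⟨hx, hl⟩)
  rw [List.map_cons, List.sum_cons] at h1
  have h2 : v x ^ 2 ≤ 0 := by linarith
  have h3 : v x ^ 2 = 0 := le_antisymm h2 (sq_nonneg _)
  exact pow_eq_zero_iff (two_ne_zero) |>.mp h3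

omit [DecidableEq β] in
theorem dih_sum_supp {R : Type*} [CommRing R] (v : β → R) (f : β → R) (l : List β)
    (hl : l.Nodup) (h0 : ∀ x, x ∉ l → v x = 0) :
    ∑ χ, v χ * f χ = (l.map (fun x => v x * f x)).sum := by
  classical
  rw [← List.sum_toFinset _ hl]
  symm
  apply Finset.sum_subset (Finset.subset_univ _)
  intro x _ hx
  rw [List.mem_toFinset] at hx
  rw [h0 x hx, zero_mul]

theorem dih_sum_ite {R : Type*} [CommRing R] (a : β) (f : β → R) :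
    ∑ χ, (if χ = a then (1 : R) else 0) * f χ = f a := by
  simp [ite_mul]

theorem dih_lin3 {R : Type*} [CommRing R] (f : β → R) (a b c : β) (x y z : R) :
    ∑ χ, (x * (if χ = a then 1 else 0) + y * (if χ = b then 1 else 0) +
      z * (if χ = c then 1 else 0)) * f χ = x * f a + y * f b + z * f c := by
  have h : ∀ χ, (x * (if χ = a then 1 else 0) + y * (if χ = b then 1 else 0) +
      z * (if χ = c then 1 else 0)) * f χ =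
      x * ((if χ = a then (1 : R) else 0) * f χ) + y * ((if χ = b then (1 : R) else 0) * f χ) +
      z * ((if χ = c then (1 : R) else 0) * f χ) := fun χ => by ring
  rw [Finset.sum_congr rfl (fun χ _ => h χ), Finset.sum_add_distrib, Finset.sum_add_distrib,
    ← Finset.mul_sum, ← Finset.mul_sum, ← Finset.mul_sum, dih_sum_ite, dih_sum_ite, dih_sum_ite]

theorem dih_lin4 {R : Type*} [CommRing R] (f : β → R) (a b c d : β) (x y z w : R) :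
    ∑ χ, (x * (if χ = a then 1 else 0) + y * (if χ = b then 1 else 0) +
      z * (if χ = c then 1 else 0) + w * (if χ = d then 1 else 0)) * f χ =
      x * f a + y * f b + z * f c + w * f d := by
  have h : ∀ χ, (x * (if χ = a then 1 else 0) + y * (if χ = b then 1 else 0) +
      z * (if χ = c then 1 else 0) + w * (if χ = d then 1 else 0)) * f χ =
      (x * (if χ = a then 1 else 0) + y * (if χ = b then 1 else 0) +
        z * (if χ = c then 1 else 0)) * f χ + w * ((if χ = d then (1 : R) else 0) * f χ) :=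
    fun χ => by ring
  rw [Finset.sum_congr rfl (fun χ _ => h χ), Finset.sum_add_distrib, dih_lin3,
    ← Finset.mul_sum, dih_sum_ite]

/-- peeling one coordinate off a vector -/
theorem dih_peel (v : β → ℤ) (a : β) :
    ∑ χ, (v χ - v a * (if χ = a then 1 else 0)) ^ 2 = ∑ χ, v χ ^ 2 - v a ^ 2 := by
  have h : ∀ χ, (v χ - v a * (if χ = a then 1 else 0)) ^ 2 =
      v χ ^ 2 + (if χ = a then (1 : ℤ) else 0) * (-(v a) ^ 2) := by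
    intro χ
    split_ifs with h
    · rw [h]; ring
    · ring
  rw [Finset.sum_congr rfl (fun χ _ => h χ), Finset.sum_add_distrib, dih_sum_ite]
  ring

theorem dih_norm_one (v : β → ℤ) (h : ∑ χ, v χ ^ 2 = 1) :
    ∃ (a : β) (s : ℤ), (s = 1 ∨ s = -1) ∧ ∀ χ, v χ = s * (if χ = a then 1 else 0) := by
  obtain ⟨a, ha⟩ : ∃ a, v a ≠ 0 := by
    by_contra hcon
    push Not at hcon
    rw [Finset.sum_eq_zero (fun χ _ => by rw [hcon χ]; ring)] at h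
    exact zero_ne_one h
  have h1 := dih_le_list v [a] (List.nodup_singleton a)
  rw [h, List.map_cons, List.sum_cons, List.map_nil, List.sum_nil, add_zero] at h1
  have h2 : 0 < v a ^ 2 := by positivity
  have h3 : v a ^ 2 = 1 := by omega
  refine ⟨a, v a, ?_, ?_⟩
  · have h4 : (v a - 1) * (v a + 1) = 0 := by linear_combination h3
    rcases mul_eq_zero.mp h4 with h5 | h5
    · left; linarith
    · right; linarith
  · intro χ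
    by_cases hχ : χ = a
    · rw [if_pos hχ, hχ, mul_one]
    · rw [if_neg hχ, mul_zero]
      exact dih_zero_off v [a] (List.nodup_singleton a)
        (by rw [h, List.map_cons, List.sum_cons, List.map_nil, List.sum_nil, add_zero, h3]) χ
        (by simpa using hχ)

theorem dih_norm_two (v : β → ℤ) (h : ∑ χ, v χ ^ 2 = 2) :
    ∃ (a b : β) (s t : ℤ), a ≠ b ∧ (s = 1 ∨ s = -1) ∧ (t = 1 ∨ t = -1) ∧
      ∀ χ, v χ = s * (if χ = a then 1 else 0) + t * (if χ = b then 1 else 0) := by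
  obtain ⟨a, ha⟩ : ∃ a, v a ≠ 0 := by
    by_contra hcon
    push Not at hcon
    rw [Finset.sum_eq_zero (fun χ _ => by rw [hcon χ]; ring)] at h
    norm_num at h
  have h1 := dih_le_list v [a] (List.nodup_singleton a)
  rw [h, List.map_cons, List.sum_cons, List.map_nil, List.sum_nil, add_zero] at h1
  have h2 : 0 < v a ^ 2 := by positivity
  have h3 : v a ^ 2 = 1 := by
    have h4 : v a ^ 2 ≠ 2 := by
      intro h5
      have h6 : v a < 2 := by nlinarith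
      have h7 : -2 < v a := by nlinarith
      interval_cases (v a) <;> omega
    omega
  have hs : v a = 1 ∨ v a = -1 := by
    have h4 : (v a - 1) * (v a + 1) = 0 := by linear_combination h3
    rcases mul_eq_zero.mp h4 with h5 | h5
    · left; linarith
    · right; linarith
  have h5 := dih_peel v a
  rw [h, h3] at h5
  obtain ⟨b, t, ht, hb⟩ := dih_norm_one _ (by rw [h5]; norm_num)
  have hab : a ≠ b := by
    intro hab
    have h6 := hb a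
    rw [if_pos rfl, if_pos hab, mul_one, mul_one, sub_self] at h6
    rcases ht with h7 | h7 <;> rw [h7] at h6 <;> norm_num at h6
  refine ⟨a, b, v a, t, hab, hs, ht, ?_⟩
  intro χ
  have h6 := hb χ
  linarith

/-- final step: the shape of `cl` -/
theorem dih_core_fin {Ψ : Type*} (S : Set Ψ) (cl : β → ℤ) (one χ1 : β) (ε : ℤ) (Θ : Ψ → β)
    (hε : ε = 1 ∨ ε = -1) (hχ1 : χ1 ≠ one)
    (hL : ∑ χ, cl χ * cl χ = 4) (h1l : cl one = -1) (hclχ1 : cl χ1 = -ε)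
    (hΘ1 : ∀ ψ ∈ S, Θ ψ ≠ one ∧ Θ ψ ≠ χ1)
    (hclΘ : ∀ ψ ∈ S, cl (Θ ψ) = 0) :
    ∃ (s2 s3 : ℤ) (χ2 χ3 : β), (s2 = 1 ∨ s2 = -1) ∧ (s3 = 1 ∨ s3 = -1) ∧
      χ2 ≠ one ∧ χ3 ≠ one ∧ χ1 ≠ χ2 ∧ χ1 ≠ χ3 ∧ χ2 ≠ χ3 ∧
      (∀ ψ ∈ S, Θ ψ ≠ χ2 ∧ Θ ψ ≠ χ3) ∧
      (∀ χ, cl χ = -(if χ = one then 1 else 0) - ε * (if χ = χ1 then 1 else 0)
          + s2 * (if χ = χ2 then 1 else 0) + s3 * (if χ = χ3 then 1 else 0)) := by
  have hε2 : ε ^ 2 = 1 := by rcases hε with h | h <;> rw [h] <;> norm_num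
  obtain ⟨v, hv⟩ : ∃ v : β → ℤ, v = fun χ => cl χ + (if χ = one then 1 else 0) +
      ε * (if χ = χ1 then 1 else 0) := ⟨_, rfl⟩
  have hsq : ∀ χ, v χ ^ 2 = cl χ * cl χ + ((if χ = one then (1 : ℤ) else 0) * (2 * cl χ + 1) +
      (if χ = χ1 then (1 : ℤ) else 0) * (2 * ε * cl χ + ε ^ 2)) := by
    intro χ
    by_cases h1 : χ = one
    · have h2 : ¬ χ = χ1 := fun h2 => hχ1 (h2.symm.trans h1)
      simp only [hv, if_pos h1, if_neg h2]; ring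
    · by_cases h2 : χ = χ1
      · simp only [hv, if_neg h1, if_pos h2]; ring
      · simp only [hv, if_neg h1, if_neg h2]; ring
  have hnorm : ∑ χ, v χ ^ 2 = 2 := by
    rw [Finset.sum_congr rfl (fun χ _ => hsq χ), Finset.sum_add_distrib, Finset.sum_add_distrib,
      dih_sum_ite, dih_sum_ite, hL, h1l, hclχ1]
    nlinarith
  obtain ⟨χ2, χ3, s2, s3, h23, hs2, hs3, hv'⟩ := dih_norm_two v hnorm
  have hs20 : s2 ≠ 0 := by rcases hs2 with h | h <;> rw [h] <;> norm_num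
  have hs30 : s3 ≠ 0 := by rcases hs3 with h | h <;> rw [h] <;> norm_num
  have hv2 : v χ2 = s2 := by
    rw [hv' χ2, if_pos rfl, if_neg h23]; ring
  have hv3 : v χ3 = s3 := by
    rw [hv' χ3, if_pos rfl, if_neg (Ne.symm h23)]; ring
  have hzero : ∀ x, v x = 0 → x ≠ χ2 ∧ x ≠ χ3 := by
    intro x hx
    constructor
    · intro h; rw [h, hv2] at hx; exact hs20 hx
    · intro h; rw [h, hv3] at hx; exact hs30 hx
  have hv1 : v one = 0 := by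
    simp [hv, Ne.symm hχ1, h1l]
  have hvχ1 : v χ1 = 0 := by
    simp [hv, hχ1, hclχ1]
  have hvΘ : ∀ ψ ∈ S, v (Θ ψ) = 0 := by
    intro ψ hψ
    simp [hv, (hΘ1 ψ hψ).1, (hΘ1 ψ hψ).2, hclΘ ψ hψ]
  refine ⟨s2, s3, χ2, χ3, hs2, hs3, (hzero one hv1).1.symm, (hzero one hv1).2.symm,
    (hzero χ1 hvχ1).1, (hzero χ1 hvχ1).2, h23, fun ψ hψ => hzero _ (hvΘ ψ hψ), ?_⟩
  intro χ
  have h1 := hv' χ
  rw [hv] at h1
  simp only at h1
  linarith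

/-- the case of a single class -/
theorem dih_core_one {Ψ : Type*} (S : Set Ψ) (R : Ψ → Ψ → Prop) (c : Ψ → β → ℤ) (cl : β → ℤ)
    (deg : β → ℤ) (one : β) (hdeg : ∀ χ, 0 < deg χ) (hdeg1 : deg one = 1)
    (hG1 : ∀ ψ ∈ S, ∀ ψ' ∈ S, R ψ ψ' → ∑ χ, c ψ χ * c ψ' χ = 3)
    (hL : ∑ χ, cl χ * cl χ = 4)
    (hLc : ∀ ψ ∈ S, ∑ χ, cl χ * c ψ χ = 2)
    (hD : ∀ ψ ∈ S, ∑ χ, c ψ χ * deg χ = 0)
    (h1 : ∀ ψ ∈ S, c ψ one = -1) (h1l : cl one = -1)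
    (hne : S.Nonempty) (hall : ∀ ψ ∈ S, ∀ ψ' ∈ S, R ψ ψ') :
    ∃ (ε : ℤ) (χ1 : β) (Θ : Ψ → β), (ε = 1 ∨ ε = -1) ∧ χ1 ≠ one ∧
      (∀ ψ ∈ S, Θ ψ ≠ one ∧ Θ ψ ≠ χ1) ∧
      (∀ ψ ∈ S, ∀ ψ' ∈ S, (Θ ψ = Θ ψ' ↔ R ψ ψ')) ∧
      (∀ ψ ∈ S, ∀ χ, c ψ χ = -(if χ = one then 1 else 0) - ε * (if χ = χ1 then 1 else 0)
          + ε * (if χ = Θ ψ then 1 else 0)) ∧
      cl χ1 = -ε ∧ (∀ ψ ∈ S, cl (Θ ψ) = 0) := by
  obtain ⟨ψ0, hψ0⟩ := hne
  have hceq : ∀ ψ ∈ S, c ψ = c ψ0 := by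
    intro ψ hψ
    have h0 : ∑ χ, (c ψ χ - c ψ0 χ) ^ 2 = 0 := by
      have h2 : ∀ χ, (c ψ χ - c ψ0 χ) ^ 2 =
          c ψ χ * c ψ χ - 2 * (c ψ χ * c ψ0 χ) + c ψ0 χ * c ψ0 χ := fun χ => by ring
      rw [Finset.sum_congr rfl (fun χ _ => h2 χ), Finset.sum_add_distrib,
        Finset.sum_sub_distrib, ← Finset.mul_sum, hG1 ψ hψ ψ hψ (hall ψ hψ ψ hψ),
        hG1 ψ hψ ψ0 hψ0 (hall ψ hψ ψ0 hψ0), hG1 ψ0 hψ0 ψ0 hψ0 (hall ψ0 hψ0 ψ0 hψ0)]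
      norm_num
    funext χ
    have h2 := (Finset.sum_eq_zero_iff_of_nonneg
      (fun χ _ => sq_nonneg (c ψ χ - c ψ0 χ))).mp h0 χ (Finset.mem_univ χ)
    have h3 := (pow_eq_zero_iff (two_ne_zero)).mp h2
    linarith
  obtain ⟨v, hv⟩ : ∃ v : β → ℤ, v = fun χ => c ψ0 χ + (if χ = one then 1 else 0) := ⟨_, rfl⟩
  have hsq : ∀ χ, v χ ^ 2 = c ψ0 χ * c ψ0 χ +
      (if χ = one then (1 : ℤ) else 0) * (2 * c ψ0 χ + 1) := by
    intro χ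
    by_cases h : χ = one
    · simp only [hv, if_pos h]; ring
    · simp only [hv, if_neg h]; ring
  have hnorm : ∑ χ, v χ ^ 2 = 2 := by
    rw [Finset.sum_congr rfl (fun χ _ => hsq χ), Finset.sum_add_distrib, dih_sum_ite,
      hG1 ψ0 hψ0 ψ0 hψ0 (hall ψ0 hψ0 ψ0 hψ0), h1 ψ0 hψ0]
    norm_num
  obtain ⟨a, b, sa, sb, hab, hsa, hsb, hv'⟩ := dih_norm_two v hnorm
  have hsa0 : sa ≠ 0 := by rcases hsa with h | h <;> rw [h] <;> norm_num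
  have hsb0 : sb ≠ 0 := by rcases hsb with h | h <;> rw [h] <;> norm_num
  have hv1 : v one = 0 := by
    simp [hv, h1 ψ0 hψ0]
  have ha1 : a ≠ one := by
    intro h
    have h2 := hv' a
    rw [if_pos rfl, if_neg hab, h, hv1] at h2
    apply hsa0; linarith
  have hb1 : b ≠ one := by
    intro h
    have h2 := hv' b
    rw [if_pos rfl, if_neg (Ne.symm hab), h, hv1] at h2
    apply hsb0; linarith
  have hc0 : ∀ χ, c ψ0 χ = (-1) * (if χ = one then 1 else 0) + sa * (if χ = a then 1 else 0) +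
      sb * (if χ = b then 1 else 0) := by
    intro χ
    have h2 := hv' χ
    rw [hv] at h2
    simp only at h2
    linarith
  have hDD := hD ψ0 hψ0
  rw [Finset.sum_congr rfl (fun χ _ => by rw [hc0 χ]), dih_lin3, hdeg1] at hDD
  have hLL := hLc ψ0 hψ0
  rw [Finset.sum_congr rfl (fun χ _ => by rw [hc0 χ, mul_comm]), dih_lin3, h1l] at hLL
  have hL' : ∑ χ, cl χ ^ 2 = 4 := by
    rw [← hL]
    exact Finset.sum_congr rfl fun χ _ => by ring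
  have hbd := dih_le_list cl [one, a, b] (by
    simp only [List.nodup_cons, List.mem_cons, List.not_mem_nil, or_false, not_or,
      List.nodup_nil, and_true, not_false_eq_true]
    exact ⟨⟨Ne.symm ha1, Ne.symm hb1⟩, hab⟩)
  simp only [List.map_cons, List.sum_cons, List.map_nil, List.sum_nil, add_zero] at hbd
  rw [hL', h1l] at hbd
  have hda := hdeg a
  have hdb := hdeg b
  have hopp : sa = -sb := by
    rcases hsa with h | h <;> rcases hsb with h' | h' <;> rw [h, h'] at hDD ⊢ <;>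
      first | rfl | (exfalso; linarith)
  have hdich : (cl a = sa ∧ cl b = 0) ∨ (cl a = 0 ∧ cl b = sb) := by
    rcases hsb with h | h
    · rw [hopp, h] at hLL ⊢
      have h3 : cl a ≤ 0 := by nlinarith
      have h4 : -1 ≤ cl a := by nlinarith
      have h5 : cl a = -1 ∨ cl a = 0 := by omega
      rcases h5 with h5 | h5
      · left; exact ⟨h5, by linarith⟩
      · right; exact ⟨h5, by linarith⟩
    · rw [hopp, h] at hLL ⊢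
      have h3 : 0 ≤ cl a := by nlinarith
      have h4 : cl a ≤ 1 := by nlinarith
      have h5 : cl a = 1 ∨ cl a = 0 := by omega
      rcases h5 with h5 | h5
      · left; exact ⟨by rw [h5]; norm_num, by linarith⟩
      · right; exact ⟨h5, by linarith⟩
  rcases hdich with ⟨hca, hcb⟩ | ⟨hca, hcb⟩
  · refine ⟨sb, a, fun _ => b, hsb, ha1, fun _ _ => ⟨hb1, Ne.symm hab⟩,
      fun ψ hψ ψ' hψ' => iff_of_true rfl (hall ψ hψ ψ' hψ'), ?_, by rw [hca, hopp], fun _ _ => hcb⟩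
    intro ψ hψ χ
    rw [hceq ψ hψ, hc0 χ, hopp]
    ring
  · refine ⟨sa, b, fun _ => a, hsa, hb1, fun _ _ => ⟨ha1, hab⟩,
      fun ψ hψ ψ' hψ' => iff_of_true rfl (hall ψ hψ ψ' hψ'), ?_, by rw [hcb, hopp]; ring,
      fun _ _ => hca⟩
    intro ψ hψ χ
    rw [hceq ψ hψ, hc0 χ]
    have : sb = -sa := by rw [hopp]; ring
    rw [this]
    ring

/-- the case of at least three classes -/
theorem dih_core_many {Ψ : Type*} (S : Set Ψ) (R : Ψ → Ψ → Prop) (c : Ψ → β → ℤ) (cl : β → ℤ)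
    (deg : β → ℤ) (one : β) (hdeg : ∀ χ, 0 < deg χ) (hdeg1 : deg one = 1)
    (hG1 : ∀ ψ ∈ S, ∀ ψ' ∈ S, R ψ ψ' → ∑ χ, c ψ χ * c ψ' χ = 3)
    (hG0 : ∀ ψ ∈ S, ∀ ψ' ∈ S, ¬ R ψ ψ' → ∑ χ, c ψ χ * c ψ' χ = 2)
    (hRrefl : ∀ ψ ∈ S, R ψ ψ)
    (hL : ∑ χ, cl χ * cl χ = 4)
    (hLc : ∀ ψ ∈ S, ∑ χ, cl χ * c ψ χ = 2)
    (hD : ∀ ψ ∈ S, ∑ χ, c ψ χ * deg χ = 0)
    (hDl : ∑ χ, cl χ * deg χ = 0)
    (h1 : ∀ ψ ∈ S, c ψ one = -1) (h1l : cl one = -1)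
    (ψ1 ψ2 ψ3 : Ψ) (hψ1 : ψ1 ∈ S) (hψ2 : ψ2 ∈ S) (hψ3 : ψ3 ∈ S)
    (h12 : ¬ R ψ1 ψ2) (h13 : ¬ R ψ1 ψ3) (h23 : ¬ R ψ2 ψ3) :
    ∃ (ε : ℤ) (χ1 : β) (Θ : Ψ → β), (ε = 1 ∨ ε = -1) ∧ χ1 ≠ one ∧
      (∀ ψ ∈ S, Θ ψ ≠ one ∧ Θ ψ ≠ χ1) ∧
      (∀ ψ ∈ S, ∀ ψ' ∈ S, (Θ ψ = Θ ψ' ↔ R ψ ψ')) ∧
      (∀ ψ ∈ S, ∀ χ, c ψ χ = -(if χ = one then 1 else 0) - ε * (if χ = χ1 then 1 else 0)
          + ε * (if χ = Θ ψ then 1 else 0)) ∧
      cl χ1 = -ε ∧ (∀ ψ ∈ S, cl (Θ ψ) = 0) := by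
  obtain ⟨ε, d, D, Θ, hε, hc, hΘiff, hDΘ, -⟩ := gram_core S R c deg 2 (fun ψ _ χ _ => hdeg χ)
    (fun ψ hψ ψ' hψ' hR => by rw [hG1 ψ hψ ψ' hψ' hR]; norm_num) hG0 hRrefl hD
    ⟨ψ1, hψ1, ψ2, hψ2, h12⟩
  have hε2 : ε ^ 2 = 1 := by rcases hε with h | h <;> rw [h] <;> norm_num
  have hε0 : ε ≠ 0 := by rcases hε with h | h <;> rw [h] <;> norm_num
  have hT12 : Θ ψ1 ≠ Θ ψ2 := fun h => h12 ((hΘiff ψ1 hψ1 ψ2 hψ2).mp h)
  have hT13 : Θ ψ1 ≠ Θ ψ3 := fun h => h13 ((hΘiff ψ1 hψ1 ψ3 hψ3).mp h)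
  have hT23 : Θ ψ2 ≠ Θ ψ3 := fun h => h23 ((hΘiff ψ2 hψ2 ψ3 hψ3).mp h)
  have hd1 := hdeg (Θ ψ1)
  have hd2 := hdeg (Θ ψ2)
  have hd3 := hdeg (Θ ψ3)
  have hA : ∀ ψ ∈ S, D one + ε * (if one = Θ ψ then 1 else 0) = -1 := fun ψ hψ => by
    rw [← hc ψ hψ one, h1 ψ hψ]
  have hD1 : D one = -1 := by
    by_cases h : one = Θ ψ1
    · have h2 := hA ψ2 hψ2
      rw [if_neg (fun h' => hT12 (h.symm.trans h'))] at h2
      linarith
    · have h2 := hA ψ1 hψ1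
      rw [if_neg h] at h2
      linarith
  have hΘ1 : ∀ ψ ∈ S, Θ ψ ≠ one := by
    intro ψ hψ h
    have h2 := hA ψ hψ
    rw [if_pos h.symm, hD1] at h2
    apply hε0
    linarith
  have hnorm : ∑ χ, D χ ^ 2 = 2 + 2 * ε * d := by
    have h1' := hG1 ψ1 hψ1 ψ1 hψ1 (hRrefl ψ1 hψ1)
    have h2 : ∀ χ, c ψ1 χ * c ψ1 χ =
        D χ ^ 2 + (if χ = Θ ψ1 then 2 * ε * D χ + ε ^ 2 else 0) := by
      intro χ
      rw [hc ψ1 hψ1 χ]
      split_ifs <;> ring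
    rw [Finset.sum_congr rfl (fun χ _ => h2 χ), Finset.sum_add_distrib,
      Finset.sum_ite_eq' Finset.univ (Θ ψ1) (fun χ => 2 * ε * D χ + ε ^ 2),
      if_pos (Finset.mem_univ _), hDΘ ψ1 hψ1, hε2] at h1'
    linarith
  have hl4 : [one, Θ ψ1, Θ ψ2, Θ ψ3].Nodup := by
    simp only [List.nodup_cons, List.mem_cons, List.not_mem_nil, or_false, not_or,
      List.nodup_nil, and_true, not_false_eq_true]
    exact ⟨⟨(hΘ1 ψ1 hψ1).symm, (hΘ1 ψ2 hψ2).symm, (hΘ1 ψ3 hψ3).symm⟩, ⟨hT12, hT13⟩, hT23⟩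
  have hb := dih_le_list D _ hl4
  simp only [List.map_cons, List.sum_cons, List.map_nil, List.sum_nil, add_zero] at hb
  rw [hD1, hDΘ ψ1 hψ1, hDΘ ψ2 hψ2, hDΘ ψ3 hψ3, hnorm] at hb
  have hd : d = 0 := by
    by_contra hd0
    have hdε : d = ε := by
      rcases hε with h | h
      · rw [h] at hb ⊢
        have h3 : d ≤ 1 := by nlinarith
        have h4 : 0 ≤ d := by nlinarith
        omega
      · rw [h] at hb ⊢
        have h3 : -1 ≤ d := by nlinarith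
        have h4 : d ≤ 0 := by nlinarith
        omega
    have hz := dih_zero_off D _ hl4 (by
      simp only [List.map_cons, List.sum_cons, List.map_nil, List.sum_nil, add_zero]
      rw [hD1, hDΘ ψ1 hψ1, hDΘ ψ2 hψ2, hDΘ ψ3 hψ3, hnorm, hdε]
      nlinarith)
    have hcz : ∀ x, x ∉ [one, Θ ψ1, Θ ψ2, Θ ψ3] → c ψ1 x = 0 := by
      intro x hx
      rw [hc ψ1 hψ1 x, hz x hx, if_neg (fun h => hx (by rw [h]; simp))]
      ring
    have hs := dih_sum_supp (c ψ1) deg _ hl4 hcz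
    simp only [List.map_cons, List.sum_cons, List.map_nil, List.sum_nil, add_zero] at hs
    rw [hD ψ1 hψ1, h1 ψ1 hψ1, hc ψ1 hψ1 (Θ ψ1), hc ψ1 hψ1 (Θ ψ2), hc ψ1 hψ1 (Θ ψ3),
      hDΘ ψ1 hψ1, hDΘ ψ2 hψ2, hDΘ ψ3 hψ3, if_pos rfl, if_neg (Ne.symm hT12),
      if_neg (Ne.symm hT13), hdε, hdeg1] at hs
    rcases hε with h | h <;> rw [h] at hs <;> linarith
  have hDΘ0 : ∀ ψ ∈ S, D (Θ ψ) = 0 := by
    intro ψ hψ
    rw [hDΘ ψ hψ, hd]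
    ring
  have hnorm2 : ∑ χ, D χ ^ 2 = 2 := by rw [hnorm, hd]; ring
  obtain ⟨v, hv⟩ : ∃ v : β → ℤ, v = fun χ => D χ + (if χ = one then 1 else 0) := ⟨_, rfl⟩
  have hsq : ∀ χ, v χ ^ 2 = D χ ^ 2 + (if χ = one then (1 : ℤ) else 0) * (2 * D χ + 1) := by
    intro χ
    by_cases h : χ = one
    · simp only [hv, if_pos h]; ring
    · simp only [hv, if_neg h]; ring
  have hvn : ∑ χ, v χ ^ 2 = 1 := by
    rw [Finset.sum_congr rfl (fun χ _ => hsq χ), Finset.sum_add_distrib, dih_sum_ite, hnorm2, hD1]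
    norm_num
  obtain ⟨χ1, s, hs, hv'⟩ := dih_norm_one v hvn
  have hs0 : s ≠ 0 := by rcases hs with h | h <;> rw [h] <;> norm_num
  have hχ1 : χ1 ≠ one := by
    intro h
    have h2 := hv' one
    rw [if_pos h.symm, hv] at h2
    simp only [if_true, hD1] at h2
    apply hs0
    linarith
  have hDform : ∀ χ, D χ = (-1) * (if χ = one then 1 else 0) + s * (if χ = χ1 then 1 else 0) := by
    intro χ
    have h2 := hv' χ
    rw [hv] at h2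
    simp only at h2
    linarith
  have hΘχ1 : ∀ ψ ∈ S, Θ ψ ≠ χ1 := by
    intro ψ hψ h
    have h2 := hDform (Θ ψ)
    rw [hDΘ0 ψ hψ, if_neg (hΘ1 ψ hψ), if_pos h] at h2
    apply hs0
    linarith
  have hcform : ∀ ψ ∈ S, ∀ χ, c ψ χ = (-1) * (if χ = one then 1 else 0) +
      s * (if χ = χ1 then 1 else 0) + ε * (if χ = Θ ψ then 1 else 0) := by
    intro ψ hψ χ
    rw [hc ψ hψ χ, hDform χ]
  have hdχ1 := hdeg χ1
  have hsε : s = -ε := by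
    have h2 := hD ψ1 hψ1
    rw [Finset.sum_congr rfl (fun χ _ => by rw [hcform ψ1 hψ1 χ]), dih_lin3, hdeg1] at h2
    rcases hs with h | h <;> rcases hε with h' | h' <;> rw [h, h'] at h2 ⊢ <;>
      first | rfl | (exfalso; linarith)
  have hclΘ' : ∀ ψ ∈ S, cl (Θ ψ) = cl χ1 + ε := by
    intro ψ hψ
    have h2 := hLc ψ hψ
    rw [Finset.sum_congr rfl (fun χ _ => by rw [hcform ψ hψ χ, mul_comm]), dih_lin3, h1l,
      hsε] at h2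
    rcases hε with h | h <;> rw [h] at h2 ⊢ <;> linarith
  have hL' : ∑ χ, cl χ ^ 2 = 4 := by
    rw [← hL]
    exact Finset.sum_congr rfl fun χ _ => by ring
  have hl5 : [one, χ1, Θ ψ1, Θ ψ2, Θ ψ3].Nodup := by
    simp only [List.nodup_cons, List.mem_cons, List.not_mem_nil, or_false, not_or,
      List.nodup_nil, and_true, not_false_eq_true]
    exact ⟨⟨Ne.symm hχ1, (hΘ1 ψ1 hψ1).symm, (hΘ1 ψ2 hψ2).symm, (hΘ1 ψ3 hψ3).symm⟩,
      ⟨(hΘχ1 ψ1 hψ1).symm, (hΘχ1 ψ2 hψ2).symm, (hΘχ1 ψ3 hψ3).symm⟩, ⟨hT12, hT13⟩, hT23⟩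
  have hb5 := dih_le_list cl _ hl5
  simp only [List.map_cons, List.sum_cons, List.map_nil, List.sum_nil, add_zero] at hb5
  rw [h1l, hclΘ' ψ1 hψ1, hclΘ' ψ2 hψ2, hclΘ' ψ3 hψ3, hL'] at hb5
  have ha : cl χ1 = -ε := by
    by_contra hne
    have ha0 : cl χ1 = 0 := by
      rcases hε with h | h
      · rw [h] at hb5 hne
        have h3 : cl χ1 ≤ 0 := by nlinarith
        have h4 : -1 ≤ cl χ1 := by nlinarith
        omega
      · rw [h] at hb5 hne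
        have h3 : 0 ≤ cl χ1 := by nlinarith
        have h4 : cl χ1 ≤ 1 := by nlinarith
        omega
    have hz := dih_zero_off cl _ hl5 (by
      simp only [List.map_cons, List.sum_cons, List.map_nil, List.sum_nil, add_zero]
      rw [h1l, hclΘ' ψ1 hψ1, hclΘ' ψ2 hψ2, hclΘ' ψ3 hψ3, hL', ha0]
      nlinarith)
    have hs' := dih_sum_supp cl deg _ hl5 hz
    simp only [List.map_cons, List.sum_cons, List.map_nil, List.sum_nil, add_zero] at hs'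
    rw [hDl, h1l, hclΘ' ψ1 hψ1, hclΘ' ψ2 hψ2, hclΘ' ψ3 hψ3, ha0, hdeg1] at hs'
    rcases hε with h | h <;> rw [h] at hs' <;> linarith
  refine ⟨ε, χ1, Θ, hε, hχ1, fun ψ hψ => ⟨hΘ1 ψ hψ, hΘχ1 ψ hψ⟩, hΘiff, ?_, ha, ?_⟩
  · intro ψ hψ χ
    rw [hcform ψ hψ χ, hsε]
    ring
  · intro ψ hψ
    rw [hclΘ' ψ hψ, ha]
    ring

/-- **The dihedral core**: the shape of the coefficient vectors. -/
theorem dih_core {Ψ : Type*} (S : Set Ψ) (R : Ψ → Ψ → Prop) (c : Ψ → β → ℤ) (cl : β → ℤ)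
    (deg : β → ℤ) (one : β) (hdeg : ∀ χ, 0 < deg χ) (hdeg1 : deg one = 1)
    (hG1 : ∀ ψ ∈ S, ∀ ψ' ∈ S, R ψ ψ' → ∑ χ, c ψ χ * c ψ' χ = 3)
    (hG0 : ∀ ψ ∈ S, ∀ ψ' ∈ S, ¬ R ψ ψ' → ∑ χ, c ψ χ * c ψ' χ = 2)
    (hRrefl : ∀ ψ ∈ S, R ψ ψ)
    (hL : ∑ χ, cl χ * cl χ = 4)
    (hLc : ∀ ψ ∈ S, ∑ χ, cl χ * c ψ χ = 2)
    (hD : ∀ ψ ∈ S, ∑ χ, c ψ χ * deg χ = 0)
    (hDl : ∑ χ, cl χ * deg χ = 0)
    (h1 : ∀ ψ ∈ S, c ψ one = -1) (h1l : cl one = -1)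
    (hne : S.Nonempty)
    (hcase : (∀ ψ ∈ S, ∀ ψ' ∈ S, R ψ ψ') ∨
      ∃ ψ1 ∈ S, ∃ ψ2 ∈ S, ∃ ψ3 ∈ S, ¬ R ψ1 ψ2 ∧ ¬ R ψ1 ψ3 ∧ ¬ R ψ2 ψ3) :
    ∃ (ε s2 s3 : ℤ) (χ1 χ2 χ3 : β) (Θ : Ψ → β),
      (ε = 1 ∨ ε = -1) ∧ (s2 = 1 ∨ s2 = -1) ∧ (s3 = 1 ∨ s3 = -1) ∧
      χ1 ≠ one ∧ χ2 ≠ one ∧ χ3 ≠ one ∧ χ1 ≠ χ2 ∧ χ1 ≠ χ3 ∧ χ2 ≠ χ3 ∧
      (∀ ψ ∈ S, Θ ψ ≠ one ∧ Θ ψ ≠ χ1 ∧ Θ ψ ≠ χ2 ∧ Θ ψ ≠ χ3) ∧
      (∀ ψ ∈ S, ∀ ψ' ∈ S, (Θ ψ = Θ ψ' ↔ R ψ ψ')) ∧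
      (∀ ψ ∈ S, ∀ χ, c ψ χ = -(if χ = one then 1 else 0) - ε * (if χ = χ1 then 1 else 0)
          + ε * (if χ = Θ ψ then 1 else 0)) ∧
      (∀ χ, cl χ = -(if χ = one then 1 else 0) - ε * (if χ = χ1 then 1 else 0)
          + s2 * (if χ = χ2 then 1 else 0) + s3 * (if χ = χ3 then 1 else 0)) := by
  obtain ⟨ε, χ1, Θ, hε, hχ1, hΘ1, hΘiff, hcform, hclχ1, hclΘ⟩ :
      ∃ (ε : ℤ) (χ1 : β) (Θ : Ψ → β), (ε = 1 ∨ ε = -1) ∧ χ1 ≠ one ∧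
      (∀ ψ ∈ S, Θ ψ ≠ one ∧ Θ ψ ≠ χ1) ∧
      (∀ ψ ∈ S, ∀ ψ' ∈ S, (Θ ψ = Θ ψ' ↔ R ψ ψ')) ∧
      (∀ ψ ∈ S, ∀ χ, c ψ χ = -(if χ = one then 1 else 0) - ε * (if χ = χ1 then 1 else 0)
          + ε * (if χ = Θ ψ then 1 else 0)) ∧
      cl χ1 = -ε ∧ (∀ ψ ∈ S, cl (Θ ψ) = 0) := by
    rcases hcase with hall | ⟨ψ1, hψ1, ψ2, hψ2, ψ3, hψ3, h12, h13, h23⟩
    · exact dih_core_one S R c cl deg one hdeg hdeg1 hG1 hL hLc hD h1 h1l hne hall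
    · exact dih_core_many S R c cl deg one hdeg hdeg1 hG1 hG0 hRrefl hL hLc hD hDl h1 h1l
        ψ1 ψ2 ψ3 hψ1 hψ2 hψ3 h12 h13 h23
  obtain ⟨s2, s3, χ2, χ3, hs2, hs3, h21, h31, h12, h13, h23, hΘ23, hclform⟩ :=
    dih_core_fin S cl one χ1 ε Θ hε hχ1 hL h1l hclχ1 hΘ1 hclΘ
  exact ⟨ε, s2, s3, χ1, χ2, χ3, Θ, hε, hs2, hs3, hχ1, h21, h31, h12, h13, h23,
    fun ψ hψ => ⟨(hΘ1 ψ hψ).1, (hΘ1 ψ hψ).2, (hΘ23 ψ hψ).1, (hΘ23 ψ hψ).2⟩, hΘiff, hcform,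
    hclform⟩

end Vec

end Cfsg.Agent.Lib.Helper1
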