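import Mathlib
import Cfsg.Agent.S0514
import Cfsg.Agent.Lib.Helper12.TwoComp
import Cfsg.Agent.Lib.Helper81.PSolv2

/-!
# Group theory for Brauer's theorem on dihedral Sylow 2-subgroups (helper1)

`P` a dihedral Sylow 2-subgroup of order `2 ^ n ≥ 8`, `σ ∈ P` of order `2 ^ (n - 1)`,
`J = σ ^ (2 ^ (n - 2))`:
* `dih_inv`: elements of `P` outside `⟨σ⟩` invert `⟨σ⟩`;
* `dih_K`: `C_G(J) = K P` with `K` normal of odd order;
* `dih_fusion`: fusion in `⟨σ⟩ \ {1}` is controlled by `P`;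
* `dih_index_pPrimeCore`: for `y ∈ ⟨σ⟩ \ {1}`, `C_G(y)` has a normal 2-complement of index
  `|C_P(y)|`.
-/

set_option autoImplicit false

namespace Cfsg.Agent.Lib.Helper1

open Cfsg Subgroup

section

variable {G : Type*} [Group G]

theorem dih_card (n : ℕ) (hn : 3 ≤ n) (P : Subgroup G)
    (hP : Nonempty (P ≃* DihedralGroup (2 ^ (n - 1)))) : Nat.card P = 2 ^ n := by
  obtain ⟨e⟩ := hP
  rw [Nat.card_congr e.toEquiv, DihedralGroup.nat_card, ← pow_succ']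
  congr 1
  omega

theorem dih_inv (n : ℕ) (hn : 3 ≤ n) (P : Subgroup G)
    (hP : Nonempty (P ≃* DihedralGroup (2 ^ (n - 1)))) (σ : G) (hσ : σ ∈ P)
    (hσo : orderOf σ = 2 ^ (n - 1)) :
    ∀ x ∈ P, x ∉ zpowers σ → ∀ y ∈ zpowers σ, x * y * x⁻¹ = y⁻¹ := by
  obtain ⟨e⟩ := hP
  have hm : NeZero (2 ^ (n - 1)) := ⟨by positivity⟩
  have hm4 : 4 ≤ 2 ^ (n - 1) := by
    calc 4 = 2 ^ 2 := by norm_num
      _ ≤ 2 ^ (n - 1) := Nat.pow_le_pow_right (by norm_num) (by omega)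
  have hoe : orderOf (e ⟨σ, hσ⟩) = 2 ^ (n - 1) := by
    rw [MulEquiv.orderOf_eq, Subgroup.orderOf_mk, hσo]
  obtain ⟨i, hi⟩ : ∃ i, e ⟨σ, hσ⟩ = DihedralGroup.r i := by
    cases hd : e ⟨σ, hσ⟩ with
    | r i => exact ⟨i, rfl⟩
    | sr i =>
      rw [hd, DihedralGroup.orderOf_sr] at hoe
      omega
  have hR : zpowers (DihedralGroup.r i) = zpowers (DihedralGroup.r (1 : ZMod (2 ^ (n - 1)))) := by
    apply Subgroup.eq_of_le_of_card_ge
    · rw [zpowers_le]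
      have h1 : (DihedralGroup.r (1 : ZMod (2 ^ (n - 1)))) ^ i.val = DihedralGroup.r i := by
        rw [DihedralGroup.r_one_pow, ZMod.natCast_zmod_val]
      rw [← h1]
      exact pow_mem (mem_zpowers _) _
    · rw [Nat.card_zpowers, Nat.card_zpowers, DihedralGroup.orderOf_r_one, ← hi, hoe]
  intro x hx hxS
  obtain ⟨j, hj⟩ : ∃ j, e ⟨x, hx⟩ = DihedralGroup.sr j := by
    cases hd : e ⟨x, hx⟩ with
    | sr j => exact ⟨j, rfl⟩
    | r j =>
      exfalso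
      apply hxS
      have h1 : DihedralGroup.r j ∈ zpowers (DihedralGroup.r i) := by
        rw [hR]
        have h2 : (DihedralGroup.r (1 : ZMod (2 ^ (n - 1)))) ^ j.val = DihedralGroup.r j := by
          rw [DihedralGroup.r_one_pow, ZMod.natCast_zmod_val]
        rw [← h2]
        exact pow_mem (mem_zpowers _) _
      obtain ⟨k, hk⟩ := mem_zpowers_iff.mp h1
      rw [← hi, ← hd, ← map_zpow] at hk
      have h3 := e.injective hk
      have h4 := congrArg (fun z : P => (z : G)) h3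
      simp only [Subgroup.coe_zpow] at h4
      exact mem_zpowers_iff.mpr ⟨k, h4⟩
  have hconj : x * σ * x⁻¹ = σ⁻¹ := by
    have h1 : (⟨x, hx⟩ * ⟨σ, hσ⟩ * ⟨x, hx⟩⁻¹ : P) = (⟨σ, hσ⟩ : P)⁻¹ := by
      apply e.injective
      rw [map_mul, map_mul, map_inv, map_inv, hi, hj]
      simp
    exact congrArg (fun z : P => (z : G)) h1
  intro y hy
  obtain ⟨k, rfl⟩ := mem_zpowers_iff.mp hy
  rw [← conj_zpow, hconj, inv_zpow]

end

section Fin

variable {G : Type*} [Group G] [Finite G]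

omit [Finite G] in
theorem dih_J_sq (n : ℕ) (hn : 3 ≤ n) (σ : G) (hσo : orderOf σ = 2 ^ (n - 1)) :
    (σ ^ (2 ^ (n - 2))) ^ 2 = 1 := by
  rw [← pow_mul, ← pow_succ, show n - 2 + 1 = n - 1 by omega, ← hσo, pow_orderOf_eq_one]

omit [Finite G] in
theorem dih_J_ne_one (n : ℕ) (hn : 3 ≤ n) (σ : G) (hσo : orderOf σ = 2 ^ (n - 1)) :
    σ ^ (2 ^ (n - 2)) ≠ 1 := by
  apply pow_ne_one_of_lt_orderOf (by positivity)
  rw [hσo]
  exact Nat.pow_lt_pow_right (by norm_num) (by omega)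

omit [Finite G] in
theorem dih_J_order (n : ℕ) (hn : 3 ≤ n) (σ : G) (hσo : orderOf σ = 2 ^ (n - 1)) :
    orderOf (σ ^ (2 ^ (n - 2))) = 2 := by
  have hp2 : Fact (Nat.Prime 2) := ⟨Nat.prime_two⟩
  exact orderOf_eq_prime (dih_J_sq n hn σ hσo) (dih_J_ne_one n hn σ hσo)

theorem dih_invol_eq (σ t J : G) (ht : t ∈ zpowers σ) (hJ : J ∈ zpowers σ) (ht2 : t ^ 2 = 1)
    (ht1 : t ≠ 1) (hJ2 : J ^ 2 = 1) (hJ1 : J ≠ 1) : t = J := by
  have h := Cfsg.Agent.Lib.Helper12.eq_of_sq_eq_one_of_isCyclic (A := ↥(zpowers σ))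
    (a := ⟨t, ht⟩) (b := ⟨J, hJ⟩) (Subtype.ext ht2) (Subtype.ext hJ2)
    (fun h => ht1 (congrArg Subtype.val h)) (fun h => hJ1 (congrArg Subtype.val h))
  exact congrArg Subtype.val h

/-- every nontrivial element of `⟨σ⟩` has the involution `J` as a power -/
theorem dih_pow_J (n : ℕ) (hn : 3 ≤ n) (σ : G) (hσo : orderOf σ = 2 ^ (n - 1)) (y : G)
    (hy : y ∈ zpowers σ) (hy1 : y ≠ 1) : ∃ k : ℕ, y ^ k = σ ^ (2 ^ (n - 2)) := by
  have hp2 : Fact (Nat.Prime 2) := ⟨Nat.prime_two⟩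
  have h1 : orderOf y ∣ 2 ^ (n - 1) := hσo ▸ orderOf_dvd_of_mem_zpowers hy
  obtain ⟨j, -, hj⟩ := (Nat.dvd_prime_pow Nat.prime_two).mp h1
  have hj0 : j ≠ 0 := by
    rintro rfl
    rw [pow_zero, orderOf_eq_one_iff] at hj
    exact hy1 hj
  refine ⟨2 ^ (j - 1), ?_⟩
  apply dih_invol_eq σ _ _ (pow_mem hy _) (pow_mem (mem_zpowers σ) _)
  · rw [← pow_mul, ← pow_succ, show j - 1 + 1 = j by omega, ← hj, pow_orderOf_eq_one]
  · apply pow_ne_one_of_lt_orderOf (by positivity)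
    rw [hj]
    exact Nat.pow_lt_pow_right (by norm_num) (by omega)
  · exact dih_J_sq n hn σ hσo
  · exact dih_J_ne_one n hn σ hσo

omit [Finite G] in
theorem dih_inf_bot {K P : Subgroup G} (hK : Odd (Nat.card K)) (hP : IsPGroup 2 P) {z : G}
    (hzK : z ∈ K) (hzP : z ∈ P) : z = 1 := by
  obtain ⟨j, hj⟩ := hP ⟨z, hzP⟩
  have h1 : orderOf z ∣ 2 ^ j := orderOf_dvd_of_pow_eq_one (by simpa using congrArg Subtype.val hj)
  have h2 : orderOf z ∣ Nat.card K := by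
    have := orderOf_dvd_natCard (⟨z, hzK⟩ : K)
    rwa [Subgroup.orderOf_mk] at this
  have h3 : Nat.Coprime (2 ^ j) (Nat.card K) :=
    Nat.Coprime.pow_left _ (Nat.coprime_two_left.mpr hK)
  exact orderOf_eq_one_iff.mp (Nat.eq_one_of_dvd_coprimes h3 h1 h2)

omit [Finite G] in
theorem dih_conj_proj {K P C : Subgroup G} (hK : Odd (Nat.card K)) (hP : IsPGroup 2 P)
    (hPC : P ≤ C) (hnorm : ∀ c ∈ C, ∀ k ∈ K, c * k * c⁻¹ ∈ K) (k s x : G) (hk : k ∈ K)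
    (hs : s ∈ P) (hx : x ∈ P) (h : (k * s) * x * (k * s)⁻¹ ∈ P) :
    s * x * s⁻¹ = (k * s) * x * (k * s)⁻¹ := by
  have hw : s * x * s⁻¹ ∈ P := P.mul_mem (P.mul_mem hs hx) (P.inv_mem hs)
  have h1 : (k * s) * x * (k * s)⁻¹ * (s * x * s⁻¹)⁻¹ ∈ K := by
    have h2 : (k * s) * x * (k * s)⁻¹ * (s * x * s⁻¹)⁻¹ =
        k * ((s * x * s⁻¹) * k⁻¹ * (s * x * s⁻¹)⁻¹) := by group
    rw [h2]
    exact K.mul_mem hk (hnorm _ (hPC hw) _ (K.inv_mem hk))
  have h3 := dih_inf_bot hK hP h1 (P.mul_mem h (P.inv_mem hw))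
  exact (mul_inv_eq_one.mp h3).symm

omit [Finite G] in
/-- `P ≤ C_G(J)` -/
theorem dih_P_le (n : ℕ) (hn : 3 ≤ n) (P : Subgroup G)
    (hP : Nonempty (P ≃* DihedralGroup (2 ^ (n - 1)))) (σ : G) (hσ : σ ∈ P)
    (hσo : orderOf σ = 2 ^ (n - 1)) : P ≤ centralizer ({σ ^ (2 ^ (n - 2))} : Set G) := by
  intro x hx
  rw [mem_centralizer_iff]
  intro h hh
  rw [Set.mem_singleton_iff] at hh
  subst hh
  by_cases hxS : x ∈ zpowers σ
  · obtain ⟨k, rfl⟩ := mem_zpowers_iff.mp hxS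
    exact ((Commute.refl σ).pow_left _).zpow_right k |>.eq
  · have h1 := dih_inv n hn P hP σ hσ hσo x hx hxS _ (pow_mem (mem_zpowers σ) (2 ^ (n - 2)))
    have h2 : (σ ^ (2 ^ (n - 2)))⁻¹ = σ ^ (2 ^ (n - 2)) := by
      rw [inv_eq_iff_mul_eq_one, ← pow_two]
      exact dih_J_sq n hn σ hσo
    rw [h2] at h1
    calc σ ^ (2 ^ (n - 2)) * x = (x * σ ^ (2 ^ (n - 2)) * x⁻¹) * x := by rw [h1]
      _ = x * σ ^ (2 ^ (n - 2)) := by group

theorem dih_K_aux (n : ℕ) (hn : 3 ≤ n) (P : Sylow 2 G)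
    (hP : Nonempty ((P : Subgroup G) ≃* DihedralGroup (2 ^ (n - 1)))) (J : G)
    (hJo : orderOf J = 2) (hPJ : (P : Subgroup G) ≤ centralizer ({J} : Set G)) :
    ∃ K : Subgroup G, K ≤ centralizer ({J} : Set G) ∧ Odd (Nat.card K) ∧
      (∀ c ∈ centralizer ({J} : Set G), ∀ k ∈ K, c * k * c⁻¹ ∈ K) ∧
      (∀ c ∈ centralizer ({J} : Set G), ∃ k ∈ K, ∃ x ∈ (P : Subgroup G), c = k * x) := by
  have hp2 : Fact (Nat.Prime 2) := ⟨Nat.prime_two⟩
  have hm4 : 4 ≤ 2 ^ (n - 1) := by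
    calc 4 = 2 ^ 2 := by norm_num
      _ ≤ 2 ^ (n - 1) := Nat.pow_le_pow_right (by norm_num) (by omega)
  obtain ⟨N, hN, hodd, k, hk⟩ := Cfsg.Agent.S0514.result P (2 ^ (n - 1)) (by omega) hP J hJo
  have hcardP : Nat.card (P : Subgroup G) = 2 ^ n := dih_card n hn _ hP
  have hcardP' : Nat.card ((P : Subgroup G).subgroupOf (centralizer ({J} : Set G))) = 2 ^ n := by
    rw [Nat.card_congr (Subgroup.subgroupOfEquivOfLe hPJ).toEquiv, hcardP]
  have hCcard : Nat.card N * 2 ^ k = Nat.card (centralizer ({J} : Set G)) := by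
    rw [← hk]
    exact N.card_mul_index
  have hco : Nat.Coprime (2 ^ n) (Nat.card N) :=
    Nat.Coprime.pow_left _ (Nat.coprime_two_left.mpr hodd)
  have hkn : 2 ^ k = 2 ^ n := by
    apply Nat.dvd_antisymm
    · have h1 : 2 ^ k ∣ Nat.card G :=
        (Dvd.intro_left _ hCcard).trans (Subgroup.card_subgroup_dvd_card _)
      have h2 := P.card_eq_multiplicity
      rw [hcardP] at h2
      have h3 : k ≤ (Nat.card G).factorization 2 :=
        (Nat.Prime.pow_dvd_iff_le_factorization Nat.prime_two Nat.card_pos.ne').mp h1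
      rw [h2]
      exact Nat.pow_dvd_pow 2 h3
    · have h1 : 2 ^ n ∣ Nat.card N * 2 ^ k := by
        rw [hCcard, ← hcardP']
        exact Subgroup.card_subgroup_dvd_card _
      exact hco.dvd_of_dvd_mul_left h1
  have hc : N.IsComplement' ((P : Subgroup G).subgroupOf (centralizer ({J} : Set G))) := by
    apply Subgroup.isComplement'_of_coprime
    · rw [hcardP', ← hkn, hCcard]
    · rw [hcardP']
      exact hco.symm
  refine ⟨N.map (centralizer ({J} : Set G)).subtype, Subgroup.map_subtype_le N, ?_, ?_, ?_⟩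
  · rw [Subgroup.card_map_of_injective (centralizer ({J} : Set G)).subtype_injective]
    exact hodd
  · rintro c hc' _ ⟨n', hn', rfl⟩
    exact ⟨⟨c, hc'⟩ * n' * ⟨c, hc'⟩⁻¹, hN.conj_mem n' hn' ⟨c, hc'⟩, rfl⟩
  · intro c hc'
    obtain ⟨⟨⟨n', hn'⟩, ⟨s, hs⟩⟩, hns⟩ := hc.2 ⟨c, hc'⟩
    simp only at hns
    refine ⟨n', ⟨n', hn', rfl⟩, s, Subgroup.mem_subgroupOf.mp hs, ?_⟩
    exact (congrArg Subtype.val hns).symm

/-- `C_G(J) = K P` with `K` normal of odd order -/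
theorem dih_K (n : ℕ) (hn : 3 ≤ n) (P : Sylow 2 G)
    (hP : Nonempty ((P : Subgroup G) ≃* DihedralGroup (2 ^ (n - 1)))) (σ : G)
    (hσ : σ ∈ (P : Subgroup G)) (hσo : orderOf σ = 2 ^ (n - 1)) :
    ∃ K : Subgroup G, K ≤ centralizer ({σ ^ (2 ^ (n - 2))} : Set G) ∧ Odd (Nat.card K) ∧
      (∀ c ∈ centralizer ({σ ^ (2 ^ (n - 2))} : Set G), ∀ k ∈ K, c * k * c⁻¹ ∈ K) ∧
      (∀ c ∈ centralizer ({σ ^ (2 ^ (n - 2))} : Set G),
        ∃ k ∈ K, ∃ x ∈ (P : Subgroup G), c = k * x) :=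
  dih_K_aux n hn P hP _ (dih_J_order n hn σ hσo) (dih_P_le n hn (P : Subgroup G) hP σ hσ hσo)

/-- fusion in `⟨σ⟩ \ {1}` is controlled by `P` -/
theorem dih_fusion (n : ℕ) (hn : 3 ≤ n) (P : Sylow 2 G)
    (hP : Nonempty ((P : Subgroup G) ≃* DihedralGroup (2 ^ (n - 1)))) (σ : G)
    (hσ : σ ∈ (P : Subgroup G)) (hσo : orderOf σ = 2 ^ (n - 1)) (u : G) (hu : u ∈ zpowers σ)
    (hu1 : u ≠ 1) (g : G) (hg : g * u * g⁻¹ ∈ zpowers σ) :
    ∃ x ∈ (P : Subgroup G), x * u * x⁻¹ = g * u * g⁻¹ := by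
  obtain ⟨K, hKC, hodd, hnorm, hdec⟩ := dih_K n hn P hP σ hσ hσo
  have hSP : zpowers σ ≤ (P : Subgroup G) := by rw [zpowers_le]; exact hσ
  obtain ⟨k, hk⟩ := dih_pow_J n hn σ hσo u hu hu1
  have hgJ : g * σ ^ (2 ^ (n - 2)) * g⁻¹ = σ ^ (2 ^ (n - 2)) := by
    apply dih_invol_eq σ _ _ _ (pow_mem (mem_zpowers σ) _) _ _ (dih_J_sq n hn σ hσo)
      (dih_J_ne_one n hn σ hσo)
    · rw [← hk, ← conj_pow]
      exact pow_mem hg k
    · rw [conj_pow, dih_J_sq n hn σ hσo]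
      group
    · intro h
      exact dih_J_ne_one n hn σ hσo (conj_eq_one_iff.mp h)
  have hgC : g ∈ centralizer ({σ ^ (2 ^ (n - 2))} : Set G) := by
    rw [mem_centralizer_iff]
    intro h hh
    rw [Set.mem_singleton_iff] at hh
    subst hh
    calc σ ^ (2 ^ (n - 2)) * g = (g * σ ^ (2 ^ (n - 2)) * g⁻¹) * g := by rw [hgJ]
      _ = g * σ ^ (2 ^ (n - 2)) := by group
  obtain ⟨k', hk', s, hs, rfl⟩ := hdec g hgC
  exact ⟨s, hs, dih_conj_proj hodd P.isPGroup' (dih_P_le n hn (P : Subgroup G) hP σ hσ hσo)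
    hnorm k' s u hk' hs (hSP hu) (hSP hg)⟩

/-- for `y ∈ ⟨σ⟩ \ {1}`, `C_G(y)` has a normal 2-complement of index `|C_P(y)|` -/
theorem dih_index_pPrimeCore (n : ℕ) (hn : 3 ≤ n) (P : Sylow 2 G)
    (hP : Nonempty ((P : Subgroup G) ≃* DihedralGroup (2 ^ (n - 1)))) (σ : G)
    (hσ : σ ∈ (P : Subgroup G)) (hσo : orderOf σ = 2 ^ (n - 1)) (y : G) (hy : y ∈ zpowers σ)
    (hy1 : y ≠ 1) :
    (Cfsg.pPrimeCore 2 (centralizer ({y} : Set G))).index =
      Nat.card ↥((P : Subgroup G) ⊓ centralizer ({y} : Set G)) := by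
  have hp2 : Fact (Nat.Prime 2) := ⟨Nat.prime_two⟩
  obtain ⟨K, hKC, hodd, hnorm, hdec⟩ := dih_K n hn P hP σ hσ hσo
  have hSP : zpowers σ ≤ (P : Subgroup G) := by rw [zpowers_le]; exact hσ
  have hPJ := dih_P_le n hn (P : Subgroup G) hP σ hσ hσo
  obtain ⟨k, hk⟩ := dih_pow_J n hn σ hσo y hy hy1
  have hHC : centralizer ({y} : Set G) ≤ centralizer ({σ ^ (2 ^ (n - 2))} : Set G) := by
    intro h hh
    rw [mem_centralizer_iff] at hh ⊢
    intro z hz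
    rw [Set.mem_singleton_iff] at hz
    subst hz
    have h1 : Commute y h := hh y rfl
    rw [← hk]
    exact (h1.pow_left k).eq
  have hmemH : ∀ h : G, h ∈ centralizer ({y} : Set G) ↔ h * y * h⁻¹ = y := by
    intro h
    rw [mem_centralizer_iff]
    constructor
    · intro hh
      rw [← hh y rfl]
      group
    · intro hh z hz
      rw [Set.mem_singleton_iff] at hz
      subst hz
      calc z * h = (h * z * h⁻¹) * h := by rw [hh]
        _ = h * z := by group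
  obtain ⟨H, hH⟩ : ∃ H : Subgroup G, H = centralizer ({y} : Set G) := ⟨_, rfl⟩
  rw [← hH] at hHC hmemH ⊢
  have hLn : (K.subgroupOf H).Normal := by
    constructor
    intro l hl h
    rw [mem_subgroupOf] at hl ⊢
    exact hnorm _ (hHC h.2) _ hl
  have hLodd : Odd (Nat.card (K.subgroupOf H)) := by
    rw [← inf_subgroupOf_right, Nat.card_congr (Subgroup.subgroupOfEquivOfLe
      (inf_le_right : K ⊓ H ≤ H)).toEquiv]
    exact Odd.of_dvd_nat hodd (Subgroup.card_dvd_of_le inf_le_left)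
  have hQcard : Nat.card ((P : Subgroup G).subgroupOf H) = Nat.card ↥((P : Subgroup G) ⊓ H) := by
    rw [← inf_subgroupOf_right, Nat.card_congr (Subgroup.subgroupOfEquivOfLe
      (inf_le_right : (P : Subgroup G) ⊓ H ≤ H)).toEquiv]
  have hc : (K.subgroupOf H).IsComplement' ((P : Subgroup G).subgroupOf H) := by
    apply isComplement'_of_disjoint_and_mul_eq_univ
    · rw [Subgroup.disjoint_def]
      intro z hzK hzP
      rw [mem_subgroupOf] at hzK hzP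
      exact Subtype.ext (dih_inf_bot hodd P.isPGroup' hzK hzP)
    · rw [Set.eq_univ_iff_forall]
      intro h
      obtain ⟨k', hk', s, hs, hks⟩ := hdec (h : G) (hHC h.2)
      have h1 : (k' * s) * y * (k' * s)⁻¹ = y := by
        rw [← hks]
        exact (hmemH _).mp h.2
      have h2 := dih_conj_proj hodd P.isPGroup' hPJ hnorm k' s y hk' hs (hSP hy)
        (by rw [h1]; exact hSP hy)
      rw [h1] at h2
      have hsH : s ∈ H := (hmemH s).mpr h2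
      have hkH : k' ∈ H := by
        have h3 : k' = (h : G) * s⁻¹ := by rw [hks]; group
        rw [h3]
        exact H.mul_mem h.2 (H.inv_mem hsH)
      refine Set.mem_mul.mpr ⟨⟨k', hkH⟩, ?_, ⟨s, hsH⟩, ?_, ?_⟩
      · exact mem_subgroupOf.mpr hk'
      · exact mem_subgroupOf.mpr hs
      · exact Subtype.ext hks.symm
  have hle : K.subgroupOf H ≤ Cfsg.pPrimeCore 2 H :=
    Cfsg.Agent.Lib.Helper81.le_pPrimeCore 2 _ hLn (Nat.coprime_two_right.mpr hLodd)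
  have h1 := Subgroup.index_dvd_of_le hle
  rw [hc.symm.index_eq_card, hQcard] at h1
  have h2 := Subgroup.card_mul_index (Cfsg.pPrimeCore 2 H)
  have h3 : Nat.card ↥((P : Subgroup G) ⊓ H) ∣ Nat.card H := Subgroup.card_dvd_of_le inf_le_right
  have hco : Nat.Coprime (Nat.card ↥((P : Subgroup G) ⊓ H)) (Nat.card (Cfsg.pPrimeCore 2 H)) := by
    have h4 := Cfsg.Agent.Lib.Helper81.pPrimeCore_coprime (G := H) 2
    have h5 : IsPGroup 2 ↥((P : Subgroup G) ⊓ H) := P.isPGroup'.to_le inf_le_left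
    obtain ⟨j, hj⟩ := IsPGroup.iff_card.mp h5
    rw [hj]
    exact Nat.Coprime.pow_left _ h4.symm
  rw [← h2] at h3
  exact Nat.dvd_antisymm h1 (hco.dvd_of_dvd_mul_left h3)

end Fin

end Cfsg.Agent.Lib.Helper1
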