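import Mathlib
import Cfsg.Agent.S4720
import Cfsg.Agent.Lib.Helper1.DihGrp
import Cfsg.Agent.Lib.Helper1.BrauerAbGram

/-!
# Brauer's theorem on dihedral Sylow 2-subgroups: the block-theoretic inputs (helper1)

* `dih_gram`: the Gram matrix `∑_{χ ∈ B₀} a_χ(ψ - 1) conj a_χ(ψ' - 1) = 2 + [ψ = ψ'] + [ψ = ψ'⁻¹]`
  of the coefficient vectors for the cyclic subgroup `⟨σ⟩`, from the column lemma S4720;
* `dih_orth_reg`: orthogonality to the 2-regular columns; `dih_ne_zero`: non-vanishing at a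
  central element of a Sylow subgroup.
-/

set_option autoImplicit false

namespace Cfsg.Agent.Lib.Helper1

open Cfsg Subgroup
open scoped ComplexConjugate

section

variable {G : Type*} [Group G] [Finite G] {M : Ideal Cfsg.AlgInt}

omit [Finite G] in
/-- `P` normalizes `⟨σ⟩` -/
theorem dih_conj_mem (n : ℕ) (hn : 3 ≤ n) (P : Subgroup G)
    (hP : Nonempty (P ≃* DihedralGroup (2 ^ (n - 1)))) (σ : G) (hσ : σ ∈ P)
    (hσo : orderOf σ = 2 ^ (n - 1)) (x : G) (hx : x ∈ P) (y : G) (hy : y ∈ zpowers σ) :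
    x * y * x⁻¹ ∈ zpowers σ := by
  by_cases hxS : x ∈ zpowers σ
  · exact mul_mem (mul_mem hxS hy) (inv_mem hxS)
  · rw [dih_inv n hn P hP σ hσ hσo x hx hxS y hy]
    exact inv_mem hy

omit [Finite G] in
theorem dih_le_normalizer (n : ℕ) (hn : 3 ≤ n) (P : Subgroup G)
    (hP : Nonempty (P ≃* DihedralGroup (2 ^ (n - 1)))) (σ : G) (hσ : σ ∈ P)
    (hσo : orderOf σ = 2 ^ (n - 1)) : P ≤ normalizer ((zpowers σ : Subgroup G) : Set G) := by
  intro x hx
  rw [mem_normalizer_iff]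
  intro h
  constructor
  · exact dih_conj_mem n hn P hP σ hσ hσo x hx h
  · intro hh
    have h1 := dih_conj_mem n hn P hP σ hσ hσo x⁻¹ (inv_mem hx) _ hh
    have h2 : x⁻¹ * (x * h * x⁻¹) * x⁻¹⁻¹ = h := by group
    rwa [h2] at h1

/-- `λ(C_G(y)) = |C_P(y)|` for `y ∈ ⟨σ⟩ \ {1}` -/
theorem dih_lambda (hM : Cfsg.IsPModular 2 M) (n : ℕ) (hn : 3 ≤ n) (P : Sylow 2 G)
    (hP : Nonempty ((P : Subgroup G) ≃* DihedralGroup (2 ^ (n - 1)))) (σ : G)
    (hσ : σ ∈ (P : Subgroup G)) (hσo : orderOf σ = 2 ^ (n - 1)) (y : G) (hy : y ∈ zpowers σ)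
    (hy1 : y ≠ 1) :
    ∑ᶠ ψ ∈ principalBlock M ↥(centralizer ({y} : Set G)),
      ((charDegree (ψ : ↥(centralizer ({y} : Set G)) → ℂ) : ℚ)) ^ 2 =
      (Nat.card ↥((P : Subgroup G) ⊓ centralizer ({y} : Set G)) : ℚ) := by
  classical
  have hp2 : Fact (Nat.Prime 2) := ⟨Nat.prime_two⟩
  let _ : Fintype ↥(centralizer ({y} : Set G)) := Fintype.ofFinite _
  have := Cfsg.Agent.Lib.Helper4.irr_finite (G := ↥(centralizer ({y} : Set G)))
  let _ : Fintype (IrrCharacter ↥(centralizer ({y} : Set G))) := Fintype.ofFinite _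
  have hidx := dih_index_pPrimeCore n hn P hP σ hσ hσo y hy hy1
  have h5 : IsPGroup 2 ↥((P : Subgroup G) ⊓ centralizer ({y} : Set G)) :=
    P.isPGroup'.to_le inf_le_left
  obtain ⟨j, hj⟩ := IsPGroup.iff_card.mp h5
  rw [hj] at hidx
  have hsum := Cfsg.Agent.Lib.Helper79.principal_sum_of_index hM _ hidx
    (1 : ↥(centralizer ({y} : Set G))) (by rw [orderOf_one]; exact Nat.prime_two.not_dvd_one)
  have h1 : ∀ χ : IrrCharacter ↥(centralizer ({y} : Set G)),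
      (χ : ↥(centralizer ({y} : Set G)) → ℂ) 1 * conj ((χ : ↥(centralizer ({y} : Set G)) → ℂ) 1) =
      (((charDegree (χ : ↥(centralizer ({y} : Set G)) → ℂ) : ℚ) ^ 2 : ℚ) : ℂ) := by
    intro χ
    rw [(Cfsg.Agent.Lib.Helper83.irr_degree χ.2).2]
    push_cast
    rw [Complex.conj_natCast, sq]
  rw [bab_finsum_mem] at hsum ⊢
  rw [Finset.sum_congr rfl (fun χ _ => h1 χ), ← Rat.cast_sum] at hsum
  rw [hj]
  have h2 : (((2 ^ j : ℕ) : ℚ) : ℂ) = ((2 ^ j : ℕ) : ℂ) := by push_cast; rfl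
  rw [← h2] at hsum
  exact Rat.cast_injective hsum

open scoped Classical in
/-- the coefficient vectors are orthogonal to the `p`-regular columns of the principal block
(any `p`-subgroup `Q`) -/
theorem dih_orth_reg {p : ℕ} [Fact p.Prime] (hM : Cfsg.IsPModular p M) (Q : Subgroup G)
    (hQ : IsPGroup p Q) (ψ : ↥Q →* ℂˣ) (g : G) (hg : ¬ p ∣ orderOf g)
    [Fintype (IrrCharacter G)] :
    ∑ χ : IrrCharacter G, (if χ ∈ principalBlock M G then
      babCoef Q (χ : G → ℂ) ψ * conj ((χ : G → ℂ) g) else 0) = 0 := by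
  have hp : p.Prime := Fact.out
  let _ : Fintype G := Fintype.ofFinite G
  let _ : Fintype ↥Q := Fintype.ofFinite _
  have h1 : ∀ χ : IrrCharacter G, (if χ ∈ principalBlock M G then
      babCoef Q (χ : G → ℂ) ψ * conj ((χ : G → ℂ) g) else 0) =
      ∑ y : ↥Q, ((Nat.card ↥Q : ℂ)⁻¹ * (((ψ y⁻¹ : ℂˣ) : ℂ) - 1)) *
        (if χ ∈ principalBlock M G then (χ : G → ℂ) (y : G) * conj ((χ : G → ℂ) g) else 0) := by
    intro χ
    split_ifs with h
    · rw [babCoef_eq_sum, Finset.mul_sum, Finset.sum_mul]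
      refine Finset.sum_congr rfl fun y _ => ?_
      ring
    · simp
  rw [Finset.sum_congr rfl (fun χ _ => h1 χ), Finset.sum_comm]
  apply Finset.sum_eq_zero
  intro y _
  rw [← Finset.mul_sum]
  by_cases hy : y = 1
  · rw [hy]
    simp
  · have hy2 : p ∣ orderOf (y : G) := by
      obtain ⟨i, hyi⟩ := IsPGroup.iff_orderOf.mp hQ y
      rw [Subgroup.orderOf_coe, hyi]
      have hi : i ≠ 0 := by
        rintro rfl
        rw [pow_zero, orderOf_eq_one_iff] at hyi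
        exact hy hyi
      exact dvd_pow_self p hi
    rw [Cfsg.Agent.Lib.Helper81.weak_orth_sum' hM _
      Cfsg.Agent.Lib.Helper79.isPBlock_principalBlock g (y : G) hg hy2, mul_zero]

/-- characters of the principal block do not vanish at an element centralizing a Sylow subgroup -/
theorem dih_ne_zero {p : ℕ} [Fact p.Prime] (hM : Cfsg.IsPModular p M) (P : Sylow p G)
    (χ : IrrCharacter G) (hχ : χ ∈ principalBlock M G) (y : G)
    (hy : (P : Subgroup G) ≤ centralizer ({y} : Set G)) : (χ : G → ℂ) y ≠ 0 := by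
  intro h0
  have h : MemLocalIdeal M (centralChar (fun _ : G => (1 : ℂ)) y - centralChar (χ : G → ℂ) y) :=
    hχ y
  unfold centralChar at h
  rw [h0, mul_zero, zero_div, sub_zero, mul_one, div_one] at h
  have h1 := (Cfsg.Agent.Lib.Helper21.locIdeal_natCast_iff hM _).mp h
  have h2 : (centralizer ({y} : Set G)).index ∣ (P : Subgroup G).index :=
    Subgroup.index_dvd_of_le hy
  exact P.not_dvd_index (h1.trans h2)

open scoped Classical in
/-- **The Gram matrix** of the coefficient vectors for `⟨σ⟩` over the principal block. -/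
theorem dih_gram (hM : Cfsg.IsPModular 2 M) (n : ℕ) (hn : 3 ≤ n) (P : Sylow 2 G)
    (hP : Nonempty ((P : Subgroup G) ≃* DihedralGroup (2 ^ (n - 1)))) (σ : G)
    (hσ : σ ∈ (P : Subgroup G)) (hσo : orderOf σ = 2 ^ (n - 1))
    (ψ ψ' : ↥(zpowers σ) →* ℂˣ) (hψ : ψ ≠ 1) (hψ' : ψ' ≠ 1) :
    ∑ᶠ χ ∈ principalBlock M G, babCoef (zpowers σ) (χ : G → ℂ) ψ *
        conj (babCoef (zpowers σ) (χ : G → ℂ) ψ') =
      2 + (if ψ = ψ' then 1 else 0) + (if ψ = ψ'⁻¹ then 1 else 0) := by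
  have hp2 : Fact (Nat.Prime 2) := ⟨Nat.prime_two⟩
  let _ : Fintype ↥(zpowers σ) := Fintype.ofFinite _
  let _ : Fintype ↥(P : Subgroup G) := Fintype.ofFinite _
  have hSP : zpowers σ ≤ (P : Subgroup G) := by rw [zpowers_le]; exact hσ
  have hS2 : IsPGroup 2 ↥(zpowers σ) := P.isPGroup'.to_le hSP
  have hSpos : (Nat.card ↥(zpowers σ) : ℂ) ≠ 0 := Nat.cast_ne_zero.mpr Nat.card_pos.ne'
  have hcardS : Nat.card ↥(zpowers σ) = 2 ^ (n - 1) := by rw [Nat.card_zpowers, hσo]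
  have hcardP : Nat.card ↥(P : Subgroup G) = 2 * Nat.card ↥(zpowers σ) := by
    rw [dih_card n hn _ hP, hcardS, ← pow_succ']
    congr 1
    omega
  have hσ1 : σ ≠ 1 := by
    intro h
    rw [h, orderOf_one] at hσo
    have h4 : 2 ^ 2 ≤ 2 ^ (n - 1) := Nat.pow_le_pow_right (by norm_num) (by omega)
    omega
  obtain ⟨U, hU⟩ : ∃ U : Set G, U = {u | u ∈ zpowers σ ∧ u ≠ 1} := ⟨_, rfl⟩
  have hUne : U.Nonempty := ⟨σ, by rw [hU]; exact ⟨mem_zpowers σ, hσ1⟩⟩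
  have hUP : U ⊆ ((zpowers σ : Subgroup G) : Set G) := by rw [hU]; exact fun u hu => hu.1
  have hUN : ∀ x ∈ (P : Subgroup G), ∀ u ∈ U, x * u * x⁻¹ ∈ U := by
    intro x hx u hu
    rw [hU] at hu ⊢
    exact ⟨dih_conj_mem n hn _ hP σ hσ hσo x hx u hu.1, fun h => hu.2 (conj_eq_one_iff.mp h)⟩
  have hfus : ∀ u ∈ U, ∀ g : G, g * u * g⁻¹ ∈ ((zpowers σ : Subgroup G) : Set G) →
      ∃ x ∈ (P : Subgroup G), x * u * x⁻¹ = g * u * g⁻¹ := by
    intro u hu g hg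
    rw [hU] at hu
    exact dih_fusion n hn P hP σ hσ hσo u hu.1 hu.2 g hg
  have hw : ∀ y ∈ U, (∑ᶠ ψ ∈ principalBlock M ↥(centralizer ({y} : Set G)),
      ((charDegree (ψ : ↥(centralizer ({y} : Set G)) → ℂ) : ℚ)) ^ 2) =
      (1 : ℚ) * (Nat.card ↥((P : Subgroup G) ⊓ centralizer ({y} : Set G)) : ℚ) := by
    intro y hy
    rw [hU] at hy
    rw [dih_lambda hM n hn P hP σ hσ hσo y hy.1 hy.2, one_mul]
  have hθ : ∀ φ : ↥(zpowers σ) →* ℂˣ,
      IsGeneralizedCharacter ↥(zpowers σ) (fun y => ((φ y : ℂˣ) : ℂ) - 1) := by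
    intro φ
    exact ⟨fun y => ((φ y : ℂˣ) : ℂ), fun _ => 1,
      Cfsg.Agent.Lib.Helper4.isCharacter_of_irr (babLin φ),
      Cfsg.Agent.Lib.Helper4.isCharacter_of_irr (Cfsg.Agent.Lib.Helper83.trivIrr _), rfl⟩
  have hθU : ∀ y : ↥(zpowers σ), (y : G) ∉ U → ((ψ y : ℂˣ) : ℂ) - 1 = 0 := by
    intro y hy
    have hy1 : y = 1 := by
      by_contra h
      apply hy
      rw [hU]
      exact ⟨y.2, fun h1 => h (Subtype.ext h1)⟩
    rw [hy1, map_one, Units.val_one, sub_self]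
  have key := Cfsg.Agent.S4720.result 2 M hM (zpowers σ) hS2 (P : Subgroup G) hSP
    (dih_le_normalizer n hn _ hP σ hσ hσo) U hUne hUP hUN hfus 1 hw
    (fun y => ((ψ y : ℂˣ) : ℂ) - 1) (fun y => ((ψ' y : ℂˣ) : ℂ) - 1) (hθ ψ) (hθ ψ') hθU
  have h1 : ∀ (x : ↥(P : Subgroup G)) (y : ↥(zpowers σ)),
      extendByZero (zpowers σ) (fun y => ((ψ' y : ℂˣ) : ℂ) - 1) ((x : G) * (y : G) * (x : G)⁻¹) =
      (((ψ'⁻¹ y : ℂˣ) : ℂ) - 1) + (if (x : G) ∈ zpowers σ then 1 else 0) *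
        ((((ψ' y : ℂˣ) : ℂ) - 1) - (((ψ'⁻¹ y : ℂˣ) : ℂ) - 1)) := by
    intro x y
    by_cases hx : (x : G) ∈ zpowers σ
    · rw [if_pos hx, one_mul]
      have h2 : (x : G) * (y : G) * (x : G)⁻¹ = (y : G) := by
        obtain ⟨a, ha⟩ := mem_zpowers_iff.mp hx
        obtain ⟨b, hb⟩ := mem_zpowers_iff.mp y.2
        rw [← ha, ← hb, ← zpow_add, ← zpow_neg, ← zpow_add]
        congr 1
        ring
      rw [h2, Cfsg.Agent.Lib.Helper4.extendByZero_apply_mem]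
      ring
    · rw [if_neg hx, zero_mul, add_zero]
      have h2 : (x : G) * (y : G) * (x : G)⁻¹ = ((y⁻¹ : ↥(zpowers σ)) : G) := by
        rw [dih_inv n hn _ hP σ hσ hσo x x.2 hx y y.2]
        rfl
      rw [h2, Cfsg.Agent.Lib.Helper4.extendByZero_apply_mem, MonoidHom.inv_apply, map_inv]
  have hcount : (Finset.univ.filter (fun x : ↥(P : Subgroup G) => (x : G) ∈ zpowers σ)).card =
      Nat.card ↥(zpowers σ) := by
    rw [← Nat.card_congr (Subgroup.subgroupOfEquivOfLe hSP).toEquiv, Nat.card_eq_fintype_card,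
      Fintype.card_subtype]
    congr 1
  have hinner : ∀ y : ↥(zpowers σ), ∑ᶠ x : ↥(P : Subgroup G),
      extendByZero (zpowers σ) (fun y => ((ψ' y : ℂˣ) : ℂ) - 1) ((x : G) * (y : G) * (x : G)⁻¹) =
      (Nat.card ↥(zpowers σ) : ℂ) * ((((ψ' y : ℂˣ) : ℂ) - 1) + (((ψ'⁻¹ y : ℂˣ) : ℂ) - 1)) := by
    intro y
    rw [finsum_eq_sum_of_fintype, Finset.sum_congr rfl (fun x _ => h1 x y), Finset.sum_add_distrib,
      Finset.sum_const, Finset.card_univ, ← Nat.card_eq_fintype_card, ← Finset.sum_mul,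
      Finset.sum_boole, hcount, hcardP]
    ring
  have hψ'inv : ψ'⁻¹ ≠ 1 := by
    intro h
    apply hψ'
    apply MonoidHom.ext
    intro y
    have h2 := congrArg (fun f : ↥(zpowers σ) →* ℂˣ => f y) h
    simp only [MonoidHom.inv_apply, MonoidHom.one_apply, inv_eq_one] at h2
    rw [h2, MonoidHom.one_apply]
  have hR : ∑ᶠ y : ↥(zpowers σ), (((ψ y : ℂˣ) : ℂ) - 1) *
      conj (∑ᶠ x : ↥(P : Subgroup G),
        extendByZero (zpowers σ) (fun y => ((ψ' y : ℂˣ) : ℂ) - 1)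
          ((x : G) * (y : G) * (x : G)⁻¹)) =
      (Nat.card ↥(zpowers σ) : ℂ) * ((Nat.card ↥(zpowers σ) : ℂ) *
        (2 + (if ψ = ψ' then 1 else 0) + (if ψ = ψ'⁻¹ then 1 else 0))) := by
    rw [finsum_eq_sum_of_fintype]
    have h3 : ∀ y : ↥(zpowers σ), (((ψ y : ℂˣ) : ℂ) - 1) *
        conj (∑ᶠ x : ↥(P : Subgroup G),
          extendByZero (zpowers σ) (fun y => ((ψ' y : ℂˣ) : ℂ) - 1)
            ((x : G) * (y : G) * (x : G)⁻¹)) =
        (Nat.card ↥(zpowers σ) : ℂ) * ((((ψ y : ℂˣ) : ℂ) - 1) * conj (((ψ' y : ℂˣ) : ℂ) - 1) +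
          (((ψ y : ℂˣ) : ℂ) - 1) * conj (((ψ'⁻¹ y : ℂˣ) : ℂ) - 1)) := by
      intro y
      rw [hinner y, map_mul, map_add, Complex.conj_natCast]
      ring
    rw [Finset.sum_congr rfl (fun y _ => h3 y), ← Finset.mul_sum, Finset.sum_add_distrib,
      bab_inner_sub_one ψ ψ' hψ hψ', bab_inner_sub_one ψ ψ'⁻¹ hψ hψ'inv]
    ring
  rw [hR] at key
  have hL : ∑ᶠ χ ∈ principalBlock M G, babCoef (zpowers σ) (χ : G → ℂ) ψ *
      conj (babCoef (zpowers σ) (χ : G → ℂ) ψ') =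
      (((1 : ℚ) : ℂ) / (Nat.card ↥(zpowers σ) : ℂ) ^ 2) *
      ((Nat.card ↥(zpowers σ) : ℂ) * ((Nat.card ↥(zpowers σ) : ℂ) *
        (2 + (if ψ = ψ' then 1 else 0) + (if ψ = ψ'⁻¹ then 1 else 0)))) := key
  rw [hL]
  push_cast
  field_simp
  split_ifs <;> rfl

end

end Cfsg.Agent.Lib.Helper1
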