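import Mathlib
import Cfsg.Agent.Lib.Helper1.DihGram
import Cfsg.Agent.Lib.Helper1.DihCore

/-!
# Brauer's theorem on dihedral Sylow 2-subgroups: the structure of the coefficient vectors
(helper1)
-/

set_option autoImplicit false

namespace Cfsg.Agent.Lib.Helper1

open Cfsg Subgroup
open scoped ComplexConjugate

section

variable {G : Type*} [Group G] [Finite G] {M : Ideal Cfsg.AlgInt}

open scoped Classical in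
/-- **Structure of the coefficient vectors** `χ ↦ a_χ(ψ - 1)` (`ψ` a linear character of `⟨σ⟩`)
on the principal 2-block of a group with dihedral Sylow 2-subgroups. -/
theorem dih_struct (hM : Cfsg.IsPModular 2 M) (n : ℕ) (hn : 3 ≤ n) (P : Sylow 2 G)
    (hP : Nonempty ((P : Subgroup G) ≃* DihedralGroup (2 ^ (n - 1)))) (σ : G)
    (hσ : σ ∈ (P : Subgroup G)) (hσo : orderOf σ = 2 ^ (n - 1)) [Fintype (IrrCharacter G)]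
    (lam : ↥(zpowers σ) →* ℂˣ) (hlam1 : lam ≠ 1) (hlam2 : lam⁻¹ = lam)
    (hlamU : ∀ ψ : ↥(zpowers σ) →* ℂˣ, ψ⁻¹ = ψ → ψ = 1 ∨ ψ = lam)
    (hcase : (∀ ψ ψ' : ↥(zpowers σ) →* ℂˣ, ψ ≠ 1 → ψ ≠ lam → ψ' ≠ 1 → ψ' ≠ lam →
        (ψ = ψ' ∨ ψ = ψ'⁻¹)) ∨
      ∃ ψ1 ψ2 ψ3 : ↥(zpowers σ) →* ℂˣ, (ψ1 ≠ 1 ∧ ψ1 ≠ lam) ∧ (ψ2 ≠ 1 ∧ ψ2 ≠ lam) ∧
        (ψ3 ≠ 1 ∧ ψ3 ≠ lam) ∧ ¬ (ψ1 = ψ2 ∨ ψ1 = ψ2⁻¹) ∧ ¬ (ψ1 = ψ3 ∨ ψ1 = ψ3⁻¹) ∧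
        ¬ (ψ2 = ψ3 ∨ ψ2 = ψ3⁻¹))
    (hex : ∃ ψ0 : ↥(zpowers σ) →* ℂˣ, ψ0 ≠ 1 ∧ ψ0 ≠ lam) :
    ∃ (ε s2 s3 : ℤ) (χ1 χ2 χ3 : IrrCharacter G)
      (Θ : (↥(zpowers σ) →* ℂˣ) → IrrCharacter G),
      (ε = 1 ∨ ε = -1) ∧ (s2 = 1 ∨ s2 = -1) ∧ (s3 = 1 ∨ s3 = -1) ∧
      χ1 ≠ Cfsg.Agent.Lib.Helper83.trivIrr G ∧ χ2 ≠ Cfsg.Agent.Lib.Helper83.trivIrr G ∧
      χ3 ≠ Cfsg.Agent.Lib.Helper83.trivIrr G ∧ χ1 ≠ χ2 ∧ χ1 ≠ χ3 ∧ χ2 ≠ χ3 ∧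
      χ1 ∈ principalBlock M G ∧ χ2 ∈ principalBlock M G ∧ χ3 ∈ principalBlock M G ∧
      (∀ ψ, ψ ≠ 1 → ψ ≠ lam → Θ ψ ∈ principalBlock M G ∧
        Θ ψ ≠ Cfsg.Agent.Lib.Helper83.trivIrr G ∧ Θ ψ ≠ χ1 ∧ Θ ψ ≠ χ2 ∧ Θ ψ ≠ χ3) ∧
      (∀ ψ, ψ ≠ 1 → ψ ≠ lam → ∀ ψ', ψ' ≠ 1 → ψ' ≠ lam →
        (Θ ψ = Θ ψ' ↔ (ψ = ψ' ∨ ψ = ψ'⁻¹))) ∧
      (∀ ψ, ψ ≠ 1 → ψ ≠ lam → ∀ χ ∈ principalBlock M G,
        babCoef (zpowers σ) (χ : G → ℂ) ψ =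
          -(if χ = Cfsg.Agent.Lib.Helper83.trivIrr G then 1 else 0) -
            (ε : ℂ) * (if χ = χ1 then 1 else 0) + (ε : ℂ) * (if χ = Θ ψ then 1 else 0)) ∧
      (∀ χ ∈ principalBlock M G,
        babCoef (zpowers σ) (χ : G → ℂ) lam =
          -(if χ = Cfsg.Agent.Lib.Helper83.trivIrr G then 1 else 0) -
            (ε : ℂ) * (if χ = χ1 then 1 else 0) + (s2 : ℂ) * (if χ = χ2 then 1 else 0) +
            (s3 : ℂ) * (if χ = χ3 then 1 else 0)) ∧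
      (∀ ψ, ψ ≠ 1 → ψ ≠ lam → ∀ g : G, ¬ 2 ∣ orderOf g →
        -1 - (ε : ℂ) * conj ((χ1 : G → ℂ) g) + (ε : ℂ) * conj ((Θ ψ : G → ℂ) g) = 0) ∧
      (∀ g : G, ¬ 2 ∣ orderOf g →
        -1 - (ε : ℂ) * conj ((χ1 : G → ℂ) g) + (s2 : ℂ) * conj ((χ2 : G → ℂ) g) +
          (s3 : ℂ) * conj ((χ3 : G → ℂ) g) = 0) := by
  have hp2 : Fact (Nat.Prime 2) := ⟨Nat.prime_two⟩
  have hSP : zpowers σ ≤ (P : Subgroup G) := by rw [zpowers_le]; exact hσ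
  have hS2 : IsPGroup 2 ↥(zpowers σ) := P.isPGroup'.to_le hSP
  choose kf hkf using (fun (χ : IrrCharacter G) (ψ : ↥(zpowers σ) →* ℂˣ) =>
    babCoef_int (zpowers σ) χ ψ)
  obtain ⟨c, hcdef⟩ : ∃ c : (↥(zpowers σ) →* ℂˣ) → IrrCharacter G → ℤ,
      c = fun ψ χ => if χ ∈ principalBlock M G then kf χ ψ else 0 := ⟨_, rfl⟩
  have hcB : ∀ ψ χ, χ ∈ principalBlock M G →
      babCoef (zpowers σ) (χ : G → ℂ) ψ = (c ψ χ : ℂ) := by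
    intro ψ χ h
    rw [hcdef]
    simp only [if_pos h]
    exact hkf χ ψ
  have hcnB : ∀ ψ χ, χ ∉ principalBlock M G → c ψ χ = 0 := by
    intro ψ χ h
    rw [hcdef]
    simp only [if_neg h]
  have hdegpos : ∀ χ : IrrCharacter G, 0 < (charDegree (χ : G → ℂ) : ℤ) := fun χ => by
    exact_mod_cast (Cfsg.Agent.Lib.Helper83.irr_degree χ.2).1
  have hsumZ : ∀ ψ ψ' : ↥(zpowers σ) →* ℂˣ, ((∑ χ, c ψ χ * c ψ' χ : ℤ) : ℂ) =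
      ∑ᶠ χ ∈ principalBlock M G, babCoef (zpowers σ) (χ : G → ℂ) ψ *
        conj (babCoef (zpowers σ) (χ : G → ℂ) ψ') := by
    intro ψ ψ'
    rw [bab_finsum_mem, Finset.sum_filter]
    push_cast
    refine Finset.sum_congr rfl fun χ _ => ?_
    split_ifs with h
    · rw [hcB ψ χ h, hcB ψ' χ h, map_intCast]
    · rw [hcnB ψ χ h]
      simp
  have horth : ∀ (ψ : ↥(zpowers σ) →* ℂˣ) (g : G), ¬ 2 ∣ orderOf g →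
      ∑ χ, (c ψ χ : ℂ) * conj ((χ : G → ℂ) g) = 0 := by
    intro ψ g hg
    rw [← dih_orth_reg hM (zpowers σ) hS2 ψ g hg]
    refine Finset.sum_congr rfl fun χ _ => ?_
    split_ifs with h
    · rw [hcB ψ χ h]
    · rw [hcnB ψ χ h]
      simp
  have hself : ∀ ψ : ↥(zpowers σ) →* ℂˣ, ψ ≠ 1 → ψ ≠ lam → ψ ≠ ψ⁻¹ := by
    intro ψ h1 h2 h
    rcases hlamU ψ h.symm with h3 | h3
    · exact h1 h3
    · exact h2 h3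
  have hgram : ∀ ψ ψ' : ↥(zpowers σ) →* ℂˣ, ψ ≠ 1 → ψ' ≠ 1 →
      ∑ χ, c ψ χ * c ψ' χ = 2 + (if ψ = ψ' then 1 else 0) + (if ψ = ψ'⁻¹ then 1 else 0) := by
    intro ψ ψ' hψ hψ'
    have h1 := dih_gram hM n hn P hP σ hσ hσo ψ ψ' hψ hψ'
    rw [← hsumZ] at h1
    have h2 : ((2 : ℂ) + (if ψ = ψ' then 1 else 0) + (if ψ = ψ'⁻¹ then 1 else 0)) =
        (((2 + (if ψ = ψ' then 1 else 0) + (if ψ = ψ'⁻¹ then 1 else 0) : ℤ)) : ℂ) := by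
      push_cast
      rfl
    rw [h2] at h1
    exact_mod_cast h1
  have hG1 : ∀ ψ ∈ {ψ : ↥(zpowers σ) →* ℂˣ | ψ ≠ 1 ∧ ψ ≠ lam},
      ∀ ψ' ∈ {ψ : ↥(zpowers σ) →* ℂˣ | ψ ≠ 1 ∧ ψ ≠ lam}, (ψ = ψ' ∨ ψ = ψ'⁻¹) →
      ∑ χ, c ψ χ * c ψ' χ = 3 := by
    intro ψ hψ ψ' hψ' hR
    rw [hgram ψ ψ' hψ.1 hψ'.1]
    rcases hR with h | h
    · rw [if_pos h, if_neg (fun h' => hself ψ' hψ'.1 hψ'.2 (h.symm.trans h'))]
      norm_num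
    · rw [if_pos h, if_neg (fun h' => hself ψ' hψ'.1 hψ'.2 (h'.symm.trans h))]
      norm_num
  have hG0 : ∀ ψ ∈ {ψ : ↥(zpowers σ) →* ℂˣ | ψ ≠ 1 ∧ ψ ≠ lam},
      ∀ ψ' ∈ {ψ : ↥(zpowers σ) →* ℂˣ | ψ ≠ 1 ∧ ψ ≠ lam}, ¬ (ψ = ψ' ∨ ψ = ψ'⁻¹) →
      ∑ χ, c ψ χ * c ψ' χ = 2 := by
    intro ψ hψ ψ' hψ' hR
    push Not at hR
    rw [hgram ψ ψ' hψ.1 hψ'.1, if_neg hR.1, if_neg hR.2]
    norm_num
  have hL : ∑ χ, c lam χ * c lam χ = 4 := by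
    rw [hgram lam lam hlam1 hlam1, if_pos rfl, if_pos hlam2.symm]
    norm_num
  have hLc : ∀ ψ ∈ {ψ : ↥(zpowers σ) →* ℂˣ | ψ ≠ 1 ∧ ψ ≠ lam},
      ∑ χ, c lam χ * c ψ χ = 2 := by
    intro ψ hψ
    rw [hgram lam ψ hlam1 hψ.1, if_neg (Ne.symm hψ.2), if_neg]
    · norm_num
    · intro h
      apply hψ.2
      rw [← inv_inv ψ, ← h, hlam2]
  have hDall : ∀ ψ : ↥(zpowers σ) →* ℂˣ,
      ∑ χ, c ψ χ * (charDegree (χ : G → ℂ) : ℤ) = 0 := by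
    intro ψ
    have h1 := horth ψ 1 (by rw [orderOf_one]; exact Nat.prime_two.not_dvd_one)
    have h2 : ∀ χ : IrrCharacter G, (c ψ χ : ℂ) * conj ((χ : G → ℂ) 1) =
        ((c ψ χ * (charDegree (χ : G → ℂ) : ℤ) : ℤ) : ℂ) := by
      intro χ
      rw [(Cfsg.Agent.Lib.Helper83.irr_degree χ.2).2, Complex.conj_natCast]
      push_cast
      rfl
    rw [Finset.sum_congr rfl (fun χ _ => h2 χ), ← Int.cast_sum] at h1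
    exact_mod_cast h1
  have htriv : ∀ ψ : ↥(zpowers σ) →* ℂˣ, ψ ≠ 1 →
      c ψ (Cfsg.Agent.Lib.Helper83.trivIrr G) = -1 := by
    intro ψ hψ
    have h1 := hcB ψ _ (Cfsg.Agent.Lib.Helper79.trivIrr_mem_principalBlock (G := G) hM)
    have h2 : babCoef (zpowers σ) ((Cfsg.Agent.Lib.Helper83.trivIrr G : IrrCharacter G) : G → ℂ) ψ
        = -1 := babCoef_triv (zpowers σ) ψ hψ
    rw [h2] at h1
    exact_mod_cast h1.symm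
  have hdeg1 : (charDegree ((Cfsg.Agent.Lib.Helper83.trivIrr G : IrrCharacter G) : G → ℂ) : ℤ)
      = 1 := by
    have h1 := (Cfsg.Agent.Lib.Helper83.irr_degree (Cfsg.Agent.Lib.Helper83.trivIrr G).2).2
    rw [Cfsg.Agent.Lib.Helper83.trivIrr_apply] at h1
    exact_mod_cast h1.symm
  obtain ⟨ψ0, hψ0⟩ := hex
  obtain ⟨ε, s2, s3, χ1, χ2, χ3, Θ, hε, hs2, hs3, h11, h21, h31, h12, h13, h23, hΘne, hΘiff,
      hcform, hclform⟩ :=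
    dih_core {ψ : ↥(zpowers σ) →* ℂˣ | ψ ≠ 1 ∧ ψ ≠ lam} (fun ψ ψ' => ψ = ψ' ∨ ψ = ψ'⁻¹) c
      (c lam) (fun χ => (charDegree (χ : G → ℂ) : ℤ)) (Cfsg.Agent.Lib.Helper83.trivIrr G)
      hdegpos hdeg1 hG1 hG0 (fun ψ _ => Or.inl rfl) hL hLc (fun ψ _ => hDall ψ) (hDall lam)
      (fun ψ hψ => htriv ψ hψ.1) (htriv lam hlam1) ⟨ψ0, hψ0⟩ (by
        rcases hcase with h | ⟨ψ1, ψ2, ψ3, h1, h2, h3, h12, h13, h23⟩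
        · left
          intro ψ hψ ψ' hψ'
          exact h ψ ψ' hψ.1 hψ.2 hψ'.1 hψ'.2
        · right
          exact ⟨ψ1, h1, ψ2, h2, ψ3, h3, h12, h13, h23⟩)
  have hε0 : ε ≠ 0 := by rcases hε with h | h <;> rw [h] <;> norm_num
  have hs20 : s2 ≠ 0 := by rcases hs2 with h | h <;> rw [h] <;> norm_num
  have hs30 : s3 ≠ 0 := by rcases hs3 with h | h <;> rw [h] <;> norm_num
  have hmemB : ∀ ψ χ, c ψ χ ≠ 0 → χ ∈ principalBlock M G := by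
    intro ψ χ h
    by_contra hχ
    exact h (hcnB ψ χ hχ)
  have hχ1B : χ1 ∈ principalBlock M G := by
    apply hmemB ψ0
    rw [hcform ψ0 hψ0 χ1, if_neg h11, if_pos rfl, if_neg (Ne.symm (hΘne ψ0 hψ0).2.1)]
    simpa using hε0
  have hχ2B : χ2 ∈ principalBlock M G := by
    apply hmemB lam
    rw [hclform χ2, if_neg h21, if_neg (Ne.symm h12), if_pos rfl, if_neg h23]
    simpa using hs20
  have hχ3B : χ3 ∈ principalBlock M G := by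
    apply hmemB lam
    rw [hclform χ3, if_neg h31, if_neg (Ne.symm h13), if_neg (Ne.symm h23), if_pos rfl]
    simpa using hs30
  have hΘB : ∀ ψ, ψ ≠ 1 → ψ ≠ lam → Θ ψ ∈ principalBlock M G := by
    intro ψ h1 h2
    apply hmemB ψ
    rw [hcform ψ ⟨h1, h2⟩ (Θ ψ), if_neg (hΘne ψ ⟨h1, h2⟩).1, if_neg (hΘne ψ ⟨h1, h2⟩).2.1,
      if_pos rfl]
    simpa using hε0
  refine ⟨ε, s2, s3, χ1, χ2, χ3, Θ, hε, hs2, hs3, h11, h21, h31, h12, h13, h23, hχ1B, hχ2B, hχ3B,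
    fun ψ h1 h2 => ⟨hΘB ψ h1 h2, hΘne ψ ⟨h1, h2⟩⟩,
    fun ψ h1 h2 ψ' h1' h2' => hΘiff ψ ⟨h1, h2⟩ ψ' ⟨h1', h2'⟩, ?_, ?_, ?_, ?_⟩
  · intro ψ h1 h2 χ hχ
    rw [hcB ψ χ hχ, hcform ψ ⟨h1, h2⟩ χ]
    push_cast
    rfl
  · intro χ hχ
    rw [hcB lam χ hχ, hclform χ]
    push_cast
    rfl
  · intro ψ h1 h2 g hg
    have h3 := horth ψ g hg
    have h4 : ∀ χ : IrrCharacter G, (c ψ χ : ℂ) * conj ((χ : G → ℂ) g) =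
        ((-1 : ℂ) * (if χ = Cfsg.Agent.Lib.Helper83.trivIrr G then 1 else 0) +
          (-(ε : ℂ)) * (if χ = χ1 then 1 else 0) + (ε : ℂ) * (if χ = Θ ψ then 1 else 0)) *
          conj ((χ : G → ℂ) g) := by
      intro χ
      rw [hcform ψ ⟨h1, h2⟩ χ]
      push_cast
      ring
    rw [Finset.sum_congr rfl (fun χ _ => h4 χ), dih_lin3,
      Cfsg.Agent.Lib.Helper83.trivIrr_apply, map_one] at h3
    rw [← h3]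
    ring
  · intro g hg
    have h3 := horth lam g hg
    have h4 : ∀ χ : IrrCharacter G, (c lam χ : ℂ) * conj ((χ : G → ℂ) g) =
        ((-1 : ℂ) * (if χ = Cfsg.Agent.Lib.Helper83.trivIrr G then 1 else 0) +
          (-(ε : ℂ)) * (if χ = χ1 then 1 else 0) + (s2 : ℂ) * (if χ = χ2 then 1 else 0) +
          (s3 : ℂ) * (if χ = χ3 then 1 else 0)) * conj ((χ : G → ℂ) g) := by
      intro χ
      rw [hclform χ]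
      push_cast
      ring
    rw [Finset.sum_congr rfl (fun χ _ => h4 χ), dih_lin4,
      Cfsg.Agent.Lib.Helper83.trivIrr_apply, map_one] at h3
    rw [← h3]
    ring

end

end Cfsg.Agent.Lib.Helper1
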