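import Mathlib

/-!
# Linear characters of a cyclic subgroup `⟨σ⟩` (helper1)

* `dih_hom`: the characters of `⟨σ⟩` are the powers of one character `ψ₁` with `ψ₁(σ) = ζ`;
* `dih_hom_two`: the combinatorics of the powers of a generator of a cyclic group of order
  `2 ^ (n - 1)`.
-/

set_option autoImplicit false

namespace Cfsg.Agent.Lib.Helper1

open Subgroup

theorem dih_hom {G : Type*} [Group G] [Finite G] (σ : G) (m : ℕ) (hm : 0 < m)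
    (hσo : orderOf σ = m) (ζ : ℂ) (hζ : IsPrimitiveRoot ζ m) :
    ∃ ψ₁ : ↥(zpowers σ) →* ℂˣ,
      (∀ k l : ℕ, (((ψ₁ ^ k) ⟨σ ^ l, pow_mem (mem_zpowers σ) l⟩ : ℂˣ) : ℂ) = ζ ^ (k * l)) ∧
      (∀ ψ : ↥(zpowers σ) →* ℂˣ, ∃ k < m, ψ = ψ₁ ^ k) ∧
      (∀ j k : ℕ, j < m → k < m → ψ₁ ^ j = ψ₁ ^ k → j = k) ∧
      ψ₁ ^ m = 1 := by
  have hm' : NeZero m := ⟨hm.ne'⟩
  have hζ0 : ζ ≠ 0 := hζ.ne_zero hm.ne'
  obtain ⟨u, hu⟩ : ∃ u : ℂˣ, (u : ℂ) = ζ := ⟨Units.mk0 ζ hζ0, rfl⟩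
  have hou : orderOf u = m := by
    rw [← orderOf_units, hu]
    exact hζ.eq_orderOf.symm
  obtain ⟨σ', hσ'⟩ : ∃ σ' : ↥(zpowers σ), (σ' : G) = σ := ⟨⟨σ, mem_zpowers σ⟩, rfl⟩
  have hoσ' : orderOf σ' = m := by
    rw [← Subgroup.orderOf_coe, hσ', hσo]
  have hgen : ∀ x : ↥(zpowers σ), x ∈ zpowers σ' := by
    intro x
    obtain ⟨i, hi⟩ := mem_zpowers_iff.mp x.2
    refine mem_zpowers_iff.mpr ⟨i, ?_⟩
    apply Subtype.ext
    rw [Subgroup.coe_zpow, hσ', hi]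
  obtain ⟨ψ₁, hψ₁⟩ : ∃ ψ₁ : ↥(zpowers σ) →* ℂˣ, ψ₁ σ' = u :=
    ⟨monoidHomOfForallMemZpowers hgen (g' := u) (by rw [hou, hoσ']),
      monoidHomOfForallMemZpowers_apply_gen hgen _⟩
  have hpowmem : ∀ l : ℕ, (⟨σ ^ l, pow_mem (mem_zpowers σ) l⟩ : ↥(zpowers σ)) = σ' ^ l := by
    intro l
    apply Subtype.ext
    rw [Subgroup.coe_pow, hσ']
  have hxm : ∀ x : ↥(zpowers σ), x ^ m = 1 := by
    intro x
    have h1 : Nat.card ↥(zpowers σ) = m := by rw [Nat.card_zpowers, hσo]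
    rw [← h1]
    exact pow_card_eq_one'
  refine ⟨ψ₁, ?_, ?_, ?_, ?_⟩
  · intro k l
    rw [hpowmem, MonoidHom.pow_apply, map_pow, hψ₁, Units.val_pow_eq_pow_val,
      Units.val_pow_eq_pow_val, hu, ← pow_mul, mul_comm]
  · intro ψ
    have h1 : ((ψ σ' : ℂˣ) : ℂ) ^ m = 1 := by
      rw [← Units.val_pow_eq_pow_val, ← map_pow, hxm, map_one, Units.val_one]
    obtain ⟨k, hk, hk'⟩ := hζ.eq_pow_of_pow_eq_one h1
    refine ⟨k, hk, ?_⟩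
    have h2 : ψ σ' = u ^ k := by
      apply Units.ext
      rw [Units.val_pow_eq_pow_val, hu, hk']
    apply MonoidHom.ext
    intro x
    obtain ⟨i, rfl⟩ := mem_zpowers_iff.mp (hgen x)
    rw [MonoidHom.pow_apply, map_zpow, map_zpow, hψ₁, h2, ← zpow_natCast, ← zpow_natCast,
      ← zpow_mul, ← zpow_mul, mul_comm]
  · intro j k hj hk h
    have h1 := congrArg (fun f : ↥(zpowers σ) →* ℂˣ => ((f σ' : ℂˣ) : ℂ)) h
    simp only [MonoidHom.pow_apply, hψ₁, Units.val_pow_eq_pow_val, hu] at h1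
    exact hζ.pow_inj hj hk h1
  · apply MonoidHom.ext
    intro x
    rw [MonoidHom.pow_apply, ← map_pow, hxm, map_one, MonoidHom.one_apply]

theorem dih_hom_two {Ψ : Type*} [CommGroup Ψ] (n : ℕ) (hn : 3 ≤ n) (ψ₁ : Ψ)
    (hsurj : ∀ ψ : Ψ, ∃ k < 2 ^ (n - 1), ψ = ψ₁ ^ k)
    (hinj : ∀ j k : ℕ, j < 2 ^ (n - 1) → k < 2 ^ (n - 1) → ψ₁ ^ j = ψ₁ ^ k → j = k)
    (hper : ψ₁ ^ (2 ^ (n - 1)) = 1) :
    ψ₁ ^ (2 ^ (n - 2)) ≠ 1 ∧ (ψ₁ ^ (2 ^ (n - 2)))⁻¹ = ψ₁ ^ (2 ^ (n - 2)) ∧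
    (∀ ψ : Ψ, ψ⁻¹ = ψ → ψ = 1 ∨ ψ = ψ₁ ^ (2 ^ (n - 2))) ∧
    (∀ k : ℕ, 0 < k → k < 2 ^ (n - 2) → ψ₁ ^ k ≠ 1 ∧ ψ₁ ^ k ≠ ψ₁ ^ (2 ^ (n - 2))) ∧
    (∀ j k : ℕ, 0 < j → j < 2 ^ (n - 2) → 0 < k → k < 2 ^ (n - 2) →
      (ψ₁ ^ j = ψ₁ ^ k ∨ ψ₁ ^ j = (ψ₁ ^ k)⁻¹) → j = k) ∧
    (∀ ψ : Ψ, ψ ≠ 1 → ψ ≠ ψ₁ ^ (2 ^ (n - 2)) →
      ∃ k : ℕ, 0 < k ∧ k < 2 ^ (n - 2) ∧ (ψ = ψ₁ ^ k ∨ ψ = (ψ₁ ^ k)⁻¹)) := by
  obtain ⟨h, hh⟩ : ∃ h : ℕ, h = 2 ^ (n - 2) := ⟨_, rfl⟩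
  have hm : 2 ^ (n - 1) = 2 * h := by
    rw [hh, ← pow_succ']
    congr 1
    omega
  have hh2 : 2 ≤ h := by
    rw [hh]
    calc 2 = 2 ^ 1 := by norm_num
      _ ≤ 2 ^ (n - 2) := Nat.pow_le_pow_right (by norm_num) (by omega)
  rw [hm] at hsurj hinj hper
  rw [← hh]
  have hinj0 : ∀ k : ℕ, k < 2 * h → ψ₁ ^ k = 1 → k = 0 := by
    intro k hk h1
    exact hinj k 0 hk (by omega) (by rw [h1, pow_zero])
  have hlam2 : ψ₁ ^ h * ψ₁ ^ h = 1 := by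
    rw [← pow_add, ← two_mul, hper]
  refine ⟨?_, ?_, ?_, ?_, ?_, ?_⟩
  · intro h1
    have := hinj0 h (by omega) h1
    omega
  · exact inv_eq_of_mul_eq_one_right hlam2
  · intro ψ hψ
    obtain ⟨k, hk, rfl⟩ := hsurj ψ
    have h1 : ψ₁ ^ (2 * k) = 1 := by
      rw [two_mul, pow_add]
      nth_rewrite 1 [← hψ]
      exact inv_mul_cancel _
    by_cases hk2 : 2 * k < 2 * h
    · have := hinj0 (2 * k) hk2 h1
      left
      have hk0 : k = 0 := by omega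
      rw [hk0, pow_zero]
    · have h2 : ψ₁ ^ (2 * k - 2 * h) = 1 := by
        have h3 : 2 * k = 2 * h + (2 * k - 2 * h) := by omega
        rw [h3, pow_add, hper, one_mul] at h1
        exact h1
      have := hinj0 (2 * k - 2 * h) (by omega) h2
      right
      have hkh : k = h := by omega
      rw [hkh]
  · intro k hk0 hk
    constructor
    · intro h1
      have := hinj0 k (by omega) h1
      omega
    · intro h1
      have := hinj k h (by omega) (by omega) h1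
      omega
  · intro j k hj0 hj hk0 hk hR
    rcases hR with h1 | h1
    · exact hinj j k (by omega) (by omega) h1
    · exfalso
      have h2 : ψ₁ ^ (j + k) = 1 := by
        rw [pow_add, h1]
        exact inv_mul_cancel _
      have := hinj0 (j + k) (by omega) h2
      omega
  · intro ψ hψ1 hψl
    obtain ⟨k, hk, rfl⟩ := hsurj ψ
    have hk0 : k ≠ 0 := by
      rintro rfl
      exact hψ1 (pow_zero _)
    have hkh : k ≠ h := by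
      rintro rfl
      exact hψl rfl
    by_cases hlt : k < h
    · exact ⟨k, by omega, hlt, Or.inl rfl⟩
    · refine ⟨2 * h - k, by omega, by omega, Or.inr ?_⟩
      apply eq_inv_of_mul_eq_one_left
      rw [← pow_add, show k + (2 * h - k) = 2 * h by omega, hper]

end Cfsg.Agent.Lib.Helper1
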