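import Mathlib
import Cfsg.Agent.S0942
import Cfsg.Agent.Lib.Helper1.DihGram

/-!
# Dihedral Sylow 2-subgroups: values on 2-sections, and the isomorphism type from generators
(helper1)

* `dih_section`: a character of the principal 2-block is constant on the 2-section of a
  non-identity element of `⟨σ⟩`;
* `dih_iso_gens`: a group generated by `σ` of order `m ≥ 3` and an involution `τ` inverting `σ`
  is isomorphic to `DihedralGroup m`.
-/

set_option autoImplicit false

namespace Cfsg.Agent.Lib.Helper1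

open Cfsg Subgroup

section

variable {G : Type*} [Group G] [Finite G] {M : Ideal Cfsg.AlgInt}

/-- a character of the principal 2-block is constant on the 2-section of `u ∈ ⟨σ⟩ \ {1}` -/
theorem dih_section (hM : Cfsg.IsPModular 2 M) (n : ℕ) (hn : 3 ≤ n) (P : Sylow 2 G)
    (hP : Nonempty ((P : Subgroup G) ≃* DihedralGroup (2 ^ (n - 1)))) (σ : G)
    (hσ : σ ∈ (P : Subgroup G)) (hσo : orderOf σ = 2 ^ (n - 1)) (u : G) (hu : u ∈ zpowers σ)
    (hu1 : u ≠ 1) (y : G) (hy : y ∈ centralizer ({u} : Set G)) (hyodd : ¬ 2 ∣ orderOf y)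
    (χ : IrrCharacter G) (hχ : χ ∈ principalBlock M G) :
    (χ : G → ℂ) (u * y) = (χ : G → ℂ) u := by
  have hp2 : Fact (Nat.Prime 2) := ⟨Nat.prime_two⟩
  have huk : ∃ k : ℕ, orderOf u = 2 ^ k := by
    have h1 : orderOf u ∣ 2 ^ (n - 1) := hσo ▸ orderOf_dvd_of_mem_zpowers hu
    obtain ⟨j, -, hj⟩ := (Nat.dvd_prime_pow Nat.prime_two).mp h1
    exact ⟨j, hj⟩
  refine Cfsg.Agent.S0942.result 2 M hM u huk y ?_ χ hχ
  have hidx := dih_index_pPrimeCore n hn P hP σ hσ hσo u hu hu1
  have h5 : IsPGroup 2 ↥((P : Subgroup G) ⊓ centralizer ({u} : Set G)) :=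
    P.isPGroup'.to_le inf_le_left
  obtain ⟨j, hj⟩ := IsPGroup.iff_card.mp h5
  rw [hj] at hidx
  have := Cfsg.Agent.Lib.Helper81.pPrimeCore_normal (G := ↥(centralizer ({u} : Set G))) 2
  have hmem : (⟨y, hy⟩ : ↥(centralizer ({u} : Set G))) ∈
      pPrimeCore 2 ↥(centralizer ({u} : Set G)) :=
    (Cfsg.Agent.Lib.Helper79.mem_iff_pRegular_of_index _ _ hidx
      (Cfsg.Agent.Lib.Helper81.pPrimeCore_coprime 2) _).mpr (by rwa [Subgroup.orderOf_mk])
  exact Subgroup.mem_map.mpr ⟨⟨y, hy⟩, hmem, rfl⟩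

end

section Iso

variable {G : Type*} [Group G]

/-- a group generated by `σ` of order `m ≥ 3` and an involution `τ` inverting `σ` is dihedral -/
theorem dih_iso_gens (m : ℕ) (hm : 3 ≤ m) (P : Subgroup G) (σ τ : G) (hσo : orderOf σ = m)
    (hτo : orderOf τ = 2) (hrel : τ * σ * τ⁻¹ = σ⁻¹)
    (hgen : Subgroup.closure ({σ, τ} : Set G) = P) :
    Nonempty (P ≃* DihedralGroup m) := by
  have hm' : NeZero m := ⟨by omega⟩
  have hm1 : Fact (1 < m) := ⟨by omega⟩
  have hττ : τ * τ = 1 := by
    rw [← pow_two, ← hτo, pow_orderOf_eq_one]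
  have hτinv : τ⁻¹ = τ := inv_eq_of_mul_eq_one_right hττ
  obtain ⟨g, hg⟩ : ∃ g : ZMod m → G, g = fun i => σ ^ i.val := ⟨_, rfl⟩
  have hgadd : ∀ i j : ZMod m, g (i + j) = g i * g j := by
    intro i j
    rw [hg]
    simp only
    have h1 := pow_mod_orderOf σ (i.val + j.val)
    rw [hσo] at h1
    rw [ZMod.val_add, ← pow_add, h1]
  have hgsub : ∀ i j : ZMod m, g (j - i) = (g i)⁻¹ * g j := by
    intro i j
    have h1 := hgadd i (j - i)
    rw [add_sub_cancel] at h1
    rw [h1, inv_mul_cancel_left]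
  have hgcomm : ∀ i j : ZMod m, g i * g j = g j * g i := by
    intro i j
    rw [← hgadd, ← hgadd, add_comm]
  have hgτ : ∀ i : ZMod m, g i * τ = τ * (g i)⁻¹ := by
    intro i
    have hA : τ * g i * τ⁻¹ = (g i)⁻¹ := by
      rw [hg]
      simp only
      rw [← conj_pow, hrel, inv_pow]
    calc g i * τ = (τ * g i * τ⁻¹)⁻¹ * τ := by rw [hA, inv_inv]
      _ = τ * (g i)⁻¹ := by group
  obtain ⟨f, hf⟩ : ∃ f : DihedralGroup m → G, f = fun d => match d with
      | DihedralGroup.r i => g i
      | DihedralGroup.sr i => τ * g i := ⟨_, rfl⟩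
  have hfr : ∀ i, f (DihedralGroup.r i) = g i := fun i => by rw [hf]
  have hfsr : ∀ i, f (DihedralGroup.sr i) = τ * g i := fun i => by rw [hf]
  have hmul : ∀ a b, f (a * b) = f a * f b := by
    intro a b
    cases a with
    | r i =>
      cases b with
      | r j => rw [DihedralGroup.r_mul_r, hfr, hfr, hfr, hgadd]
      | sr j =>
        rw [DihedralGroup.r_mul_sr, hfsr, hfr, hfsr, hgsub]
        calc τ * ((g i)⁻¹ * g j) = (τ * (g i)⁻¹) * g j := by group
          _ = (g i * τ) * g j := by rw [hgτ]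
          _ = g i * (τ * g j) := by group
    | sr i =>
      cases b with
      | r j => rw [DihedralGroup.sr_mul_r, hfsr, hfsr, hfr, hgadd, mul_assoc]
      | sr j =>
        rw [DihedralGroup.sr_mul_sr, hfr, hfsr, hfsr, hgsub]
        calc (g i)⁻¹ * g j = (τ * τ) * (g i)⁻¹ * g j := by rw [hττ, one_mul]
          _ = τ * (τ * (g i)⁻¹) * g j := by group
          _ = τ * (g i * τ) * g j := by rw [hgτ]
          _ = τ * g i * (τ * g j) := by group
  obtain ⟨F, hF⟩ : ∃ F : DihedralGroup m →* G, ∀ d, F d = f d := ⟨MonoidHom.mk' f hmul, fun _ => rfl⟩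
  have hinj : Function.Injective F := by
    rw [injective_iff_map_eq_one]
    intro d hd
    rw [hF] at hd
    cases d with
    | r i =>
      rw [hfr, hg] at hd
      simp only at hd
      have h1 : m ∣ i.val := by
        have h0 := orderOf_dvd_of_pow_eq_one hd
        rwa [hσo] at h0
      have h2 : i.val < m := ZMod.val_lt i
      have h3 : i.val = 0 := Nat.eq_zero_of_dvd_of_lt h1 h2
      rw [(ZMod.val_eq_zero i).mp h3]
      rfl
    | sr i =>
      exfalso
      rw [hfsr] at hd
      have h1 : τ = (g i)⁻¹ := eq_inv_of_mul_eq_one_left hd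
      have h2 : Commute τ σ := by
        rw [h1, hg]
        exact ((Commute.refl σ).pow_left _).inv_left
      have h3 : σ = σ⁻¹ := by
        rw [← hrel, h2.eq, mul_inv_cancel_right]
      have h4 : σ ^ 2 = 1 := by
        rw [pow_two]
        nth_rewrite 1 [h3]
        exact inv_mul_cancel σ
      have h5 : m ∣ 2 := by
        have h0 := orderOf_dvd_of_pow_eq_one h4
        rwa [hσo] at h0
      have h6 := Nat.le_of_dvd (by norm_num) h5
      omega
  have hrange : F.range = P := by
    rw [← hgen]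
    apply le_antisymm
    · rintro _ ⟨d, rfl⟩
      rw [hF]
      cases d with
      | r i =>
        rw [hfr, hg]
        exact pow_mem (subset_closure (by simp)) _
      | sr i =>
        rw [hfsr, hg]
        exact mul_mem (subset_closure (by simp)) (pow_mem (subset_closure (by simp)) _)
    · rw [closure_le]
      intro x hx
      rcases hx with rfl | hx
      · refine ⟨DihedralGroup.r 1, ?_⟩
        rw [hF, hfr, hg]
        simp only
        rw [ZMod.val_one, pow_one]
      · rw [Set.mem_singleton_iff] at hx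
        subst hx
        refine ⟨DihedralGroup.sr 0, ?_⟩
        rw [hF, hfsr, hg]
        simp only
        rw [ZMod.val_zero, pow_zero, mul_one]
  exact ⟨((MonoidHom.ofInjective hinj).trans (MulEquiv.subgroupCongr hrange)).symm⟩

end Iso

end Cfsg.Agent.Lib.Helper1
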