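import Mathlib
import Cfsg.Agent.Lib.Helper1.DihSect

/-!
# Involutions in groups with dihedral Sylow 2-subgroups (support for S4482)

* `dih_orbit_card` : orbit–stabiliser for conjugation by a subgroup `C`.
* `dih_normal_form` : every element of `⟨σ, τ⟩` is `σ^i` or `σ^i τ`.
* `dih_P_invol` : an involution of `P = ⟨σ, τ⟩` is `J`, or `⟨σ⟩`-conjugate to `τ` or to `σ τ`.
* `dih_mu` : the number of involutions `≠ J` of `C_G(J)` is
  `|C(J)| (1 / |C(J, τ)| + 1 / |C(J, σ τ)|)`.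
* `dih_invol_conj` : if `J`, `τ`, `σ τ` are conjugate then all involutions are conjugate to `J`.
* `dih_card_invol` : if all involutions are conjugate to `J` then `#Inv · |C(J)| = |G|`.
-/

set_option autoImplicit false

namespace Cfsg.Agent.Lib.Helper1

open Cfsg Subgroup

section Gen

variable {G : Type*} [Group G]

theorem dih_orderOf_conj (c x : G) : orderOf (c * x * c⁻¹) = orderOf x :=
  (MulAut.conj c).orderOf_eq x

/-- orbit–stabiliser for conjugation by a subgroup -/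
theorem dih_orbit_card (C D : Subgroup G) (t : G)
    (hD : ∀ g : G, g ∈ D ↔ g ∈ C ∧ g * t = t * g) :
    Nat.card {x : G // ∃ c ∈ C, c * t * c⁻¹ = x} * Nat.card D = Nat.card C := by
  let act : MulAction C G := MulAction.compHom G ((MulAut.conj (G := G)).comp C.subtype)
  have e1 := @MulAction.orbitProdStabilizerEquivGroup C G _ act t
  have h1 := Nat.card_congr e1
  rw [Nat.card_prod] at h1
  rw [← h1]
  congr 1
  · apply Nat.card_congr
    refine Equiv.subtypeEquivRight (fun x => ?_)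
    constructor
    · rintro ⟨c, hc, rfl⟩
      exact ⟨⟨c, hc⟩, rfl⟩
    · rintro ⟨c, rfl⟩
      exact ⟨c, c.2, rfl⟩
  · apply Nat.card_congr
    refine ⟨fun d => ⟨⟨d.1, ((hD d.1).mp d.2).1⟩, ?_⟩, fun s => ⟨s.1.1, ?_⟩, fun d => rfl,
      fun s => rfl⟩
    · have h2 := ((hD d.1).mp d.2).2
      show (d : G) * t * (d : G)⁻¹ = t
      rw [h2, mul_inv_cancel_right]
    · have h2 : (s.1 : G) * t * (s.1 : G)⁻¹ = t := s.2
      refine (hD _).mpr ⟨s.1.2, ?_⟩
      calc (s.1 : G) * t = ((s.1 : G) * t * (s.1 : G)⁻¹) * (s.1 : G) := by group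
        _ = t * (s.1 : G) := by rw [h2]

/-- normal form of the elements of `⟨σ, τ⟩` -/
theorem dih_normal_form (σ τ : G) (hτ2 : τ * τ = 1) (hrel : τ * σ * τ⁻¹ = σ⁻¹) (x : G)
    (hx : x ∈ closure ({σ, τ} : Set G)) : x ∈ zpowers σ ∨ x * τ ∈ zpowers σ := by
  have hτinv : τ⁻¹ = τ := inv_eq_of_mul_eq_one_right hτ2
  have hconj : ∀ y ∈ zpowers σ, τ * y * τ ∈ zpowers σ := by
    intro y hy
    obtain ⟨k, rfl⟩ := mem_zpowers_iff.mp hy
    have h1 : τ * σ ^ k * τ⁻¹ = (σ ^ k)⁻¹ := by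
      rw [← conj_zpow, hrel, inv_zpow]
    rw [hτinv] at h1
    rw [h1]
    exact inv_mem (zpow_mem (mem_zpowers σ) k)
  induction hx using Subgroup.closure_induction with
  | mem y hy =>
    rcases hy with rfl | hy
    · exact Or.inl (mem_zpowers _)
    · rw [Set.mem_singleton_iff] at hy
      subst hy
      right
      rw [hτ2]
      exact one_mem _
  | one => exact Or.inl (one_mem _)
  | mul a b _ _ ha hb =>
    rcases ha with ha | ha
    · rcases hb with hb | hb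
      · exact Or.inl (mul_mem ha hb)
      · right
        rw [mul_assoc]
        exact mul_mem ha hb
    · rcases hb with hb | hb
      · right
        have h1 : a * b * τ = (a * τ) * (τ * b * τ) := by
          calc a * b * τ = a * (τ * τ) * b * τ := by rw [hτ2, mul_one]
            _ = (a * τ) * (τ * b * τ) := by group
        rw [h1]
        exact mul_mem ha (hconj b hb)
      · left
        have h1 : a * b = (a * τ) * (τ * (b * τ) * τ) := by
          calc a * b = a * (τ * τ) * b * (τ * τ) := by rw [hτ2, mul_one, mul_one]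
            _ = (a * τ) * (τ * (b * τ) * τ) := by group
        rw [h1]
        exact mul_mem ha (hconj _ hb)
  | inv a _ ha =>
    rcases ha with ha | ha
    · exact Or.inl (inv_mem ha)
    · right
      have h1 : a⁻¹ * τ = τ * (a * τ)⁻¹ * τ := by group
      rw [h1]
      exact hconj _ (inv_mem ha)

/-- conjugating `τ` by a power of `σ` -/
theorem dih_conj_tau (σ τ : G) (hrel : τ * σ * τ⁻¹ = σ⁻¹) (i : ℤ) :
    σ ^ i * τ * (σ ^ i)⁻¹ = σ ^ (2 * i) * τ := by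
  have h0 : τ * σ⁻¹ * τ⁻¹ = σ := by
    calc τ * σ⁻¹ * τ⁻¹ = (τ * σ * τ⁻¹)⁻¹ := by group
      _ = σ := by rw [hrel, inv_inv]
  have h1 : τ * (σ ^ i)⁻¹ * τ⁻¹ = σ ^ i := by
    rw [← inv_zpow, ← conj_zpow, h0]
  calc σ ^ i * τ * (σ ^ i)⁻¹ = σ ^ i * (τ * (σ ^ i)⁻¹ * τ⁻¹) * τ := by group
    _ = σ ^ (2 * i) * τ := by rw [h1, two_mul, zpow_add]

end Gen

section Fin

variable {G : Type*} [Group G] [Finite G]

omit [Finite G] in
/-- `τ ∉ ⟨σ⟩` -/
theorem dih_tau_not_mem (n : ℕ) (hn : 3 ≤ n) (σ τ : G) (hσo : orderOf σ = 2 ^ (n - 1))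
    (hrel : τ * σ * τ⁻¹ = σ⁻¹) : τ ∉ zpowers σ := by
  intro hτ
  have hm4 : 4 ≤ 2 ^ (n - 1) := by
    calc 4 = 2 ^ 2 := by norm_num
      _ ≤ 2 ^ (n - 1) := Nat.pow_le_pow_right (by norm_num) (by omega)
  obtain ⟨k, rfl⟩ := mem_zpowers_iff.mp hτ
  have h2 : Commute (σ ^ k) σ := (Commute.refl σ).zpow_left k
  have h3 : σ = σ⁻¹ := by
    rw [← hrel, h2.eq, mul_inv_cancel_right]
  have h4 : σ ^ 2 = 1 := by
    rw [pow_two]
    nth_rewrite 1 [h3]
    exact inv_mul_cancel σ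
  have h5 : 2 ^ (n - 1) ∣ 2 := by
    have h0 := orderOf_dvd_of_pow_eq_one h4
    rwa [hσo] at h0
  have h6 := Nat.le_of_dvd (by norm_num) h5
  omega

/-- involutions of `P = ⟨σ, τ⟩` -/
theorem dih_P_invol (n : ℕ) (hn : 3 ≤ n) (σ τ : G) (hσo : orderOf σ = 2 ^ (n - 1))
    (hτo : orderOf τ = 2) (hrel : τ * σ * τ⁻¹ = σ⁻¹) (y : G)
    (hy : y ∈ closure ({σ, τ} : Set G)) (hyo : orderOf y = 2) :
    y = σ ^ (2 ^ (n - 2)) ∨ (∃ s ∈ zpowers σ, s * τ * s⁻¹ = y) ∨
      (∃ s ∈ zpowers σ, s * (σ * τ) * s⁻¹ = y) := by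
  have hτ2 : τ * τ = 1 := by
    rw [← pow_two, ← hτo, pow_orderOf_eq_one]
  have hτinv : τ⁻¹ = τ := inv_eq_of_mul_eq_one_right hτ2
  have hy2 : y ^ 2 = 1 := by rw [← hyo, pow_orderOf_eq_one]
  have hy1 : y ≠ 1 := by
    intro h
    rw [h, orderOf_one] at hyo
    omega
  rcases dih_normal_form σ τ hτ2 hrel y hy with h | h
  · left
    exact dih_invol_eq σ y _ h (pow_mem (mem_zpowers σ) _) hy2 hy1 (dih_J_sq n hn σ hσo)
      (dih_J_ne_one n hn σ hσo)
  · right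
    obtain ⟨i, hi⟩ := mem_zpowers_iff.mp h
    have hyi : y = σ ^ i * τ := by
      rw [hi, mul_assoc, hτ2, mul_one]
    rcases Int.even_or_odd' i with ⟨j, rfl | rfl⟩
    · left
      refine ⟨σ ^ j, zpow_mem (mem_zpowers σ) j, ?_⟩
      rw [dih_conj_tau σ τ hrel j, hyi]
    · right
      refine ⟨σ ^ j, zpow_mem (mem_zpowers σ) j, ?_⟩
      have h1 : σ ^ j * (σ * τ) * (σ ^ j)⁻¹ = σ * (σ ^ j * τ * (σ ^ j)⁻¹) := by
        have hc : Commute (σ ^ j) σ := (Commute.refl σ).zpow_left j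
        calc σ ^ j * (σ * τ) * (σ ^ j)⁻¹ = (σ ^ j * σ) * τ * (σ ^ j)⁻¹ := by group
          _ = (σ * σ ^ j) * τ * (σ ^ j)⁻¹ := by rw [hc.eq]
          _ = σ * (σ ^ j * τ * (σ ^ j)⁻¹) := by group
      rw [h1, dih_conj_tau σ τ hrel j, hyi, ← mul_assoc, ← zpow_one_add, add_comm]

omit [Finite G] in
/-- `τ` and `σ τ` are not conjugate in `P` -/
theorem dih_tau_ne (n : ℕ) (hn : 3 ≤ n) (σ τ : G) (hσo : orderOf σ = 2 ^ (n - 1))
    (hτo : orderOf τ = 2) (hrel : τ * σ * τ⁻¹ = σ⁻¹) (s : G)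
    (hs : s ∈ closure ({σ, τ} : Set G)) : s * τ * s⁻¹ ≠ σ * τ := by
  intro hst
  have hτ2 : τ * τ = 1 := by
    rw [← pow_two, ← hτo, pow_orderOf_eq_one]
  have hτinv : τ⁻¹ = τ := inv_eq_of_mul_eq_one_right hτ2
  have key : ∀ i : ℤ, σ ^ (2 * i) * τ ≠ σ * τ := by
    intro i h
    have h1 : σ ^ (2 * i) = σ := mul_right_cancel h
    have h2 : σ ^ (2 * i - 1) = 1 := by
      rw [zpow_sub, h1, zpow_one, mul_inv_cancel]
    have h3 := orderOf_dvd_iff_zpow_eq_one.mpr h2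
    rw [hσo] at h3
    have h4 : (2 : ℤ) ∣ ((2 ^ (n - 1) : ℕ) : ℤ) := by
      have : (2 : ℕ) ∣ 2 ^ (n - 1) := dvd_pow_self 2 (by omega)
      exact_mod_cast this
    have h5 := h4.trans h3
    omega
  rcases dih_normal_form σ τ hτ2 hrel s hs with h | h
  · obtain ⟨i, rfl⟩ := mem_zpowers_iff.mp h
    rw [dih_conj_tau σ τ hrel i] at hst
    exact key i hst
  · obtain ⟨i, hi⟩ := mem_zpowers_iff.mp h
    have hsi : s = σ ^ i * τ⁻¹ := by
      rw [hi, mul_inv_cancel_right]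
    have h1 : s * τ * s⁻¹ = σ ^ i * τ * (σ ^ i)⁻¹ := by
      rw [hsi]
      group
    rw [h1, dih_conj_tau σ τ hrel i] at hst
    exact key i hst

/-- the number of involutions `≠ J` of `C_G(J)` -/
theorem dih_mu (n : ℕ) (hn : 3 ≤ n) (P : Sylow 2 G) (σ τ : G)
    (hσ : σ ∈ (P : Subgroup G)) (hτ : τ ∈ (P : Subgroup G)) (hσo : orderOf σ = 2 ^ (n - 1))
    (hτo : orderOf τ = 2) (hrel : τ * σ * τ⁻¹ = σ⁻¹)
    (hgen : Subgroup.closure ({σ, τ} : Set G) = (P : Subgroup G)) :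
    (Nat.card {x : G // x ∈ Subgroup.centralizer ({σ ^ (2 ^ (n - 2))} : Set G) ∧
        orderOf x = 2 ∧ x ≠ σ ^ (2 ^ (n - 2))} : ℚ) =
      (Nat.card (Subgroup.centralizer ({σ ^ (2 ^ (n - 2))} : Set G)) : ℚ) *
        (1 / (Nat.card (Subgroup.centralizer ({σ ^ (2 ^ (n - 2)), τ} : Set G)) : ℚ) +
          1 / (Nat.card (Subgroup.centralizer ({σ ^ (2 ^ (n - 2)), σ * τ} : Set G)) : ℚ)) := by
  classical
  have hm4 : 4 ≤ 2 ^ (n - 1) := by
    calc 4 = 2 ^ 2 := by norm_num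
      _ ≤ 2 ^ (n - 1) := Nat.pow_le_pow_right (by norm_num) (by omega)
  have hP : Nonempty ((P : Subgroup G) ≃* DihedralGroup (2 ^ (n - 1))) :=
    dih_iso_gens (2 ^ (n - 1)) (by omega) (P : Subgroup G) σ τ hσo hτo hrel hgen
  obtain ⟨K, hKC, hodd, hnorm, hdec⟩ := dih_K n hn P hP σ hσ hσo
  have hPC := dih_P_le n hn (P : Subgroup G) hP σ hσ hσo
  have hτ2 : τ * τ = 1 := by
    rw [← pow_two, ← hτo, pow_orderOf_eq_one]
  have hτinv : τ⁻¹ = τ := inv_eq_of_mul_eq_one_right hτ2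
  have hτS := dih_tau_not_mem n hn σ τ hσo hrel
  have hJ2 := dih_J_sq n hn σ hσo
  have hJ1 := dih_J_ne_one n hn σ hσo
  have hSP : zpowers σ ≤ (P : Subgroup G) := by rw [zpowers_le]; exact hσ
  have hστP : σ * τ ∈ (P : Subgroup G) := mul_mem hσ hτ
  have hστo : orderOf (σ * τ) = 2 := by
    have hp2 : Fact (Nat.Prime 2) := ⟨Nat.prime_two⟩
    apply orderOf_eq_prime
    · have h2 : (σ * τ) ^ 2 = σ * (τ * σ * τ⁻¹) * (τ * τ) := by
        rw [pow_two]; group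
      rw [h2, hrel, hτ2, mul_one, mul_inv_cancel]
    · intro h
      apply hτS
      have : τ = σ⁻¹ := eq_inv_of_mul_eq_one_right h
      rw [this]
      exact inv_mem (mem_zpowers σ)
  have hJS : σ ^ (2 ^ (n - 2)) ∈ zpowers σ := pow_mem (mem_zpowers σ) _
  have hτJ : τ ≠ σ ^ (2 ^ (n - 2)) := by
    intro h
    exact hτS (h ▸ hJS)
  have hστJ : σ * τ ≠ σ ^ (2 ^ (n - 2)) := by
    intro h
    apply hτS
    have : τ = σ⁻¹ * σ ^ (2 ^ (n - 2)) := by rw [← h, inv_mul_cancel_left]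
    rw [this]
    exact mul_mem (inv_mem (mem_zpowers σ)) hJS
  obtain ⟨J, hJdef⟩ : ∃ J : G, J = σ ^ (2 ^ (n - 2)) := ⟨_, rfl⟩
  rw [← hJdef] at hKC hnorm hdec hPC hJ2 hJ1 hτJ hστJ ⊢
  obtain ⟨C, hCdef⟩ : ∃ C : Subgroup G, C = centralizer ({J} : Set G) := ⟨_, rfl⟩
  rw [← hCdef] at hKC hnorm hdec hPC ⊢
  have hmemC : ∀ g : G, g ∈ C ↔ g * J = J * g := by
    intro g
    rw [hCdef, mem_centralizer_iff]
    constructor
    · intro h; exact (h J rfl).symm
    · intro h z hz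
      rw [Set.mem_singleton_iff] at hz
      rw [hz]
      exact h.symm
  have hD : ∀ t g : G, g ∈ centralizer ({J, t} : Set G) ↔ g ∈ C ∧ g * t = t * g := by
    intro t g
    rw [hmemC, mem_centralizer_iff]
    constructor
    · intro h
      exact ⟨(h J (by simp)).symm, (h t (by simp)).symm⟩
    · rintro ⟨h1, h2⟩ z hz
      rcases hz with hz | hz
      · rw [hz]; exact h1.symm
      · rw [Set.mem_singleton_iff] at hz
        rw [hz]; exact h2.symm
  -- every involution `≠ J` of `C` is `C`-conjugate to `τ` or `σ τ`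
  have hA : ∀ x, x ∈ C → orderOf x = 2 → x ≠ J →
      (∃ c ∈ C, c * τ * c⁻¹ = x) ∨ (∃ c ∈ C, c * (σ * τ) * c⁻¹ = x) := by
    intro x hxC hxo hxJ
    obtain ⟨k, hk, s, hs, rfl⟩ := hdec x hxC
    have hx2 : (k * s) * (k * s) = 1 := by rw [← pow_two, ← hxo, pow_orderOf_eq_one]
    have hsk : s * k * s⁻¹ ∈ K := hnorm s (hPC hs) k hk
    have h1 : (k * (s * k * s⁻¹)) * (s * s) = 1 := by
      rw [← hx2]; group
    have hs2 : s * s = 1 := by
      apply dih_inf_bot hodd P.isPGroup' _ (mul_mem hs hs)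
      rw [eq_inv_of_mul_eq_one_right h1]
      exact K.inv_mem (K.mul_mem hk hsk)
    have hks : s * k * s⁻¹ = k⁻¹ := by
      rw [hs2, mul_one] at h1
      exact eq_inv_of_mul_eq_one_right h1
    have hko : Odd (orderOf k) := by
      have h2 : orderOf k ∣ Nat.card K := by
        have := orderOf_dvd_natCard (⟨k, hk⟩ : K)
        rwa [Subgroup.orderOf_mk] at this
      exact Odd.of_dvd_nat hodd h2
    obtain ⟨m, hm⟩ := hko
    obtain ⟨l, hl⟩ : ∃ l : G, l = k ^ (m + 1) := ⟨_, rfl⟩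
    have hll : l * l = k := by
      rw [hl, ← pow_add, show m + 1 + (m + 1) = orderOf k + 1 by omega, pow_succ,
        pow_orderOf_eq_one, one_mul]
    have hlK : l ∈ K := by rw [hl]; exact pow_mem hk _
    have hsl : s * l * s⁻¹ = l⁻¹ := by
      rw [hl, ← conj_pow, hks, inv_pow]
    have hx : k * s = l * s * l⁻¹ := by
      calc k * s = l * l * s := by rw [hll]
        _ = l * (s * l * s⁻¹)⁻¹ * s := by rw [hsl, inv_inv]
        _ = l * s * l⁻¹ := by group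
    have hso : orderOf s = 2 := by
      rw [hx, dih_orderOf_conj] at hxo; exact hxo
    have hlC : l * J = J * l := (hmemC l).mp (hKC hlK)
    have hsJ : s ≠ J := by
      intro h
      apply hxJ
      rw [hx, h, hlC, mul_inv_cancel_right]
    have hsP : s ∈ closure ({σ, τ} : Set G) := by rw [hgen]; exact hs
    rcases dih_P_invol n hn σ τ hσo hτo hrel s hsP hso with h | ⟨r, hr, h⟩ | ⟨r, hr, h⟩
    · rw [← hJdef] at h
      exact absurd h hsJ
    · left
      refine ⟨l * r, mul_mem (hKC hlK) (hPC (hSP hr)), ?_⟩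
      rw [hx, ← h]; group
    · right
      refine ⟨l * r, mul_mem (hKC hlK) (hPC (hSP hr)), ?_⟩
      rw [hx, ← h]; group
  have hB : ∀ t ∈ (P : Subgroup G), orderOf t = 2 → t ≠ J → ∀ c ∈ C,
      c * t * c⁻¹ ∈ C ∧ orderOf (c * t * c⁻¹) = 2 ∧ c * t * c⁻¹ ≠ J := by
    intro t ht hto htJ c hc
    refine ⟨mul_mem (mul_mem hc (hPC ht)) (inv_mem hc), by rw [dih_orderOf_conj]; exact hto, ?_⟩
    intro h
    apply htJ
    have h1 := (hmemC c).mp hc
    calc t = c⁻¹ * (c * t * c⁻¹) * c := by group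
      _ = c⁻¹ * J * c := by rw [h]
      _ = J := by rw [mul_assoc, ← h1, inv_mul_cancel_left]
  have hDisj : ∀ x, (∃ c ∈ C, c * τ * c⁻¹ = x) → (∃ c ∈ C, c * (σ * τ) * c⁻¹ = x) → False := by
    rintro x ⟨c, hc, rfl⟩ ⟨c', hc', h⟩
    have h1 : (c'⁻¹ * c) * τ * (c'⁻¹ * c)⁻¹ = σ * τ := by
      calc (c'⁻¹ * c) * τ * (c'⁻¹ * c)⁻¹ = c'⁻¹ * (c * τ * c⁻¹) * c' := by group
        _ = c'⁻¹ * (c' * (σ * τ) * c'⁻¹) * c' := by rw [h]
        _ = σ * τ := by group
    obtain ⟨k, hk, s, hs, hks⟩ := hdec (c'⁻¹ * c) (mul_mem (inv_mem hc') hc)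
    rw [hks] at h1
    have h2 := dih_conj_proj hodd P.isPGroup' hPC hnorm k s τ hk hs hτ (by rw [h1]; exact hστP)
    rw [h1] at h2
    exact dih_tau_ne n hn σ τ hσo hτo hrel s (by rw [hgen]; exact hs) h2
  have hcount : Nat.card {x : G // x ∈ C ∧ orderOf x = 2 ∧ x ≠ J} =
      Nat.card {x : G // ∃ c ∈ C, c * τ * c⁻¹ = x} +
        Nat.card {x : G // ∃ c ∈ C, c * (σ * τ) * c⁻¹ = x} := by
    rw [← Nat.card_sum]
    apply Nat.card_congr
    refine (Equiv.subtypeEquivRight (fun x => ?_)).trans (subtypeOrEquiv _ _ ?_)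
    · constructor
      · rintro ⟨h1, h2, h3⟩
        exact hA x h1 h2 h3
      · rintro (⟨c, hc, rfl⟩ | ⟨c, hc, rfl⟩)
        · exact hB τ hτ hτo hτJ c hc
        · exact hB (σ * τ) hστP hστo hστJ c hc
    · intro r hrp hrq x hx
      exact (hDisj x (hrp x hx) (hrq x hx)).elim
  have h1 := dih_orbit_card C (centralizer ({J, τ} : Set G)) τ (hD τ)
  have h2 := dih_orbit_card C (centralizer ({J, σ * τ} : Set G)) (σ * τ) (hD (σ * τ))
  have hc1 : (Nat.card (centralizer ({J, τ} : Set G)) : ℚ) ≠ 0 := by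
    have : 0 < Nat.card (centralizer ({J, τ} : Set G)) := Nat.card_pos
    exact_mod_cast this.ne'
  have hc2 : (Nat.card (centralizer ({J, σ * τ} : Set G)) : ℚ) ≠ 0 := by
    have : 0 < Nat.card (centralizer ({J, σ * τ} : Set G)) := Nat.card_pos
    exact_mod_cast this.ne'
  have h1' : (Nat.card {x : G // ∃ c ∈ C, c * τ * c⁻¹ = x} : ℚ) *
      (Nat.card (centralizer ({J, τ} : Set G)) : ℚ) = (Nat.card C : ℚ) := by exact_mod_cast h1
  have h2' : (Nat.card {x : G // ∃ c ∈ C, c * (σ * τ) * c⁻¹ = x} : ℚ) *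
      (Nat.card (centralizer ({J, σ * τ} : Set G)) : ℚ) = (Nat.card C : ℚ) := by
    exact_mod_cast h2
  rw [hcount, Nat.cast_add, eq_div_of_mul_eq hc1 h1', eq_div_of_mul_eq hc2 h2']
  ring

/-- if `J`, `τ`, `σ τ` are conjugate then all involutions are conjugate to `J` -/
theorem dih_invol_conj (n : ℕ) (hn : 3 ≤ n) (P : Sylow 2 G) (σ τ : G)
    (hσo : orderOf σ = 2 ^ (n - 1))
    (hτo : orderOf τ = 2) (hrel : τ * σ * τ⁻¹ = σ⁻¹)
    (hgen : Subgroup.closure ({σ, τ} : Set G) = (P : Subgroup G))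
    (hconj : IsConj (σ ^ (2 ^ (n - 2))) τ ∧ IsConj (σ ^ (2 ^ (n - 2))) (σ * τ)) :
    ∀ x : G, orderOf x = 2 → IsConj (σ ^ (2 ^ (n - 2))) x := by
  intro x hxo
  have hp2 : Fact (Nat.Prime 2) := ⟨Nat.prime_two⟩
  have hQ : IsPGroup 2 (zpowers x) :=
    IsPGroup.of_card (n := 1) (by rw [Nat.card_zpowers, hxo, pow_one])
  obtain ⟨R, hR⟩ := hQ.exists_le_sylow
  obtain ⟨g, hg⟩ := MulAction.exists_smul_eq G R P
  have h2 : g * x * g⁻¹ ∈ ((g • R : Sylow 2 G) : Subgroup G) := by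
    rw [Sylow.coe_subgroup_smul, Subgroup.mem_pointwise_smul_iff_inv_smul_mem]
    have e : (MulAut.conj g)⁻¹ • (g * x * g⁻¹) = x := by
      simp [MulAut.smul_def]
      group
    rw [e]
    exact hR (mem_zpowers x)
  rw [hg] at h2
  have hyo : orderOf (g * x * g⁻¹) = 2 := by rw [dih_orderOf_conj]; exact hxo
  have hxy : IsConj (g * x * g⁻¹) x := (isConj_iff.mpr ⟨g, rfl⟩).symm
  rcases dih_P_invol n hn σ τ hσo hτo hrel _ (by rw [hgen]; exact h2) hyo with
    h | ⟨s, hs, h⟩ | ⟨s, hs, h⟩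
  · rw [← h]; exact hxy
  · exact (hconj.1.trans (isConj_iff.mpr ⟨s, h⟩)).trans hxy
  · exact (hconj.2.trans (isConj_iff.mpr ⟨s, h⟩)).trans hxy

omit [Finite G] in
/-- if all involutions are conjugate to `J` then `#Inv · |C(J)| = |G|` -/
theorem dih_card_invol (J : G) (hall : ∀ x : G, orderOf x = 2 → IsConj J x)
    (hJ : orderOf J = 2) :
    (Nat.card {x : G // orderOf x = 2} : ℚ) * Nat.card (Subgroup.centralizer ({J} : Set G)) =
      Nat.card G := by
  have h1 := dih_orbit_card (⊤ : Subgroup G) (centralizer ({J} : Set G)) J (by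
    intro g
    rw [mem_centralizer_iff]
    constructor
    · intro h; exact ⟨mem_top g, (h J rfl).symm⟩
    · rintro ⟨-, h⟩ z hz
      rw [Set.mem_singleton_iff] at hz
      rw [hz]; exact h.symm)
  rw [Subgroup.card_top] at h1
  have h2 : Nat.card {x : G // orderOf x = 2} =
      Nat.card {x : G // ∃ c ∈ (⊤ : Subgroup G), c * J * c⁻¹ = x} := by
    apply Nat.card_congr
    refine Equiv.subtypeEquivRight (fun x => ?_)
    constructor
    · intro hx
      obtain ⟨c, hc⟩ := isConj_iff.mp (hall x hx)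
      exact ⟨c, mem_top c, hc⟩
    · rintro ⟨c, -, rfl⟩
      rw [dih_orderOf_conj]; exact hJ
  rw [h2]
  exact_mod_cast h1

end Fin

end Cfsg.Agent.Lib.Helper1
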