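import Mathlib
import Cfsg.Agent.S4481
import Cfsg.Agent.Lib.Helper1.DihMu
import Cfsg.Agent.Lib.Helper22.WeakOrth
import Cfsg.Agent.Lib.Helper4.CharExp2

/-!
# Support for S4482 (dihedral order formula)

* `dih_psi` : the given `χ₁` is the `χ₁` of S4481, and there is `ψ` in the principal block with
  `ψ(σ^l) = δ₁(ζ^l + ζ^-l)` and `1 + δ₁ χ₁ = δ₁ ψ` on elements of odd order.
* `dih_double_sum` : if all involutions are conjugate to `J` then
  `∑_{x, y involutions} χ(x y) = #Inv² χ(J)² / χ(1)`.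
-/

set_option autoImplicit false

namespace Cfsg.Agent.Lib.Helper1

open Cfsg Subgroup

theorem dih_psi {G : Type*} [Group G] [Finite G] (M : Ideal Cfsg.AlgInt)
    (hM : Cfsg.IsPModular 2 M) (n : ℕ) (hn : 3 ≤ n)
    (P : Sylow 2 G) (hP : Nonempty ((P : Subgroup G) ≃* DihedralGroup (2 ^ (n - 1)))) (σ : G)
    (hσ : σ ∈ (P : Subgroup G)) (hσo : orderOf σ = 2 ^ (n - 1)) (ζ : ℂ)
    (hζ : IsPrimitiveRoot ζ (2 ^ (n - 1))) (χ₁ : Cfsg.IrrCharacter G)
    (hχ₁ : χ₁ ∈ Cfsg.principalBlock M G) (h1 : (χ₁ : G → ℂ) ≠ (fun _ => 1)) (δ₁ : ℤ)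
    (hδ₁ : δ₁ = 1 ∨ δ₁ = -1)
    (hval : ∀ l : ℕ, 0 < l → l < 2 ^ (n - 1) → (χ₁ : G → ℂ) (σ ^ l) = δ₁) :
    ∃ ψ : Cfsg.IrrCharacter G, ψ ∈ Cfsg.principalBlock M G ∧
      (∀ l : ℕ, 0 < l → l < 2 ^ (n - 1) → (ψ : G → ℂ) (σ ^ l) = δ₁ * (ζ ^ l + (ζ ^ l)⁻¹)) ∧
      ∀ ρ : G, Odd (orderOf ρ) → 1 + δ₁ * (χ₁ : G → ℂ) ρ = δ₁ * (ψ : G → ℂ) ρ := by
  obtain ⟨-, c₁, c₂, c₃, χ', d₁, d₂, d₃, hd₁, hd₂, hd₃, -, -, -, -, -, -, -, -, hB, hv, hodd⟩ :=
    Cfsg.Agent.S4481.result M hM n hn P hP σ hσ hσo ζ hζ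
  have hm4 : 4 ≤ 2 ^ (n - 1) := by
    calc 4 = 2 ^ 2 := by norm_num
      _ ≤ 2 ^ (n - 1) := Nat.pow_le_pow_right (by norm_num) (by omega)
  have hpos : 0 < 2 ^ (n - 2) - 1 := by
    have : 2 ^ 1 ≤ 2 ^ (n - 2) := Nat.pow_le_pow_right (by norm_num) (by omega)
    omega
  have hlt : 2 ^ (n - 2) < 2 ^ (n - 1) := Nat.pow_lt_pow_right (by norm_num) (by omega)
  have hδsq : (δ₁ : ℂ) ^ 2 = 1 := by
    rcases hδ₁ with rfl | rfl <;> norm_num
  have hdsq : (d₁ : ℂ) ^ 2 = 1 := by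
    rcases hd₁ with rfl | rfl <;> norm_num
  rw [hB] at hχ₁
  have key : χ₁ = c₁ := by
    rcases hχ₁ with h | h | h | h | ⟨j, h⟩
    · exact absurd h h1
    · exact h
    · exfalso
      have ha := (hv 1 (by norm_num) (by omega)).2.1
      have hb := (hv 2 (by norm_num) (by omega)).2.1
      rw [← h, hval 1 (by norm_num) (by omega)] at ha
      rw [← h, hval 2 (by norm_num) (by omega)] at hb
      have h0 : (d₂ : ℂ) = 0 := by linear_combination (hb - ha) / 2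
      rcases hd₂ with rfl | rfl <;> norm_num at h0
    · exfalso
      have ha := (hv 1 (by norm_num) (by omega)).2.2.1
      have hb := (hv 2 (by norm_num) (by omega)).2.2.1
      rw [← h, hval 1 (by norm_num) (by omega)] at ha
      rw [← h, hval 2 (by norm_num) (by omega)] at hb
      have h0 : (d₃ : ℂ) = 0 := by linear_combination (hb - ha) / 2
      rcases hd₃ with rfl | rfl <;> norm_num at h0
    · exfalso
      have ha := (hv (2 ^ (n - 2)) (by positivity) hlt).2.2.2 j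
      rw [← h, hval (2 ^ (n - 2)) (by positivity) hlt] at ha
      have hζ2 : ζ ^ (2 ^ (n - 2)) = -1 := by
        have h2 : (ζ ^ (2 ^ (n - 2))) ^ 2 = 1 := by
          rw [← pow_mul, ← pow_succ, show n - 2 + 1 = n - 1 by omega]
          exact hζ.pow_eq_one
        have h3 : ζ ^ (2 ^ (n - 2)) ≠ 1 := hζ.pow_ne_one_of_pos_of_lt (by positivity) hlt
        rw [pow_two] at h2
        rcases mul_self_eq_one_iff.mp h2 with h4 | h4
        · exact absurd h4 h3
        · exact h4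
      obtain ⟨ε, hε⟩ : ∃ ε : ℂ, ε = (-1) ^ ((j : ℕ) + 1) := ⟨_, rfl⟩
      have hε2 : ε * ε = 1 := by
        rw [hε, ← pow_add, ← two_mul, pow_mul]
        norm_num
      have hεinv : ε⁻¹ = ε := inv_eq_of_mul_eq_one_right hε2
      have hz : ζ ^ (((j : ℕ) + 1) * 2 ^ (n - 2)) = ε := by
        rw [mul_comm, pow_mul, hζ2, hε]
      rw [hz, hεinv] at ha
      have h5 : (δ₁ : ℂ) ^ 2 = 4 * ((d₁ : ℂ) ^ 2 * (ε * ε)) := by
        rw [ha]; ring
      rw [hδsq, hdsq, hε2] at h5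
      norm_num at h5
  subst key
  have hdd : δ₁ = d₁ := by
    have ha := (hv 1 (by norm_num) (by omega)).1
    rw [hval 1 (by norm_num) (by omega)] at ha
    exact_mod_cast ha
  subst hdd
  refine ⟨χ' ⟨0, hpos⟩, ?_, ?_, ?_⟩
  · rw [hB]
    exact Or.inr (Or.inr (Or.inr (Or.inr ⟨_, rfl⟩)))
  · intro l hl0 hl
    have h2 := (hv l hl0 hl).2.2.2 ⟨0, hpos⟩
    simpa using h2
  · intro ρ hρ
    exact (hodd ρ hρ ⟨0, hpos⟩).2

/-- if all involutions are conjugate to `J` then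
`∑_{x, y involutions} χ(x y) = #Inv² χ(J)² / χ(1)` -/
theorem dih_double_sum {G : Type*} [Group G] [Fintype G] (J : G)
    (hall : ∀ x : G, orderOf x = 2 → IsConj J x) (χ : Cfsg.IrrCharacter G) :
    ∑ x : G, ∑ y : G, (if orderOf x = 2 ∧ orderOf y = 2 then (χ : G → ℂ) (x * y) else 0) =
      (Nat.card {x : G // orderOf x = 2} : ℂ) ^ 2 * (χ : G → ℂ) J ^ 2 / (χ : G → ℂ) 1 := by
  classical
  have hG : (Nat.card G : ℂ) ≠ 0 := by
    have : 0 < Nat.card G := Nat.card_pos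
    exact_mod_cast this.ne'
  have hχ1 : (χ : G → ℂ) 1 ≠ 0 := Cfsg.Agent.Lib.Helper4.irr_one_ne_zero χ
  obtain ⟨a, ha⟩ : ∃ a : G → ℂ, a = fun x => if orderOf x = 2 then (1 : ℂ) else 0 := ⟨_, rfl⟩
  have hite : ∀ (x y : G) (v : ℂ),
      (if orderOf x = 2 ∧ orderOf y = 2 then v else 0) = a x * a y * v := by
    intro x y v
    rw [ha]
    by_cases hx : orderOf x = 2 <;> by_cases hy : orderOf y = 2 <;> simp [hx, hy]
  have haconj : ∀ t x : G, a (t * x * t⁻¹) = a x := by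
    intro t x
    rw [ha]
    simp only [dih_orderOf_conj]
  have haJ : ∀ x : G, a x * (χ : G → ℂ) x = a x * (χ : G → ℂ) J := by
    intro x
    rw [ha]
    by_cases hx : orderOf x = 2
    · simp only [hx, if_true, one_mul]
      exact (Cfsg.Agent.Lib.Helper4.irr_eq_of_isConj χ (hall x hx)).symm
    · simp [hx]
  have hN : ∑ x : G, a x = (Nat.card {x : G // orderOf x = 2} : ℂ) := by
    rw [ha, Finset.sum_boole, Nat.card_eq_fintype_card, Fintype.card_subtype]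
  simp only [hite]
  have hstep : ∀ t : G, ∑ x : G, ∑ y : G, a x * a y * (χ : G → ℂ) (x * y) =
      ∑ x : G, ∑ y : G, a x * a y * (χ : G → ℂ) (t * x * t⁻¹ * y) := by
    intro t
    rw [← Equiv.sum_comp (MulAut.conj t).toEquiv]
    refine Finset.sum_congr rfl fun x _ => Finset.sum_congr rfl fun y _ => ?_
    simp only [MulEquiv.toEquiv_eq_coe, EquivLike.coe_coe, MulAut.conj_apply, haconj]
  have htot : (Nat.card G : ℂ) * ∑ x : G, ∑ y : G, a x * a y * (χ : G → ℂ) (x * y) =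
      (Nat.card G : ℂ) * ((Nat.card {x : G // orderOf x = 2} : ℂ) ^ 2 * (χ : G → ℂ) J ^ 2 /
        (χ : G → ℂ) 1) := by
    calc (Nat.card G : ℂ) * ∑ x : G, ∑ y : G, a x * a y * (χ : G → ℂ) (x * y)
        = ∑ t : G, ∑ x : G, ∑ y : G, a x * a y * (χ : G → ℂ) (x * y) := by
          rw [Finset.sum_const, Finset.card_univ, nsmul_eq_mul, Nat.card_eq_fintype_card]
      _ = ∑ t : G, ∑ x : G, ∑ y : G, a x * a y * (χ : G → ℂ) (t * x * t⁻¹ * y) :=
          Finset.sum_congr rfl fun t _ => hstep t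
      _ = ∑ x : G, ∑ y : G, a x * a y * ∑ t : G, (χ : G → ℂ) (t * x * t⁻¹ * y) := by
          rw [Finset.sum_comm]
          refine Finset.sum_congr rfl fun x _ => ?_
          rw [Finset.sum_comm]
          refine Finset.sum_congr rfl fun y _ => ?_
          rw [Finset.mul_sum]
      _ = ∑ x : G, ∑ y : G, (a x * (χ : G → ℂ) J) * (a y * (χ : G → ℂ) J) *
            ((Nat.card G : ℂ) / (χ : G → ℂ) 1) := by
          refine Finset.sum_congr rfl fun x _ => Finset.sum_congr rfl fun y _ => ?_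
          rw [Cfsg.Agent.Lib.Helper22.irr_sum_conj_mul, ← haJ x, ← haJ y]
          ring
      _ = _ := by
          have h3 : ∀ x : G, ∑ y : G, (a x * (χ : G → ℂ) J) * (a y * (χ : G → ℂ) J) *
              ((Nat.card G : ℂ) / (χ : G → ℂ) 1) =
              a x * ((χ : G → ℂ) J * ((Nat.card {x : G // orderOf x = 2} : ℂ) * (χ : G → ℂ) J) *
                ((Nat.card G : ℂ) / (χ : G → ℂ) 1)) := by
            intro x
            rw [← Finset.sum_mul, ← Finset.mul_sum, ← Finset.sum_mul, hN]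
            ring
          rw [Finset.sum_congr rfl fun x _ => h3 x, ← Finset.sum_mul, hN]
          ring
  exact mul_left_cancel₀ hG htot

end Cfsg.Agent.Lib.Helper1
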