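import Mathlib
import Cfsg.Agent.Lib.Helper97.FCDefs

/-! S5115 piece FC-STEP (job 2466, for helper97): one step of the subnormal chain. -/

set_option autoImplicit false

namespace Cfsg.Agent.Lib.Helper1.FC

open Cfsg.Agent.Lib.Helper97.FC

universe u

theorem fc_step (h1 : NormalStmt.{u}) (h2 : MapStmt.{u}) : StepStmt.{u} := by
  intro G _ _ p _ S H K hle hN hK
  obtain ⟨hsylK, UK, hUK⟩ := hK
  obtain ⟨hsyl1, U1, hU1⟩ := h1 ↥K p (S.subgroupOf K) UK (H.subgroupOf K) hsylK hUK hN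
  obtain ⟨hsyl2, hU2⟩ := h2 ↥(H.subgroupOf K) ↥H p (Subgroup.subgroupOfEquivOfLe hle)
    ((S.subgroupOf K).subgroupOf (H.subgroupOf K)) U1 hsyl1 hU1
  have hmap : ((S.subgroupOf K).subgroupOf (H.subgroupOf K)).map
      (Subgroup.subgroupOfEquivOfLe hle).toMonoidHom = S.subgroupOf H := by
    ext x
    rw [Subgroup.mem_map]
    constructor
    · rintro ⟨y, hy, rfl⟩
      exact hy
    · intro hx
      refine ⟨(Subgroup.subgroupOfEquivOfLe hle).symm x, ?_, ?_⟩
      · exact hx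
      · exact (Subgroup.subgroupOfEquivOfLe hle).apply_symm_apply x
  rw [hmap] at hsyl2 hU2
  exact ⟨hsyl2, _, hU2⟩

end Cfsg.Agent.Lib.Helper1.FC
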