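import Mathlib
import Cfsg.Agent.Lib.Helper51.GFDefs2
import Cfsg.Agent.Lib.Helper54.OrthMinus

/-!
# S2717, piece GF-G1 (for helper51): the rational similarity `minusSimMat` is the diagonal
similarity `gH` in the split coordinates; determinant, base change, and `gH` is a similarity.
-/

set_option autoImplicit false
set_option linter.unusedSectionVars false
set_option linter.unusedVariables false

namespace Cfsg.Agent.Lib.Helper1.GFG1

open Module QuadraticMap Matrix
open Cfsg Cfsg.Agent.Lib.Helper51 Cfsg.Agent.Lib.Helper54 Cfsg.Agent.Lib.Helper51.GF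

universe u v

theorem minusSim_gT {F : Type u} [Field F] (k : ℕ) (σ : F ≃+* F) (lam c u₁ u₂ : F) :
    minusSimMat (m := k) (gA σ lam) (gB σ lam) c u₁ u₂ * gT k σ lam =
      gT k σ lam * gH k c (u₁ - u₂ * σ lam) (u₁ - u₂ * lam) := by
  apply Matrix.toLin'.injective
  apply LinearMap.ext
  intro x
  rw [Matrix.toLin'_apply, Matrix.toLin'_apply, ← Matrix.mulVec_mulVec, ← Matrix.mulVec_mulVec]
  unfold gT
  rw [LinearMap.toMatrix'_mulVec, LinearMap.toMatrix'_mulVec]
  unfold minusSimMat gH gA gB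
  rw [fromBlocks_mulVec]
  have hd : ∀ (d : Fin (k + 1) ⊕ Fin (k + 1) → F), diagonal d *ᵥ x = fun i => d i * x i :=
    fun d => funext (mulVec_diagonal d x)
  have hd' : ∀ (d w : Fin k ⊕ Fin k → F), diagonal d *ᵥ w = fun i => d i * w i :=
    fun d w => funext (mulVec_diagonal d w)
  rw [hd, hd']
  funext j
  rcases j with (j | j) | j
  · simp [plusToMinus]
  · simp [plusToMinus]
  · fin_cases j
    · simp [plusToMinus]
      ring
    · simp [plusToMinus]
      ring

theorem det_minusSimMat {F : Type u} [Field F] (k : ℕ) (a b c u₁ u₂ : F) :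
    (minusSimMat (m := k) a b c u₁ u₂).det = c ^ k * (u₁ ^ 2 + a * u₁ * u₂ + b * u₂ ^ 2) := by
  unfold minusSimMat
  rw [Matrix.det_fromBlocks_zero₂₁, Matrix.det_diagonal, Fintype.prod_sum_type,
    Matrix.det_fin_two_of]
  simp only [Sum.elim_inl, Sum.elim_inr, Finset.prod_const, Finset.card_univ, Fintype.card_fin,
    one_pow, mul_one]
  ring

theorem minusSimMat_map {F₀ : Type v} [Field F₀] {F : Type u} [Field F] (e : F₀ →+* F) (k : ℕ)
    (a b c u₁ u₂ : F₀) :
    (minusSimMat (m := k) a b c u₁ u₂).map e =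
      minusSimMat (m := k) (e a) (e b) (e c) (e u₁) (e u₂) := by
  unfold minusSimMat
  rw [Matrix.fromBlocks_map]
  congr 1
  · rw [Matrix.diagonal_map (map_zero e)]
    congr 1
    funext i
    rcases i with i | i <;> simp
  · ext i j
    simp
  · ext i j
    simp
  · ext i j
    fin_cases i <;> fin_cases j <;> simp

theorem gH_sim {F : Type u} [Field F] (k : ℕ) (c nu1 nu2 : F) (h12 : nu1 * nu2 = c)
    (v : Fin (k + 1) ⊕ Fin (k + 1) → F) :
    QPlus (k + 1) F (gH k c nu1 nu2 *ᵥ v) = c * QPlus (k + 1) F v := by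
  rw [QPlus_apply, QPlus_apply, Fin.sum_univ_castSucc, Fin.sum_univ_castSucc, mul_add,
    Finset.mul_sum]
  unfold gH
  simp only [mulVec_diagonal, Sum.elim_inl, Sum.elim_inr, Fin.lastCases_castSucc,
    Fin.lastCases_last]
  congr 1
  · apply Finset.sum_congr rfl
    intro i _
    ring
  · rw [← h12]
    ring

end Cfsg.Agent.Lib.Helper1.GFG1
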