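import Mathlib
import Cfsg.Agent.Lib.Helper53.GT6Def

set_option autoImplicit false

/-! GT6 piece M1 (job 2243, for helper53): every unitary `g` with `g σ(g)` scalar has a descent
datum. -/

namespace Cfsg.Agent.Lib.Helper1.GT6M1
open Matrix Cfsg.Agent.Lib.Helper53 Cfsg.Agent.Lib.Helper53.GT6
variable {F : Type*} [Field F] {F₀ : Type*} [Field F₀] {n : ℕ}

/-- M1: every unitary `g` with `g σ(g)` scalar has a descent datum -/
theorem desc_exists [Fintype F] (σ : F ≃+* F) (hord : orderOf σ = 2) (j : F₀ →+* F)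
    (hj : ∀ a : F, σ a = a ↔ a ∈ Set.range j) (hn : 0 < n)
    (g : Matrix (Fin n) (Fin n) F) (hU : g.transpose * g.map σ = 1) (c : F) (hc : c ≠ 0)
    (hg : g * g.map σ = c • (1 : Matrix (Fin n) (Fin n) F)) :
    ∃ (B : Matrix (Fin n) (Fin n) F) (g₀ : Matrix (Fin n) (Fin n) F₀), g₀.det ≠ 0 ∧
      (g₀.transpose = g₀ ∨ g₀.transpose = -g₀) ∧ Desc σ j g B g₀ := by
  classical
  have hσ2 : ∀ x, σ (σ x) = x := SUGO.sigma_sigma σ hord
  have : Nonempty (Fin n) := ⟨⟨0, hn⟩⟩
  -- g = c • gᵀ
  have hU' : g.map σ * g.transpose = 1 := (mul_eq_one_comm).1 hU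
  have hgT : g = c • g.transpose := by
    calc g = g * (g.map σ * g.transpose) := by rw [hU', Matrix.mul_one]
      _ = (g * g.map σ) * g.transpose := by rw [Matrix.mul_assoc]
      _ = c • g.transpose := by rw [hg, Matrix.smul_mul, Matrix.one_mul]
  have hgT' : g.transpose = c • g := by
    have := congrArg Matrix.transpose hgT
    rw [Matrix.transpose_smul, Matrix.transpose_transpose] at this
    exact this
  have hcc : c * c = 1 := by
    have h1 : (c * c) • (1 : Matrix (Fin n) (Fin n) F) = 1 := by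
      calc (c * c) • (1 : Matrix (Fin n) (Fin n) F) = c • (c • 1) := by rw [smul_smul]
        _ = c • (g * g.map σ) := by rw [hg]
        _ = (c • g) * g.map σ := by rw [Matrix.smul_mul]
        _ = g.transpose * g.map σ := by rw [← hgT']
        _ = 1 := hU
    have := congrFun (congrFun h1 ⟨0, hn⟩) ⟨0, hn⟩
    simpa using this
  have hc1 : c = 1 ∨ c = -1 := mul_self_eq_one_iff.1 hcc
  have hσc : σ c = c := by
    rcases hc1 with rfl | rfl <;> simp
  -- ω
  have hω : ∃ ω : F, ω ≠ 0 ∧ σ ω = c * ω := by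
    rcases hc1 with rfl | rfl
    · exact ⟨1, one_ne_zero, by simp⟩
    · have hne : σ ≠ 1 := by
        intro h
        rw [h, orderOf_one] at hord
        norm_num at hord
      obtain ⟨x, hx⟩ : ∃ x, σ x ≠ x := by
        by_contra hall
        push Not at hall
        exact hne (RingEquiv.ext hall)
      refine ⟨x - σ x, fun h => hx (sub_eq_zero.1 h).symm, ?_⟩
      rw [map_sub, hσ2]; ring
  obtain ⟨ω, hω0, hσω⟩ := hω
  -- twist
  have hT : ∀ v, (H90.sl σ g)^[2] v = c • v := by
    intro v
    have e1 : ∀ w : Fin n → F, σ ∘ (g *ᵥ w) = (g.map σ) *ᵥ (σ ∘ w) := by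
      intro w
      funext i
      simp [Matrix.mulVec, dotProduct, map_sum]
    have e2 : σ ∘ σ ∘ v = v := by
      funext i; simp [hσ2]
    show H90.sl σ g (H90.sl σ g v) = c • v
    unfold H90.sl
    rw [e1, e2, Matrix.mulVec_mulVec, hg, Matrix.smul_mulVec, Matrix.one_mulVec]
  obtain ⟨B, c₂, hBu, hc₂, hB⟩ := H90.exists_twist σ 2 (by norm_num) hord hn g c hc hT
  have hBdet : B.det ≠ 0 := hBu.ne_zero
  -- σg * g = c • 1
  have hg' : g.map σ * g = c • (1 : Matrix (Fin n) (Fin n) F) := by
    have h1 : (c⁻¹ • g) * g.map σ = 1 := by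
      rw [Matrix.smul_mul, hg, smul_smul, inv_mul_cancel₀ hc, one_smul]
    have h2 := (mul_eq_one_comm).1 h1
    rw [Matrix.mul_smul] at h2
    have := congrArg (fun M : Matrix (Fin n) (Fin n) F => c • M) h2
    simp only [smul_smul, mul_inv_cancel₀ hc, one_smul] at this
    exact this
  -- σB = (c⁻¹ * c₂) • (σg * B)
  have hσB : B.map σ = (c⁻¹ * c₂) • (g.map σ * B) := by
    have h1 : g.map σ * (g * B.map σ) = c₂ • (g.map σ * B) := by
      rw [hB, Matrix.mul_smul]
    rw [← Matrix.mul_assoc, hg', Matrix.smul_mul, Matrix.one_mul] at h1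
    rw [← smul_smul, ← h1, smul_smul, inv_mul_cancel₀ hc, one_smul]
  set M : Matrix (Fin n) (Fin n) F := B.transpose * B.map σ with hM
  have hMσ : M.map σ = M.transpose := by
    rw [hM, map_sigma_mul, map_map_sigma σ hσ2, Matrix.transpose_mul, Matrix.transpose_transpose,
      Matrix.transpose_map]
  have hMT : M.transpose = c • M := by
    rw [hM, Matrix.transpose_mul, Matrix.transpose_transpose, hσB, Matrix.transpose_smul,
      Matrix.transpose_mul, ← Matrix.transpose_map, hgT', map_sigma_smul, hσc]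
    simp only [Matrix.smul_mul, Matrix.mul_smul, smul_smul, Matrix.mul_assoc]
    congr 1; ring
  set N : Matrix (Fin n) (Fin n) F := ω⁻¹ • M with hN
  have hNσ : N.map σ = N := by
    rw [hN, map_sigma_smul, hMσ, hMT, map_inv₀, hσω, smul_smul]
    congr 1
    rw [mul_inv, mul_comm c⁻¹, mul_assoc, inv_mul_cancel₀ hc, mul_one]
  have hfix : ∀ a b, σ (N a b) = N a b := fun a b => by
    have := congrFun (congrFun hNσ a) b
    simpa using this
  choose M₀f hM₀f using fun a b => (hj (N a b)).1 (hfix a b)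
  set M₀ : Matrix (Fin n) (Fin n) F₀ := Matrix.of M₀f with hM₀
  have hM₀N : M₀.map j = N := by
    ext a b
    simp [hM₀, hM₀f]
  have hNT : N.transpose = c • N := by
    rw [hN, Matrix.transpose_smul, hMT, smul_comm]
  have hMdet : M.det ≠ 0 := by
    rw [hM, Matrix.det_mul, Matrix.det_transpose]
    have : (B.map σ).det = σ B.det := by
      have := RingHom.map_det (σ : F →+* F) B
      simpa [RingHom.mapMatrix_apply] using this.symm
    rw [this]
    exact mul_ne_zero hBdet ((map_ne_zero σ).2 hBdet)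
  have hNdet : N.det ≠ 0 := by
    rw [hN, Matrix.det_smul]
    exact mul_ne_zero (pow_ne_zero _ (inv_ne_zero hω0)) hMdet
  have hM₀det : M₀.det ≠ 0 := by
    intro h
    apply hNdet
    rw [← hM₀N]
    have := RingHom.map_det j M₀
    rw [RingHom.mapMatrix_apply] at this
    rw [← this, h, map_zero]
  have hM₀u : IsUnit M₀.det := isUnit_iff_ne_zero.2 hM₀det
  have hM₀T : M₀.transpose = M₀ ∨ M₀.transpose = -M₀ := by
    have hinj : Function.Injective (fun X : Matrix (Fin n) (Fin n) F₀ => X.map j) := by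
      intro X Y h
      ext a b
      exact j.injective (by simpa using congrFun (congrFun h a) b)
    rcases hc1 with rfl | rfl
    · left
      apply hinj
      show M₀.transpose.map j = M₀.map j
      rw [Matrix.transpose_map, hM₀N, hNT, one_smul]
    · right
      apply hinj
      show M₀.transpose.map j = (-M₀).map j
      rw [Matrix.transpose_map, hM₀N, hNT]
      ext a b
      simp [← hM₀N]
  refine ⟨B, M₀⁻¹, ?_, ?_, hBdet, ⟨c₂, hc₂, hB⟩, ω, hω0, ?_⟩
  · intro h
    have := Matrix.det_nonsing_inv_mul_det M₀ hM₀u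
    rw [h, zero_mul] at this
    exact zero_ne_one this
  · rw [Matrix.transpose_nonsing_inv]
    rcases hM₀T with h | h
    · left; rw [h]
    · right; rw [h]
      exact Matrix.inv_eq_right_inv (by rw [neg_mul_neg, Matrix.mul_nonsing_inv _ hM₀u])
  · have hMN : M = ω • N := by rw [hN, smul_smul, mul_inv_cancel₀ hω0, one_smul]
    have h1 : N * (M₀⁻¹).map j = 1 := by
      rw [← hM₀N, ← Matrix.map_mul, Matrix.mul_nonsing_inv _ hM₀u,
        Matrix.map_one _ (map_zero j) (map_one j)]
    show M * (M₀⁻¹).map j = ω • 1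
    rw [hMN, Matrix.smul_mul, h1]

end Cfsg.Agent.Lib.Helper1.GT6M1
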