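import Mathlib
import Cfsg.Agent.Lib.Helper22.HPDefs
import Cfsg.Agent.Lib.Helper87.BFFIDX

/-!
# S4504 / HP-RECOG, sub-piece NORM (helper1)

`|N_G(⟨z⟩)| = p · |Sq p| · |Z(G)|`.
-/

set_option autoImplicit false

namespace Cfsg.Agent.Lib.Helper1.HPR

open Cfsg Cfsg.Agent.Lib.Helper22.BFD Cfsg.Agent.Lib.Helper22.HPD

universe u

/-- a power of `z` with exponent prime to the order `p` of `z` has `z` as a power -/
theorem hprnorm_root {G : Type u} [Group G] (p : ℕ) (hp : p.Prime) (z : G)
    (hz : orderOf z = p) (k : ℤ) (hk : ¬ (p : ℤ) ∣ k) : ∃ b : ℤ, (z ^ k) ^ b = z := by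
  have hcop : IsCoprime (p : ℤ) k :=
    (Nat.prime_iff_prime_int.mp hp).coprime_iff_not_dvd.mpr hk
  obtain ⟨a, b, hab⟩ := hcop
  refine ⟨b, ?_⟩
  have h1 : z ^ (p : ℤ) = 1 := by
    rw [zpow_natCast, ← hz]; exact pow_orderOf_eq_one z
  have h2 : (z ^ k) ^ b = z ^ (a * (p : ℤ) + b * k) := by
    rw [zpow_add, mul_comm a (p : ℤ), zpow_mul, h1, one_zpow, one_mul, ← zpow_mul, mul_comm]
  rw [h2, hab, zpow_one]

/-- `|C_G(z)| = p |Z(G)|` -/
theorem hprnorm_centcard {G : Type u} [Group G] [Fintype G] (p : ℕ) [Fact p.Prime]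
    (hnn : ∀ H : Subgroup G, H.Normal → Nat.card H ≠ p) (z : G) (hz : orderOf z = p)
    (hC : ∀ g : G, g * z = z * g → ∃ t : ZMod p, ∃ u ∈ Subgroup.center G, g = z ^ t.val * u) :
    Nat.card (Subgroup.centralizer ({z} : Set G)) = p * Nat.card (Subgroup.center G) := by
  have hp : p.Prime := Fact.out
  haveI : NeZero p := ⟨hp.ne_zero⟩
  -- `z` is not central
  have hzc : z ∉ Subgroup.center G := by
    intro hc
    have hN : (Subgroup.zpowers z).Normal := by
      refine ⟨fun x hx g => ?_⟩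
      obtain ⟨k, rfl⟩ := Subgroup.mem_zpowers_iff.mp hx
      have hck : z ^ k ∈ Subgroup.center G := Subgroup.zpow_mem _ hc k
      have hcomm : g * z ^ k = z ^ k * g := (Subgroup.mem_center_iff.mp hck g)
      have : g * z ^ k * g⁻¹ = z ^ k := by rw [hcomm]; group
      rw [this]; exact Subgroup.zpow_mem_zpowers z k
    exact hnn _ hN (by rw [Nat.card_zpowers, hz])
  have hpow : ∀ k : ℤ, ¬ (p : ℤ) ∣ k → z ^ k ∉ Subgroup.center G := by
    intro k hk hc
    obtain ⟨b, hb⟩ := hprnorm_root p hp z hz k hk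
    exact hzc (hb ▸ Subgroup.zpow_mem _ hc b)
  -- the bijection
  let f : ZMod p × Subgroup.center G → Subgroup.centralizer ({z} : Set G) := fun x =>
    ⟨z ^ x.1.val * (x.2 : G), by
      rw [Subgroup.mem_centralizer_iff]
      intro h hh
      rw [Set.mem_singleton_iff] at hh
      subst hh
      have hu := Subgroup.mem_center_iff.mp x.2.2
      have h1 : h * (h ^ x.1.val * (x.2 : G)) = h ^ x.1.val * (h * (x.2 : G)) := by
        rw [← mul_assoc, ← mul_assoc, ← pow_succ', ← pow_succ]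
      rw [h1, hu h, mul_assoc]⟩
  have hinj : Function.Injective f := by
    rintro ⟨a, u⟩ ⟨b, u'⟩ hab
    have h0 : z ^ a.val * (u : G) = z ^ b.val * (u' : G) := congrArg Subtype.val hab
    have h1 : z ^ ((a.val : ℤ) - (b.val : ℤ)) = (u' : G) * (u : G)⁻¹ := by
      rw [zpow_sub, zpow_natCast, zpow_natCast]
      have : z ^ a.val = z ^ b.val * (u' : G) * (u : G)⁻¹ := by
        rw [← h0]; group
      rw [this]
      have hu' := Subgroup.mem_center_iff.mp u'.2
      have hu := Subgroup.mem_center_iff.mp (Subgroup.inv_mem _ u.2)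
      rw [mul_assoc, mul_assoc, ← hu ((z ^ b.val)⁻¹), ← mul_assoc (u' : G), ← hu' ((z ^ b.val)⁻¹)]
      group
    have h2 : (p : ℤ) ∣ (a.val : ℤ) - (b.val : ℤ) := by
      by_contra hnd
      apply hpow _ hnd
      rw [h1]
      exact Subgroup.mul_mem _ u'.2 (Subgroup.inv_mem _ u.2)
    have h3 : a = b := by
      have := (ZMod.intCast_zmod_eq_zero_iff_dvd ((a.val : ℤ) - (b.val : ℤ)) p).mpr h2
      push_cast at this
      rw [ZMod.natCast_zmod_val, ZMod.natCast_zmod_val] at this
      exact sub_eq_zero.mp this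
    subst h3
    have h4 : (u : G) = (u' : G) := mul_left_cancel h0
    rw [Prod.mk.injEq]
    exact ⟨rfl, Subtype.ext h4⟩
  have hsurj : Function.Surjective f := by
    rintro ⟨g, hg⟩
    rw [Subgroup.mem_centralizer_iff] at hg
    have hgz : g * z = z * g := (hg z rfl).symm
    obtain ⟨a, u, hu, hgu⟩ := hC g hgz
    exact ⟨(a, ⟨u, hu⟩), Subtype.ext hgu.symm⟩
  rw [← Nat.card_congr (Equiv.ofBijective f ⟨hinj, hsurj⟩), Nat.card_prod, Nat.card_zmod]

/-- SUB-PIECE NORM: `|N_G(⟨z⟩)| = p · |Sq p| · |Z(G)|` -/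
theorem recog_norm {G : Type u} [Group G] [Fintype G] (p : ℕ) [Fact p.Prime]
    (hnn : ∀ H : Subgroup G, H.Normal → Nat.card H ≠ p)
    (z : G) (hz : orderOf z = p)
    (hE : ∀ k : ZMod p, IsConj (z ^ k.val) z ↔ k ∈ Sq p)
    (hC : ∀ g : G, g * z = z * g → ∃ t : ZMod p, ∃ u ∈ Subgroup.center G, g = z ^ t.val * u) :
    Nat.card (Subgroup.normalizer ((Subgroup.zpowers z : Subgroup G) : Set G)) =
      p * (Sq p).card * Nat.card (Subgroup.center G) := by
  classical
  have h1 := hprnorm_centcard p hnn z hz hC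
  have h2 := Cfsg.Agent.Lib.Helper87.BFT.fidx p z hz
  have h3 : Ef p z = Sq p := by
    ext k
    rw [← hE k]
    simp [Ef]
  rw [h3] at h2
  have hle : Subgroup.centralizer ({z} : Set G) ≤
      Subgroup.normalizer ((Subgroup.zpowers z : Subgroup G) : Set G) := by
    intro g hg
    rw [Subgroup.mem_centralizer_iff] at hg
    have hgz : z * g = g * z := hg z rfl
    rw [Subgroup.mem_normalizer_iff]
    intro h
    have key : ∀ x : G, x ∈ Subgroup.zpowers z → g * x * g⁻¹ = x := by
      intro x hx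
      obtain ⟨k, rfl⟩ := Subgroup.mem_zpowers_iff.mp hx
      have hc : Commute g z := hgz.symm
      have := (hc.zpow_right k).eq
      rw [this, mul_inv_cancel_right]
    constructor
    · intro hh
      rw [key h hh]; exact hh
    · intro hh
      have : h = g⁻¹ * (g * h * g⁻¹) * g := by group
      rw [this]
      have h5 : g⁻¹ * (g * h * g⁻¹) * g = g * h * g⁻¹ := by
        have hc : Commute g (g * h * g⁻¹) := by
          obtain ⟨k, hk⟩ := Subgroup.mem_zpowers_iff.mp hh
          rw [← hk]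
          have hc : Commute g z := hgz.symm
          exact hc.zpow_right k
        rw [mul_assoc, ← hc.eq, inv_mul_cancel_left]
      rw [h5]; exact hh
  have h4 := (Subgroup.subgroupOf (Subgroup.centralizer ({z} : Set G))
      (Subgroup.normalizer ((Subgroup.zpowers z : Subgroup G) : Set G))).card_mul_index
  have h5 : Nat.card (Subgroup.subgroupOf (Subgroup.centralizer ({z} : Set G))
      (Subgroup.normalizer ((Subgroup.zpowers z : Subgroup G) : Set G))) =
      Nat.card (Subgroup.centralizer ({z} : Set G)) :=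
    Nat.card_congr (Subgroup.subgroupOfEquivOfLe hle).toEquiv
  rw [h5, h1] at h4
  have h6 : (Subgroup.subgroupOf (Subgroup.centralizer ({z} : Set G))
      (Subgroup.normalizer ((Subgroup.zpowers z : Subgroup G) : Set G))).index = (Sq p).card := h2
  rw [h6] at h4
  rw [← h4]; ring

end Cfsg.Agent.Lib.Helper1.HPR
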