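import Mathlib

/-!
# S4504 / HP-RECOG, sub-piece P7GRP (helper1)

A regular normal subgroup of the permutation group induced on the Sylow `p`-subgroups
is an elementary abelian `2`-group; its preimage `L` satisfies `L / Z(G)` elementary abelian
of order `p + 1`.
-/

set_option autoImplicit false

namespace Cfsg.Agent.Lib.Helper1.HPR

universe u

/-- a power of `z` with exponent prime to the order `p` of `z` has `z` as a power -/
theorem hprp7_root {G : Type u} [Group G] (p : ℕ) (hp : p.Prime) (z : G)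
    (hz : orderOf z = p) (k : ℤ) (hk : ¬ (p : ℤ) ∣ k) : ∃ b : ℤ, (z ^ k) ^ b = z := by
  have hcop : IsCoprime (p : ℤ) k :=
    (Nat.prime_iff_prime_int.mp hp).coprime_iff_not_dvd.mpr hk
  obtain ⟨a, b, hab⟩ := hcop
  refine ⟨b, ?_⟩
  have h1 : z ^ (p : ℤ) = 1 := by
    rw [zpow_natCast, ← hz]; exact pow_orderOf_eq_one z
  have h2 : (z ^ k) ^ b = z ^ (a * (p : ℤ) + b * k) := by
    rw [zpow_add, mul_comm a (p : ℤ), zpow_mul, h1, one_zpow, one_mul, ← zpow_mul, mul_comm]
  rw [h2, hab, zpow_one]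

/-- a regular normal subgroup `N` of a group `Γ` acting on `p + 1` points, `Γ` containing an
element `ζ` with `ζ ^ p = 1` all of whose nontrivial powers fix exactly one point, has exponent 2 -/
theorem hprp7_regular {Γ : Type*} {X : Type*} [Group Γ] [Finite Γ] [MulAction Γ X] (p : ℕ)
    (hp : p.Prime) (hp2 : p ≠ 2) (hX : Nat.card X = p + 1) (N : Subgroup Γ) (hN : N.Normal)
    (hNt : MulAction.IsPretransitive N X) (hNr : ∀ c : X, MulAction.stabilizer N c = ⊥)
    (ζ : Γ) (x₀ : X) (hfix : ζ • x₀ = x₀)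
    (huniq : ∀ i : ℕ, 0 < i → i < p → ∀ x : X, ζ ^ i • x = x → x = x₀) :
    ∀ n ∈ N, n ^ 2 = 1 := by
  classical
  haveI : Fintype N := Fintype.ofFinite _
  have hcardN : Nat.card N = p + 1 := by
    have h := MulAction.index_stabilizer_of_transitive N x₀
    rw [hNr x₀, Subgroup.index_bot, hX] at h
    exact h
  have hfixpow : ∀ i : ℕ, ζ ^ i • x₀ = x₀ := by
    intro i
    induction i with
    | zero => simp
    | succ k ih => rw [pow_succ, mul_smul, hfix, ih]
  have hc : ∀ n : Γ, n ∈ N → ∀ i : ℕ, 0 < i → i < p → n * ζ ^ i = ζ ^ i * n → n = 1 := by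
    intro n hn i hi0 hip hcomm
    have h1 : ζ ^ i • (n • x₀) = n • x₀ := by
      rw [← mul_smul, ← hcomm, mul_smul, hfixpow i]
    have h2 := huniq i hi0 hip _ h1
    have h3 : (⟨n, hn⟩ : N) ∈ MulAction.stabilizer N x₀ := by
      rw [MulAction.mem_stabilizer_iff]; exact h2
    rw [hNr x₀, Subgroup.mem_bot] at h3
    exact congrArg Subtype.val h3
  -- an element of order 2
  have h2dvd : 2 ∣ Nat.card N := by
    rw [hcardN]
    rcases hp.eq_two_or_odd' with h | h
    · exact absurd h hp2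
    · obtain ⟨k, hk⟩ := h
      exact ⟨k + 1, by omega⟩
  haveI : Fact (Nat.Prime 2) := ⟨Nat.prime_two⟩
  obtain ⟨t, ht⟩ := exists_prime_orderOf_dvd_card' 2 h2dvd
  have ht1 : t ≠ 1 := by
    intro h; rw [h, orderOf_one] at ht; omega
  have ht2 : (t : Γ) ^ 2 = 1 := by
    have := pow_orderOf_eq_one t
    rw [ht] at this
    exact_mod_cast congrArg Subtype.val this
  let g : ℕ → N := fun i => ⟨ζ ^ i * (t : Γ) * (ζ ^ i)⁻¹, hN.conj_mem _ t.2 _⟩
  have hlt : ∀ i j : ℕ, i < j → j < p → g i ≠ g j := by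
    intro i j hij hjp h
    have h' : ζ ^ i * (t : Γ) * (ζ ^ i)⁻¹ = ζ ^ j * (t : Γ) * (ζ ^ j)⁻¹ := congrArg Subtype.val h
    have hj : ζ ^ j = ζ ^ i * ζ ^ (j - i) := by rw [← pow_add]; congr 1; omega
    rw [hj] at h'
    have h'' : (t : Γ) * ζ ^ (j - i) = ζ ^ (j - i) * (t : Γ) := by
      have h3 : (t : Γ) = ζ ^ (j - i) * (t : Γ) * (ζ ^ (j - i))⁻¹ := by
        have := congrArg (fun x => (ζ ^ i)⁻¹ * x * ζ ^ i) h'
        simp only [mul_inv_rev] at this
        have e1 : (ζ ^ i)⁻¹ * (ζ ^ i * (t : Γ) * (ζ ^ i)⁻¹) * ζ ^ i = (t : Γ) := by group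
        have e2 : (ζ ^ i)⁻¹ * (ζ ^ i * ζ ^ (j - i) * (t : Γ) * ((ζ ^ (j - i))⁻¹ * (ζ ^ i)⁻¹)) * ζ ^ i
            = ζ ^ (j - i) * (t : Γ) * (ζ ^ (j - i))⁻¹ := by group
        rw [e1, e2] at this
        exact this
      calc (t : Γ) * ζ ^ (j - i) = ζ ^ (j - i) * (t : Γ) * (ζ ^ (j - i))⁻¹ * ζ ^ (j - i) := by
            rw [← h3]
        _ = ζ ^ (j - i) * (t : Γ) := by group
    have := hc (t : Γ) t.2 (j - i) (by omega) (by omega) h''
    exact ht1 (Subtype.ext this)
  have hinj : Set.InjOn g (Finset.range p : Set ℕ) := by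
    intro i hi j hj hij
    simp only [Finset.coe_range, Set.mem_Iio] at hi hj
    by_contra hne
    rcases Nat.lt_or_gt_of_ne hne with h | h
    · exact hlt i j h hj hij
    · exact hlt j i h hi hij.symm
  have hsub : (Finset.range p).image g ⊆ (Finset.univ : Finset N).erase 1 := by
    intro n hn
    rw [Finset.mem_image] at hn
    obtain ⟨i, _, rfl⟩ := hn
    rw [Finset.mem_erase]
    refine ⟨?_, Finset.mem_univ _⟩
    intro h
    have h' : ζ ^ i * (t : Γ) * (ζ ^ i)⁻¹ = 1 := congrArg Subtype.val h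
    have : (t : Γ) = 1 := by
      have e : (t : Γ) = (ζ ^ i)⁻¹ * (ζ ^ i * (t : Γ) * (ζ ^ i)⁻¹) * ζ ^ i := by group
      rw [e, h']; group
    exact ht1 (Subtype.ext this)
  have hcard : ((Finset.univ : Finset N).erase 1).card ≤ ((Finset.range p).image g).card := by
    rw [Finset.card_image_of_injOn hinj, Finset.card_range, Finset.card_erase_of_mem (Finset.mem_univ _),
      Finset.card_univ, ← Nat.card_eq_fintype_card, hcardN]
    omega
  have heq := Finset.eq_of_subset_of_card_le hsub hcard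
  intro n hn
  by_cases hn1 : n = 1
  · rw [hn1, one_pow]
  · have hmem : (⟨n, hn⟩ : N) ∈ (Finset.univ : Finset N).erase 1 := by
      rw [Finset.mem_erase]
      exact ⟨fun h => hn1 (congrArg Subtype.val h), Finset.mem_univ _⟩
    rw [← heq, Finset.mem_image] at hmem
    obtain ⟨i, _, hi⟩ := hmem
    have hi' : ζ ^ i * (t : Γ) * (ζ ^ i)⁻¹ = n := congrArg Subtype.val hi
    rw [← hi', conj_pow, ht2]; group

/-- SUB-PIECE P7GRP: a regular normal subgroup of the permutation group on the Sylow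
`p`-subgroups gives `L ≥ Z(G)` with `L / Z(G)` elementary abelian of order `p + 1` -/
theorem recog_p7_grp {G : Type u} [Group G] [Fintype G] (p : ℕ) [Fact p.Prime] (hp2 : p ≠ 2)
    (hsq : ¬ p ^ 2 ∣ Nat.card G) (z : G) (hz : orderOf z = p)
    (hker : (MulAction.toPermHom G (Sylow p G)).ker = Subgroup.center G)
    (hcard : Nat.card (Sylow p G) = p + 1)
    (N : Subgroup (MulAction.toPermHom G (Sylow p G)).range) (hN : N.Normal)
    (hNt : MulAction.IsPretransitive N (Sylow p G))
    (hNr : ∀ c : Sylow p G, MulAction.stabilizer N c = ⊥) :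
    ∃ L : Subgroup G, Subgroup.center G ≤ L ∧
      Nat.card L = (p + 1) * Nat.card (Subgroup.center G) ∧
      (∀ l ∈ L, l ^ 2 ∈ Subgroup.center G) ∧
      (∀ a ∈ L, ∀ b ∈ L, a * b * a⁻¹ * b⁻¹ ∈ Subgroup.center G) := by
  classical
  have hp : p.Prime := Fact.out
  have hGne : Nat.card G ≠ 0 := Nat.card_pos.ne'
  have hpdvd : p ∣ Nat.card G := hz ▸ orderOf_dvd_natCard z
  have hfac : (Nat.card G).factorization p = 1 := by
    have h1 : 1 ≤ (Nat.card G).factorization p := (hp.dvd_iff_one_le_factorization hGne).mp hpdvd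
    have h2 : ¬ 2 ≤ (Nat.card G).factorization p := fun h =>
      hsq ((hp.pow_dvd_iff_le_factorization hGne).mpr h)
    omega
  have hsylcard : ∀ R : Sylow p G, Nat.card R = p := fun R => by
    rw [Sylow.card_eq_multiplicity, hfac, pow_one]
  have hR : ∀ R : Sylow p G, z ∈ R → (R : Subgroup G) = Subgroup.zpowers z := by
    intro R hzR
    symm
    apply Subgroup.eq_of_le_of_card_ge (Subgroup.zpowers_le.mpr hzR)
    rw [Nat.card_zpowers, hz]
    exact (hsylcard R).le
  have hpg : IsPGroup p (Subgroup.zpowers z) :=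
    IsPGroup.of_card (n := 1) (by rw [Nat.card_zpowers, hz, pow_one])
  obtain ⟨Q₀, hQ₀⟩ := hpg.exists_le_sylow
  have hzQ₀ : z ∈ Q₀ := hQ₀ (Subgroup.mem_zpowers z)
  -- the element ζ
  let ζ : (MulAction.toPermHom G (Sylow p G)).range := ⟨MulAction.toPermHom G (Sylow p G) z, z, rfl⟩
  have hζpow : ∀ (i : ℕ) (x : Sylow p G), ζ ^ i • x = z ^ i • x := by
    intro i x
    have : ζ ^ i = ⟨MulAction.toPermHom G (Sylow p G) (z ^ i), z ^ i, rfl⟩ := by
      apply Subtype.ext
      show (MulAction.toPermHom G (Sylow p G) z) ^ i = MulAction.toPermHom G (Sylow p G) (z ^ i)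
      rw [map_pow]
    rw [this]
    rfl
  have hfix : ζ • Q₀ = Q₀ := by
    have h1 := hζpow 1 Q₀
    rw [pow_one, pow_one] at h1
    rw [h1, Sylow.smul_eq_iff_mem_normalizer]
    exact Subgroup.le_normalizer hzQ₀
  have huniq : ∀ i : ℕ, 0 < i → i < p → ∀ x : Sylow p G, ζ ^ i • x = x → x = Q₀ := by
    intro i hi0 hip x hx
    rw [hζpow i x, Sylow.smul_eq_iff_mem_normalizer] at hx
    have h1 : z ^ i ∈ (Q₀ : Subgroup G) ⊓ _ := ⟨Subgroup.pow_mem _ hzQ₀ i, hx⟩
    rw [Q₀.isPGroup'.inf_normalizer_sylow x] at h1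
    have h2 : z ^ i ∈ (x : Subgroup G) := h1.2
    have hnd : ¬ (p : ℤ) ∣ (i : ℤ) := by
      intro h
      have h' : p ∣ i := by exact_mod_cast h
      exact absurd (Nat.le_of_dvd hi0 h') (by omega)
    obtain ⟨b, hb⟩ := hprp7_root p hp z hz (i : ℤ) hnd
    rw [zpow_natCast] at hb
    have h3 : z ∈ (x : Subgroup G) := hb ▸ Subgroup.zpow_mem _ h2 b
    apply Sylow.ext
    rw [hR x h3, hR Q₀ hzQ₀]
  have hexp := hprp7_regular p hp hp2 hcard N hN hNt hNr ζ Q₀ hfix huniq
  have hcomm : ∀ a ∈ N, ∀ b ∈ N, a * b = b * a := by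
    intro a ha b hb
    have h1 := hexp a ha
    have h2 := hexp b hb
    have h3 := hexp (a * b) (N.mul_mem ha hb)
    have ha' : a⁻¹ = a := inv_eq_of_mul_eq_one_left (by rw [← sq]; exact h1)
    have hb' : b⁻¹ = b := inv_eq_of_mul_eq_one_left (by rw [← sq]; exact h2)
    have hab' : (a * b)⁻¹ = a * b := inv_eq_of_mul_eq_one_left (by rw [← sq]; exact h3)
    calc a * b = (a * b)⁻¹ := hab'.symm
      _ = b⁻¹ * a⁻¹ := mul_inv_rev a b
      _ = b * a := by rw [ha', hb']
  -- the preimage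
  have hmemker : ∀ g : G, (MulAction.toPermHom G (Sylow p G)).rangeRestrict g = 1 →
      g ∈ Subgroup.center G := by
    intro g hg
    rw [← hker, MonoidHom.mem_ker]
    exact congrArg Subtype.val hg
  have hcardN : Nat.card N = p + 1 := by
    have h := MulAction.index_stabilizer_of_transitive N Q₀
    rw [hNr Q₀, Subgroup.index_bot, hcard] at h
    exact h
  refine ⟨N.comap (MulAction.toPermHom G (Sylow p G)).rangeRestrict, ?_, ?_, ?_, ?_⟩
  · intro u hu
    rw [Subgroup.mem_comap]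
    have : (MulAction.toPermHom G (Sylow p G)).rangeRestrict u = 1 := by
      apply Subtype.ext
      rw [← hker, MonoidHom.mem_ker] at hu
      exact hu
    rw [this]; exact N.one_mem
  · have hsurj := (MulAction.toPermHom G (Sylow p G)).rangeRestrict_surjective
    have h1 := (N.comap (MulAction.toPermHom G (Sylow p G)).rangeRestrict).card_mul_index
    rw [Subgroup.index_comap_of_surjective N hsurj] at h1
    have h2 := N.card_mul_index
    have h3 := (MulAction.toPermHom G (Sylow p G)).ker.card_mul_index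
    rw [Subgroup.index_ker, hker] at h3
    have hidx : 0 < N.index := Nat.pos_of_ne_zero Subgroup.index_ne_zero_of_finite
    have h4 : Nat.card (N.comap (MulAction.toPermHom G (Sylow p G)).rangeRestrict) * N.index =
        ((p + 1) * Nat.card (Subgroup.center G)) * N.index := by
      rw [h1, ← h3, ← h2, hcardN]; ring
    exact Nat.eq_of_mul_eq_mul_right hidx h4
  · intro l hl
    rw [Subgroup.mem_comap] at hl
    apply hmemker
    rw [map_pow]
    exact hexp _ hl
  · intro a ha b hb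
    rw [Subgroup.mem_comap] at ha hb
    apply hmemker
    rw [map_mul, map_mul, map_mul, map_inv, map_inv, hcomm _ ha _ hb]
    group

end Cfsg.Agent.Lib.Helper1.HPR
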