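import Mathlib
import Cfsg.Agent.S0033
import Cfsg.Agent.Lib.Helper26.FpfBasic
import Cfsg.Agent.Lib.Helper26.FpfTrace

/-!
# Kegel's theorem on splitting automorphisms

An automorphism `φ` of `G` is `p`-splitting (`KgSplit p φ`) when
`x * φ x * ⋯ * φ^(p-1) x = 1` for all `x`.  A finite group with a `p`-splitting automorphism
(`p` prime) is nilpotent (`kegel_nilpotent`).  The proof follows Thompson's proof for
fixed-point-free automorphisms (helper26's `S0033`), with inner multiples of `φ` replacing the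
uniqueness of invariant Sylow subgroups.
-/

set_option autoImplicit false

namespace Cfsg.Agent.Lib.Helper1

open Cfsg
open Cfsg.Agent.Lib.Helper26

universe u

section kegelBasic

variable {G : Type u} [Group G]

/-- partial products `x * φ x * ⋯ * φ^(k-1) x` -/
def kgSp (φ : G ≃* G) : ℕ → G → G
  | 0, _ => 1
  | k + 1, x => x * φ (kgSp φ k x)

theorem kgSp_zero (φ : G ≃* G) (x : G) : kgSp φ 0 x = 1 := rfl

theorem kgSp_succ (φ : G ≃* G) (k : ℕ) (x : G) : kgSp φ (k + 1) x = x * φ (kgSp φ k x) := rfl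

/-- `φ` is `p`-splitting -/
def KgSplit (p : ℕ) (φ : G ≃* G) : Prop := ∀ x, kgSp φ p x = 1

theorem kgSp_eq_list (φ : MulAut G) (k : ℕ) (x : G) :
    kgSp φ k x = ((List.range k).map (fun i : ℕ => (φ ^ i) x)).prod := by
  induction k with
  | zero => rfl
  | succ k ih =>
    rw [kgSp_succ, ih, List.range_succ_eq_map, List.map_cons, List.prod_cons, List.map_map,
      map_list_prod, List.map_map]
    congr 1
    apply congrArg
    apply List.map_congr_left
    intro i _
    show φ ((φ ^ i) x) = (φ ^ (i + 1)) x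
    rw [pow_succ']
    rfl

theorem kgSp_succ' (φ : MulAut G) (k : ℕ) (x : G) :
    kgSp φ (k + 1) x = kgSp φ k x * (φ ^ k) x := by
  induction k with
  | zero => simp [kgSp]
  | succ k ih =>
    have e : (φ ^ (k + 1)) x = φ ((φ ^ k) x) := by rw [pow_succ']; rfl
    calc kgSp φ (k + 2) x = x * φ (kgSp φ (k + 1) x) := rfl
      _ = x * φ (kgSp φ k x * (φ ^ k) x) := by rw [ih]
      _ = (x * φ (kgSp φ k x)) * φ ((φ ^ k) x) := by rw [map_mul, mul_assoc]
      _ = kgSp φ (k + 1) x * (φ ^ (k + 1)) x := by rw [e]; rfl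

theorem KgSplit.pow_eq_one {p : ℕ} {φ : MulAut G} (h : KgSplit p φ) : φ ^ p = 1 := by
  ext x
  have h1 := kgSp_succ φ p x
  rw [h x, map_one, mul_one] at h1
  have h2 := kgSp_succ' φ p x
  rw [h x, one_mul] at h2
  rw [← h2, h1]
  rfl

theorem kgSp_conj (φ : MulAut G) (g : G) (k : ℕ) (x : G) :
    kgSp (MulAut.conj g * φ) k x * kgSp φ k g = kgSp φ k (x * g) := by
  induction k with
  | zero => simp [kgSp]
  | succ k ih =>
    rw [kgSp_succ, kgSp_succ, kgSp_succ, ← ih, MulAut.mul_apply, MulAut.conj_apply, map_mul]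
    group

theorem KgSplit.conj {p : ℕ} {φ : MulAut G} (h : KgSplit p φ) (g : G) :
    KgSplit p (MulAut.conj g * φ) := by
  intro x
  have h1 := kgSp_conj φ g p x
  rw [h g, h (x * g), mul_one] at h1
  exact h1

theorem kg_conj_mul_pow (φ : MulAut G) (g : G) (k : ℕ) :
    (MulAut.conj g * φ) ^ k = MulAut.conj (kgSp φ k g) * φ ^ k := by
  induction k with
  | zero => simp [kgSp]
  | succ k ih =>
    rw [pow_succ', ih, pow_succ', kgSp_succ]
    ext x
    simp only [MulAut.mul_apply, MulAut.conj_apply, map_mul, map_inv]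

theorem kg_hol_pow (φ : MulAut G) (x : G) (k : ℕ) :
    (⟨x, φ⟩ : G ⋊[MonoidHom.id (MulAut G)] MulAut G) ^ k = ⟨kgSp φ k x, φ ^ k⟩ := by
  induction k with
  | zero => rfl
  | succ k ih =>
    rw [pow_succ', ih]
    apply SemidirectProduct.ext
    · rw [SemidirectProduct.mul_left]
      rfl
    · rw [SemidirectProduct.mul_right, pow_succ']

theorem kg_eq_of_pow_eq_of_coprime {M : Type*} [Monoid M] {a b : M} {p k : ℕ} (hp1 : 1 < p)
    (hcop : Nat.Coprime k p) (ha : a ^ p = 1) (hb : b ^ p = 1) (hab : a ^ k = b ^ k) : a = b := by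
  obtain ⟨m, -, hm⟩ := Nat.exists_mul_mod_eq_one_of_coprime hcop hp1
  have key : ∀ c : M, c ^ p = 1 → c ^ (k * m) = c := by
    intro c hc
    conv_lhs => rw [← Nat.div_add_mod (k * m) p, hm, pow_add, pow_mul, hc, one_pow, one_mul,
      pow_one]
  rw [← key a ha, ← key b hb, pow_mul, pow_mul, hab]

theorem kgSp_injective {p : ℕ} (hp : p.Prime) {φ : MulAut G} (h : KgSplit p φ) {k : ℕ}
    (hk0 : 0 < k) (hkp : k < p) : Function.Injective (kgSp φ k) := by
  intro x y hxy
  have hx : (⟨x, φ⟩ : G ⋊[MonoidHom.id (MulAut G)] MulAut G) ^ p = 1 := by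
    rw [kg_hol_pow, h x, h.pow_eq_one]; rfl
  have hy : (⟨y, φ⟩ : G ⋊[MonoidHom.id (MulAut G)] MulAut G) ^ p = 1 := by
    rw [kg_hol_pow, h y, h.pow_eq_one]; rfl
  have hk : (⟨x, φ⟩ : G ⋊[MonoidHom.id (MulAut G)] MulAut G) ^ k = ⟨y, φ⟩ ^ k := by
    rw [kg_hol_pow, kg_hol_pow, hxy]
  have hcop : Nat.Coprime k p :=
    ((Nat.Prime.coprime_iff_not_dvd hp).mpr (Nat.not_dvd_of_pos_of_lt hk0 hkp)).symm
  have := kg_eq_of_pow_eq_of_coprime hp.one_lt hcop hx hy hk
  exact congrArg SemidirectProduct.left this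

theorem kgSp_resAut (φ : G ≃* G) (S : Subgroup G) (h : S.map (φ : G →* G) = S) (k : ℕ) (x : S) :
    ((kgSp (resAut φ S h) k x : S) : G) = kgSp φ k x := by
  induction k with
  | zero => rfl
  | succ k ih => rw [kgSp_succ, kgSp_succ, Subgroup.coe_mul, resAut_coe, ih]

theorem KgSplit.res {p : ℕ} {φ : G ≃* G} (hφ : KgSplit p φ) (S : Subgroup G)
    (h : S.map (φ : G →* G) = S) : KgSplit p (resAut φ S h) := by
  intro x
  apply Subtype.ext
  rw [kgSp_resAut, hφ x]
  rfl

theorem kgSp_quotAut (φ : G ≃* G) (N : Subgroup G) [N.Normal] (h : N.map (φ : G →* G) = N)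
    (k : ℕ) (x : G) :
    kgSp (quotAut φ N h) k (QuotientGroup.mk x) = QuotientGroup.mk (kgSp φ k x) := by
  induction k with
  | zero => rfl
  | succ k ih => rw [kgSp_succ, kgSp_succ, ih, quotAut_mk]; rfl

theorem KgSplit.quot {p : ℕ} {φ : G ≃* G} (hφ : KgSplit p φ) (N : Subgroup G) [N.Normal]
    (h : N.map (φ : G →* G) = N) : KgSplit p (quotAut φ N h) := by
  intro x
  induction x using QuotientGroup.induction_on with
  | H x => rw [kgSp_quotAut, hφ x]; rfl

end kegelBasic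

section kegelTrace

/-- the averaging ("trace") argument in abstract form (variant of helper26's
`trace_abstract`). -/
theorem kg_trace_abstract {V T : Type*} [CommGroup V] [Finite V] [Group T] [Finite T]
    (c : T → V → V) (hc_mul : ∀ w v1 v2, c w (v1 * v2) = c w v1 * c w v2)
    (hc_comp : ∀ w1 w2 v, c (w1 * w2) v = c w1 (c w2 v)) (hc_one : ∀ v, c 1 v = v)
    (r : ℕ) (hr : 0 < r) (Ψ : ℕ → V → V) (σ : ℕ → T → T)
    (hσ0 : ∀ w, σ 0 w = 1) (hΨ0 : ∀ v, Ψ 0 v = v)
    (H : ∀ w v, ∏ k ∈ Finset.range r, c (σ k w) (Ψ k v) = 1)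
    (hd : ∀ k, 0 < k → k < r → Function.Injective (σ k))
    (hcop : (Nat.card T).Coprime (Nat.card V)) : ∀ w v, c w v = v := by
  classical
  have : Fintype T := Fintype.ofFinite T
  let C : T → V →* V := fun w => MonoidHom.mk' (c w) (hc_mul w)
  have hC : ∀ w v, C w v = c w v := fun w v => rfl
  let Nm : V → V := fun v => ∏ u : T, c u v
  have hNm : ∀ u0 v, c u0 (Nm v) = Nm v := by
    intro u0 v
    show c u0 (∏ u : T, c u v) = ∏ u : T, c u v
    rw [← hC, map_prod]
    simp only [hC, ← hc_comp]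
    exact Fintype.prod_equiv (Equiv.mulLeft u0) _ _ (fun u => rfl)
  have key : ∀ v, v ^ Nat.card T * ∏ k ∈ (Finset.range r).erase 0, Nm (Ψ k v) = 1 := by
    intro v
    have h1 : ∏ w : T, ∏ k ∈ Finset.range r, c (σ k w) (Ψ k v) = 1 :=
      Finset.prod_eq_one (fun w _ => H w v)
    rw [Finset.prod_comm, ← Finset.mul_prod_erase _ _ (Finset.mem_range.mpr hr)] at h1
    rw [← h1]
    congr 1
    · simp only [hσ0, hΨ0, hc_one, Finset.prod_const, Finset.card_univ,
        Nat.card_eq_fintype_card]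
    · apply Finset.prod_congr rfl
      intro k hk
      have hk0 : 0 < k := Nat.pos_of_ne_zero (Finset.ne_of_mem_erase hk)
      have hkr : k < r := Finset.mem_range.mp (Finset.mem_of_mem_erase hk)
      have hbij : Function.Bijective (σ k) :=
        Finite.injective_iff_bijective.mp (hd k hk0 hkr)
      exact (Function.Bijective.prod_comp hbij (fun u => c u (Ψ k v))).symm
  intro u0 v
  have h1 : c u0 v ^ Nat.card T = v ^ Nat.card T := by
    have e1 : v ^ Nat.card T = (∏ k ∈ (Finset.range r).erase 0, Nm (Ψ k v))⁻¹ :=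
      eq_inv_of_mul_eq_one_left (key v)
    have e2 : c u0 (v ^ Nat.card T) = v ^ Nat.card T := by
      rw [e1, ← hC, map_inv, map_prod]
      congr 1
      apply Finset.prod_congr rfl
      intro k _
      rw [hC, hNm]
    rw [← hC, ← map_pow, hC]; exact e2
  have h2 : (c u0 v * v⁻¹) ^ Nat.card T = 1 := by rw [mul_pow, inv_pow, h1, mul_inv_cancel]
  have h3 : orderOf (c u0 v * v⁻¹) ∣ Nat.card T := orderOf_dvd_of_pow_eq_one h2
  have h4 : orderOf (c u0 v * v⁻¹) ∣ Nat.card V := orderOf_dvd_natCard _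
  have h5 : orderOf (c u0 v * v⁻¹) ∣ 1 := by
    have := Nat.dvd_gcd h3 h4
    rwa [Nat.Coprime.gcd_eq_one hcop] at this
  have h6 : c u0 v * v⁻¹ = 1 := orderOf_eq_one_iff.mp (Nat.dvd_one.mp h5)
  exact mul_inv_eq_one.mp h6

variable {G : Type u} [Group G]

/-- **Trace lemma for splitting automorphisms.** If `φ` is `p`-splitting, `A` is an abelian
normal `φ`-invariant subgroup and `T` a `φ`-invariant subgroup of order prime to `|A|`, then
`T` centralizes `A`. -/
theorem kg_trace_centralizes [Finite G] {p : ℕ} (hp : p.Prime) (φ : MulAut G)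
    (hφ : KgSplit p φ) (A T : Subgroup G) [hAn : A.Normal]
    (hA : ∀ a ∈ A, ∀ b ∈ A, a * b = b * a)
    (hAφ : ∀ a ∈ A, φ a ∈ A) (hTφ : ∀ w ∈ T, φ w ∈ T)
    (hcop : (Nat.card T).Coprime (Nat.card A)) :
    T ≤ Subgroup.centralizer (A : Set G) := by
  have hAit : ∀ k : ℕ, ∀ a ∈ A, (φ ^ k) a ∈ A := by
    intro k
    induction k with
    | zero => intro a ha; exact ha
    | succ k ih => intro a ha; rw [pow_succ', MulAut.mul_apply]; exact hAφ _ (ih a ha)
  have hTsp : ∀ k : ℕ, ∀ w ∈ T, kgSp φ k w ∈ T := by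
    intro k
    induction k with
    | zero => intro w _; exact T.one_mem
    | succ k ih => intro w hw; rw [kgSp_succ]; exact T.mul_mem hw (hTφ _ (ih w hw))
  let c : T → A → A := fun w v => ⟨(w : G) * v * (w : G)⁻¹, hAn.conj_mem v v.2 w⟩
  let Ψ : ℕ → A → A := fun k v => ⟨(φ ^ k) v, hAit k v v.2⟩
  let σ : ℕ → T → T := fun k w => ⟨kgSp φ k w, hTsp k w w.2⟩
  have main : ∀ (w : T) (v : A), c w v = v := by
    refine @kg_trace_abstract A T (commGroupOfComm A hA) inferInstance inferInstance inferInstance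
      c ?_ ?_ ?_ p hp.pos Ψ σ ?_ ?_ ?_ ?_ hcop
    · intro w v1 v2
      apply Subtype.ext
      show (w : G) * ((v1 : G) * (v2 : G)) * (w : G)⁻¹ =
        ((w : G) * (v1 : G) * (w : G)⁻¹) * ((w : G) * (v2 : G) * (w : G)⁻¹)
      group
    · intro w1 w2 v
      apply Subtype.ext
      show ((w1 : G) * (w2 : G)) * (v : G) * ((w1 : G) * (w2 : G))⁻¹ =
        (w1 : G) * ((w2 : G) * (v : G) * (w2 : G)⁻¹) * (w1 : G)⁻¹
      group
    · intro v
      apply Subtype.ext
      show (1 : G) * (v : G) * (1 : G)⁻¹ = v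
      group
    · intro w; rfl
    · intro v; rfl
    · intro w v
      apply Subtype.ext
      refine (coe_prod_range A hA (fun k => c (σ k w) (Ψ k v)) p).trans ?_
      have h1 : kgSp (MulAut.conj (w : G) * φ) p (v : G) = 1 := hφ.conj (w : G) (v : G)
      rw [kgSp_eq_list] at h1
      show _ = (1 : G)
      rw [← h1]
      apply congrArg
      apply List.map_congr_left
      intro k _
      show kgSp φ k (w : G) * (φ ^ k) (v : G) * (kgSp φ k (w : G))⁻¹ =
        ((MulAut.conj (w : G) * φ) ^ k) (v : G)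
      rw [kg_conj_mul_pow]
      rfl
    · intro k hk0 hkr w w' hww
      have h1 : kgSp φ k (w : G) = kgSp φ k (w' : G) := congrArg Subtype.val hww
      exact Subtype.ext (kgSp_injective hp hφ hk0 hkr h1)
  intro w hw
  rw [Subgroup.mem_centralizer_iff]
  intro a ha
  have h1 : w * a * w⁻¹ = a := congrArg Subtype.val (main ⟨w, hw⟩ ⟨a, ha⟩)
  calc a * w = (w * a * w⁻¹) * w := by rw [h1]
    _ = w * a := by group

theorem kg_mem_smul_sylow {s : ℕ} (g : G) (P : Sylow s G) (x : G) :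
    x ∈ ((g • P : Sylow s G) : Subgroup G) ↔ g⁻¹ * x * g ∈ (P : Subgroup G) := by
  rw [Sylow.coe_subgroup_smul, Subgroup.mem_pointwise_smul_iff_inv_smul_mem]
  simp [MulAut.smul_def]

/-- every Sylow subgroup is invariant under an inner multiple of `φ`, which is again
splitting and leaves invariant the normal `φ`-invariant subgroups. -/
theorem kg_exists_inv_sylow [Finite G] {s : ℕ} [Fact s.Prime] {p : ℕ} (φ : MulAut G)
    (hφ : KgSplit p φ) (P : Sylow s G) :
    ∃ ψ : MulAut G, KgSplit p ψ ∧ (P : Subgroup G).map ((ψ : G ≃* G) : G →* G) = P ∧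
      ∀ N : Subgroup G, N.Normal → N.map ((φ : G ≃* G) : G →* G) = N →
        N.map ((ψ : G ≃* G) : G →* G) = N := by
  have hQ : IsPGroup s ((P : Subgroup G).map ((φ : G ≃* G) : G →* G)) := P.isPGroup'.map _
  obtain ⟨R, hR⟩ := hQ.exists_le_sylow
  obtain ⟨g, hg⟩ := MulAction.exists_smul_eq G R P
  refine ⟨MulAut.conj g * φ, hφ.conj g, ?_, ?_⟩
  · apply map_eq_of_forall_mem
    intro x hx
    have h1 : φ x ∈ (R : Subgroup G) := hR (Subgroup.mem_map_of_mem _ hx)
    have h2 : g * φ x * g⁻¹ ∈ ((g • R : Sylow s G) : Subgroup G) := by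
      rw [kg_mem_smul_sylow]
      have e : g⁻¹ * (g * φ x * g⁻¹) * g = φ x := by group
      rw [e]; exact h1
    rw [hg] at h2
    exact h2
  · intro N hN hNφ
    apply map_eq_of_forall_mem
    intro x hx
    exact hN.conj_mem _ (mem_of_map_eq hNφ hx) g

end kegelTrace

section kegelMain

/-- in a minimal situation there is a nontrivial normal subgroup of prime power order
invariant under a splitting automorphism. -/
theorem kg_exists_normal_pgroup {G : Type u} [Group G] [Finite G] {p : ℕ} (φ : MulAut G)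
    (hφ : KgSplit p φ)
    (hsub : ∀ ψ : MulAut G, KgSplit p ψ → ∀ S : Subgroup G, S ≠ ⊤ →
      S.map ((ψ : G ≃* G) : G →* G) = S → Group.IsNilpotent S)
    (hnp : ∀ q : ℕ, q.Prime → ¬ IsPGroup q G) :
    ∃ (ψ : MulAut G) (_ : KgSplit p ψ) (q : ℕ) (_ : Fact q.Prime) (W : Subgroup G),
      W.Normal ∧ W.map ((ψ : G ≃* G) : G →* G) = W ∧ IsPGroup q W ∧ W ≠ ⊥ := by
  have hex : ∃ s : ℕ, s.Prime ∧ s ≠ 2 ∧ s ∣ Nat.card G := by
    by_contra hcon
    apply hnp 2 Nat.prime_two
    have h1 : ∀ {d : ℕ}, d.Prime → d ∣ Nat.card G → d = 2 := by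
      intro d hd hdvd
      by_contra hne
      exact hcon ⟨d, hd, hne, hdvd⟩
    exact IsPGroup.of_card (Nat.eq_prime_pow_of_unique_prime_dvd Nat.card_pos.ne' h1)
  obtain ⟨s, hs, hs2, hsdvd⟩ := hex
  have hsf : Fact s.Prime := ⟨hs⟩
  let P : Sylow s G := default
  obtain ⟨ψ, hψ, hP, -⟩ := kg_exists_inv_sylow φ hφ P
  have hPne : (P : Subgroup G) ≠ ⊥ := P.ne_bot_of_dvd_card hsdvd
  have hJφ : (thompsonSubgroupOf s (P : Subgroup G)).map ((ψ : G ≃* G) : G →* G) =
      thompsonSubgroupOf s (P : Subgroup G) := by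
    have h1 := thompsonOf_map (p := s) ((ψ : G ≃* G) : G →* G) (P : Subgroup G)
      (fun u _ hu => by simpa using hu)
    rw [hP] at h1
    exact h1.symm
  have hZφ := Cfsg.Agent.S0033.zc_map ψ hP
  have hJne : thompsonSubgroupOf s (P : Subgroup G) ≠ ⊥ := thompsonOf_ne_bot P.isPGroup' hPne
  have hZne : (P : Subgroup G) ⊓ Subgroup.centralizer ((P : Subgroup G) : Set G) ≠ ⊥ :=
    zc_ne_bot P.isPGroup' hPne
  have hJP : thompsonSubgroupOf s (P : Subgroup G) ≤ P := by
    unfold thompsonSubgroupOf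
    exact Subgroup.map_subtype_le _
  by_cases hN1 : Subgroup.normalizer (thompsonSubgroupOf s (P : Subgroup G) : Set G) = ⊤
  · exact ⟨ψ, hψ, s, hsf, _, Subgroup.normalizer_eq_top_iff.mp hN1, hJφ,
      P.isPGroup'.to_le hJP, hJne⟩
  by_cases hN2 : Subgroup.centralizer (((P : Subgroup G) ⊓
      Subgroup.centralizer ((P : Subgroup G) : Set G) : Subgroup G) : Set G) = ⊤
  · refine ⟨ψ, hψ, s, hsf, _, ?_, hZφ, P.isPGroup'.to_le inf_le_left, hZne⟩
    constructor
    intro z hz g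
    have hg : g ∈ Subgroup.centralizer (((P : Subgroup G) ⊓
        Subgroup.centralizer ((P : Subgroup G) : Set G) : Subgroup G) : Set G) := by
      rw [hN2]; trivial
    have h1 := Subgroup.mem_centralizer_iff.mp hg z hz
    have h2 : g * z * g⁻¹ = z := by rw [← h1]; group
    rw [h2]; exact hz
  have hnil1 := hsub ψ hψ _ hN1 (Cfsg.Agent.S0033.normalizer_map ψ hJφ)
  have hnil2 := hsub ψ hψ _ hN2 (Cfsg.Agent.S0033.centralizer_map ψ hZφ)
  have hnpc : Npc s G := Cfsg.Agent.S0108.thompson_npc hs2 (Nat.card G) G rfl P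
    (npc_of_isNilpotent hnil1 s) (npc_of_isNilpotent hnil2 s)
  obtain ⟨K, hKn, hKcop, k, hk⟩ := hnpc
  have hKmem := npc_mem_iff hKn hKcop hk
  have hKφ : K.map ((ψ : G ≃* G) : G →* G) = K := by
    apply map_eq_of_forall_mem
    intro x hx
    rw [hKmem] at hx ⊢
    rwa [MulEquiv.orderOf_eq]
  have hKtop : K ≠ ⊤ := by
    intro h
    rw [h, Subgroup.card_top] at hKcop
    exact (Nat.Prime.coprime_iff_not_dvd hs).mp hKcop.symm hsdvd
  have hKbot : K ≠ ⊥ := by
    intro h
    rw [h, Subgroup.index_bot] at hk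
    exact hnp s hs (IsPGroup.of_card hk)
  have hKnil := hsub ψ hψ K hKtop hKφ
  have hK1 : Nat.card K ≠ 1 := fun h => hKbot (Subgroup.card_eq_one.mp h)
  obtain ⟨q, hq, hqdvd⟩ := Nat.exists_prime_and_dvd hK1
  have hqf : Fact q.Prime := ⟨hq⟩
  obtain ⟨W, hW⟩ := exists_tPart K hKnil q
  obtain ⟨x, hx⟩ := exists_prime_orderOf_dvd_card' q hqdvd
  have hKn' : K.Normal := hKn
  refine ⟨ψ, hψ, q, hqf, W, tPart_normal hW, tPart_map ψ hKφ hW, tPart_isPGroup hW, ?_⟩
  intro hbot
  have hxW : (x : G) ∈ W := by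
    refine (hW _).mpr ⟨x.2, 1, ?_⟩
    rw [pow_one, ← hx, ← Subgroup.orderOf_coe]
    exact pow_orderOf_eq_one _
  rw [hbot, Subgroup.mem_bot] at hxW
  have h1 : orderOf x = 1 := by
    rw [orderOf_eq_one_iff]; exact Subtype.ext hxW
  rw [hx] at h1
  exact hq.one_lt.ne' h1

/-- the inductive step -/
theorem kg_core {G : Type u} [Group G] [Finite G] (p : ℕ) (hp : p.Prime) (φ : MulAut G)
    (hφ : KgSplit p φ)
    (hsub : ∀ ψ : MulAut G, KgSplit p ψ → ∀ S : Subgroup G, S ≠ ⊤ →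
      S.map ((ψ : G ≃* G) : G →* G) = S → Group.IsNilpotent S)
    (hquot : ∀ ψ : MulAut G, KgSplit p ψ → ∀ (N : Subgroup G) [N.Normal], N ≠ ⊥ →
      N.map ((ψ : G ≃* G) : G →* G) = N → Group.IsNilpotent (G ⧸ N)) :
    Group.IsNilpotent G := by
  by_cases hnp : ∃ q : ℕ, q.Prime ∧ IsPGroup q G
  · obtain ⟨q, hq, hG⟩ := hnp
    have : Fact q.Prime := ⟨hq⟩
    exact hG.isNilpotent
  have hnp' : ∀ q : ℕ, q.Prime → ¬ IsPGroup q G := fun q hq h => hnp ⟨q, hq, h⟩
  obtain ⟨ψ, hψ, q, hqf, W, hWn, hWφ, hWq, hWne⟩ := kg_exists_normal_pgroup φ hφ hsub hnp'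
  obtain ⟨A, hAn, hAφ, hAq, hAne, hAab⟩ := Cfsg.Agent.S0033.exists_abelian ψ W hWn hWφ hWq hWne
  have hq : q.Prime := hqf.out
  have hcent : ∀ (t : ℕ) (_ : Fact t.Prime), t ≠ q → ∀ T : Sylow t G,
      (T : Subgroup G) ≤ Subgroup.centralizer (A : Set G) := by
    intro t htf htq T
    have ht : t.Prime := htf.out
    obtain ⟨χ, hχ, hT, hinv⟩ := kg_exists_inv_sylow ψ hψ T
    have hAχ := hinv A hAn hAφ
    apply kg_trace_centralizes hp χ hχ A T hAab (fun a ha => mem_of_map_eq hAχ ha)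
      (fun w hw => mem_of_map_eq hT hw)
    obtain ⟨a, ha⟩ := IsPGroup.iff_card.mp T.isPGroup'
    obtain ⟨b, hb⟩ := IsPGroup.iff_card.mp hAq
    have ha' : Nat.card (T : Subgroup G) = t ^ a := ha
    rw [ha', hb]
    exact Nat.Coprime.pow _ _ ((Nat.coprime_primes ht hq).mpr htq)
  have hCφ := Cfsg.Agent.S0033.centralizer_map ψ hAφ
  have hAquot : Group.IsNilpotent (G ⧸ A) := hquot ψ hψ A hAne hAφ
  by_cases hC : Subgroup.centralizer (A : Set G) = ⊤
  · apply Subgroup.isNilpotent_of_ker_le_center (QuotientGroup.mk' A)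
    rw [QuotientGroup.ker_mk']
    intro a ha
    rw [Subgroup.mem_center_iff]
    intro g
    have hg : g ∈ Subgroup.centralizer (A : Set G) := by rw [hC]; trivial
    exact (Subgroup.mem_centralizer_iff.mp hg a ha).symm
  have hCnil := hsub ψ hψ _ hC hCφ
  have hex : ∃ t : ℕ, t.Prime ∧ t ≠ q ∧ t ∣ Nat.card G := by
    by_contra hcon
    apply hnp' q hq
    have h1 : ∀ {d : ℕ}, d.Prime → d ∣ Nat.card G → d = q := by
      intro d hd hdvd
      by_contra hne
      exact hcon ⟨d, hd, hne, hdvd⟩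
    exact IsPGroup.of_card (Nat.eq_prime_pow_of_unique_prime_dvd Nat.card_pos.ne' h1)
  obtain ⟨t, ht, htq, htdvd⟩ := hex
  have htf : Fact t.Prime := ⟨ht⟩
  let T : Sylow t G := default
  have hTne : (T : Subgroup G) ≠ ⊥ := T.ne_bot_of_dvd_card htdvd
  have hTC := hcent t htf htq T
  obtain ⟨Wt, hWt⟩ := exists_tPart (Subgroup.centralizer (A : Set G)) hCnil t
  have hCn : (Subgroup.centralizer (A : Set G)).Normal := Subgroup.normal_centralizer
  have hWtn : Wt.Normal := tPart_normal hWt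
  have hWtφ := tPart_map ψ hCφ hWt
  have hWtt : IsPGroup t Wt := tPart_isPGroup hWt
  have hWtne : Wt ≠ ⊥ := by
    intro hbot
    apply hTne
    rw [Subgroup.eq_bot_iff_forall]
    intro x hx
    obtain ⟨n, hn⟩ := T.isPGroup' ⟨x, hx⟩
    have hn' : x ^ t ^ n = 1 := by
      have := congrArg Subtype.val hn
      simpa using this
    have hxW : x ∈ Wt := (hWt x).mpr ⟨hTC hx, n, hn'⟩
    rw [hbot, Subgroup.mem_bot] at hxW
    exact hxW
  have hWtquot : Group.IsNilpotent (G ⧸ Wt) := hquot ψ hψ Wt hWtne hWtφ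
  have hdisj : A ⊓ Wt = ⊥ :=
    (IsPGroup.disjoint_of_ne q t (Ne.symm htq) A Wt hAq hWtt).eq_bot
  apply Subgroup.isNilpotent_of_ker_le_center
    ((QuotientGroup.mk' A).prod (QuotientGroup.mk' Wt))
  rw [MonoidHom.ker_prod, QuotientGroup.ker_mk', QuotientGroup.ker_mk', hdisj]
  exact bot_le

/-- **Kegel's theorem**: a finite group with a `p`-splitting automorphism, `p` prime, is
nilpotent. -/
theorem kegel_nilpotent (p : ℕ) (hp : p.Prime) :
    ∀ (n : ℕ) (G : Type u) [Group G] [Finite G], Nat.card G = n →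
      ∀ φ : MulAut G, KgSplit p φ → Group.IsNilpotent G := by
  intro n
  induction n using Nat.strong_induction_on with
  | _ n ih =>
    intro G _ _ hn φ hφ
    apply kg_core p hp φ hφ
    · intro ψ hψ S hS hSψ
      have hlt : Nat.card S < n := by
        rw [← hn]
        exact lt_of_le_of_ne (Subgroup.card_le_card_group S)
          (fun h => hS ((Subgroup.card_eq_iff_eq_top S).mp h))
      exact ih _ hlt S rfl (resAut ψ S hSψ) (hψ.res S hSψ)
    · intro ψ hψ N _ hN hNψ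
      have hlt : Nat.card (G ⧸ N) < n := by
        rw [← hn, ← Subgroup.index_eq_card, ← Subgroup.card_mul_index N]
        have h1 : 1 < Nat.card N := (Subgroup.one_lt_card_iff_ne_bot N).mpr hN
        have h2 : 0 < N.index := Nat.pos_of_ne_zero Subgroup.index_ne_zero_of_finite
        nlinarith
      exact ih _ hlt (G ⧸ N) rfl (quotAut ψ N hNψ) (hψ.quot N hNψ)

end kegelMain

end Cfsg.Agent.Lib.Helper1
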