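import Cfsg.Agent.Lib.Helper86.KulsS
import Cfsg.Agent.Lib.Helper68.KulsM
import Cfsg.Agent.Lib.Helper85.KulsC
import Cfsg.Agent.Lib.Helper66.KulsK1
import Cfsg.Agent.Lib.Helper19.KulsK2

/-!
# S4648: Külshammer's lemma and the algebra theorem (helper1; assembly of the pieces
KU-S (helper86), KU-M (helper68), KU-C (helper85), KU-K1 (helper66), KU-K2 (helper19))

* `kuls_local`: a local symmetric algebra whose centre has dimension at most `4` is commutative.
* `kuls_alg`: a symmetric algebra over an algebraically closed field with only one symmetric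
  functional vanishing on nilpotent elements (up to scalars) and centre of dimension at most `4`
  is free over its centre, of rank `N`, generated by `N` elements.
-/

set_option autoImplicit false

namespace Cfsg.Agent.Lib.Helper1

universe u v

/-- Külshammer's lemma: a local symmetric algebra with centre of dimension `≤ 4` is commutative -/
theorem kuls_local {F : Type u} {A : Type v} [Field F] [Ring A] [Algebra F A]
    [FiniteDimensional F A]
    (lam : A →ₗ[F] F) (hsymm : ∀ x y, lam (x * y) = lam (y * x))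
    (hnd : ∀ x, (∀ y, lam (x * y) = 0) → x = 0)
    (hloc : ∀ x : A, ∃ c : F, IsNilpotent (x - algebraMap F A c))
    (hZ : Module.finrank F (Subalgebra.center F A) ≤ 4) :
    ∀ x y : A, x * y = y * x := by
  by_contra hnc
  obtain ⟨J, hJ2, x, y, hJ, hx, hy, h1, h2, h3⟩ :=
    Cfsg.Agent.Lib.Helper66.Kuls.kuls_K1 lam hsymm hnd hloc hZ hnc
  exact h3 (Cfsg.Agent.Lib.Helper19.Kuls.kuls_K2 J hJ x y hx hy h1 h2)

/-- the algebra theorem -/
theorem kuls_alg {F : Type u} {A : Type v} [Field F] [IsAlgClosed F] [Ring A] [Algebra F A]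
    [FiniteDimensional F A] [Nontrivial A]
    (lam : A →ₗ[F] F) (hsymm : ∀ x y, lam (x * y) = lam (y * x))
    (hnd : ∀ x, (∀ y, lam (x * y) = 0) → x = 0)
    (hfun : ∃ φ₀ : A →ₗ[F] F, ∀ φ : A →ₗ[F] F, (∀ x y, φ (x * y) = φ (y * x)) →
      (∀ x, IsNilpotent x → φ x = 0) → ∃ c : F, φ = c • φ₀)
    (hZ : Module.finrank F (Subalgebra.center F A) ≤ 4) :
    ∃ (N : ℕ) (a : Fin N → A),
      (∀ x : A, ∃ z : Fin N → A, (∀ j, z j ∈ Subalgebra.center F A) ∧ x = ∑ j, z j * a j) ∧
      Module.finrank F A = N * Module.finrank F (Subalgebra.center F A) := by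
  obtain ⟨n, hn, π, hπ, hnil⟩ := Cfsg.Agent.Lib.Helper86.Kuls.kuls_simple hfun
  obtain ⟨E, hE, hE1, hπE⟩ := Cfsg.Agent.Lib.Helper68.Kuls.kuls_units n π hπ hnil
  exact Cfsg.Agent.Lib.Helper85.Kuls.kuls_glue lam hsymm hnd n π hnil E hE hE1 hπE hZ
    (fun S lam₀ h1 h2 h3 h4 => kuls_local lam₀ h1 h2 h3 h4)

end Cfsg.Agent.Lib.Helper1
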