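import Cfsg.Agent.Lib.Helper1.KulsAlg
import Cfsg.Agent.Lib.Helper1.BrandtDim
import Cfsg.Agent.Lib.Helper82.KulsRESF
import Cfsg.Agent.Lib.Helper35.KulsSPAN
import Cfsg.Agent.Lib.Helper84.KulsFUNC
import Cfsg.Agent.Lib.Helper57.KulsDEG
import Cfsg.Agent.Lib.Helper4.KulsCHAR

/-!
# S4648: a block of rank one with at most four characters (helper1; assembly)

`kuls_card`: if `blockRank p B = 1` and `B` has at most four irreducible characters, then the
number of characters of `B` is the order of its defect groups.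

Pieces: KU-RESF (helper82), KU-SPAN (helper35), KU-FA (helper16), KU-FB (helper30),
KU-FUNC (helper84), KU-DEG (helper57), KU-CHAR (helper4), and the algebra theorem `kuls_alg`
(`KulsAlg.lean`: helper86, helper68, helper85, helper66, helper19).
-/

set_option autoImplicit false

namespace Cfsg.Agent.Lib.Helper1

open Cfsg Cfsg.Agent.Lib.Helper21 Cfsg.Agent.Lib.Helper22

universe u v

section BlkQ

open Cfsg.Agent.Lib.Helper75.BrandtBLK

variable {K : Type u} {A : Type v} [Field K] [Ring A] [Algebra K A]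

theorem blkq_symm (lam : A →ₗ[K] K) (hsymm : ∀ x y, lam (x * y) = lam (y * x))
    (e : A) (hec : ∀ x, e * x = x * e) [(blkI e).IsTwoSided] (x' y' : A ⧸ blkI e) :
    (lam ∘ₗ sigK K e) (x' * y') = (lam ∘ₗ sigK K e) (y' * x') := by
  obtain ⟨x, rfl⟩ := qm_surj (e := e) x'
  obtain ⟨y, rfl⟩ := qm_surj (e := e) y'
  rw [← map_mul, ← map_mul, LinearMap.comp_apply, LinearMap.comp_apply, sigK_q, sigK_q]
  calc lam (x * y * e) = lam (x * (y * e)) := by rw [mul_assoc]
    _ = lam (y * e * x) := hsymm _ _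
    _ = lam (y * x * e) := by rw [mul_assoc, hec x, mul_assoc]

theorem blkq_nondeg (lam : A →ₗ[K] K) (hnd : ∀ x, (∀ y, lam (x * y) = 0) → x = 0)
    (e : A) (hec : ∀ x, e * x = x * e) [(blkI e).IsTwoSided] (x' : A ⧸ blkI e)
    (hx' : ∀ y, (lam ∘ₗ sigK K e) (x' * y) = 0) : x' = 0 := by
  obtain ⟨x, rfl⟩ := qm_surj (e := e) x'
  rw [qm_eq_zero]
  apply hnd
  intro y
  have h5 := hx' (qm e y)
  rw [← map_mul, LinearMap.comp_apply, sigK_q] at h5
  rw [mul_assoc, hec y, ← mul_assoc]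
  exact h5

theorem blkq_center_mem (e : A) [(blkI e).IsTwoSided]
    (Z : Submodule K A) (hZ : ∀ c, c ∈ Z ↔ (c ∈ Subalgebra.center K A ∧ e * c = c))
    (c : A) (hc : c ∈ Z) : qm e c ∈ Subalgebra.center K (A ⧸ blkI e) := by
  rw [Subalgebra.mem_center_iff]
  intro b'
  obtain ⟨b, rfl⟩ := qm_surj (e := e) b'
  have h1 := ((hZ c).1 hc).1
  rw [Subalgebra.mem_center_iff] at h1
  rw [← map_mul, ← map_mul, h1 b]

theorem blkq_center_surj (e : A) (he : e * e = e) (hec : ∀ x, e * x = x * e)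
    [(blkI e).IsTwoSided]
    (Z : Submodule K A) (hZ : ∀ c, c ∈ Z ↔ (c ∈ Subalgebra.center K A ∧ e * c = c))
    (c' : A ⧸ blkI e) (hc' : c' ∈ Subalgebra.center K (A ⧸ blkI e)) :
    ∃ c ∈ Z, qm e c = c' := by
  obtain ⟨c, rfl⟩ := qm_surj (e := e) c'
  rw [Subalgebra.mem_center_iff] at hc'
  refine ⟨c * e, ?_, ?_⟩
  · rw [hZ]
    refine ⟨?_, ?_⟩
    · rw [Subalgebra.mem_center_iff]
      intro y
      have h3 : qm e (y * c - c * y) = 0 := by
        rw [map_sub, map_mul, map_mul, hc' (qm e y), sub_self]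
      rw [qm_eq_zero, sub_mul, sub_eq_zero] at h3
      calc y * (c * e) = y * c * e := (mul_assoc _ _ _).symm
        _ = c * y * e := h3
        _ = c * (e * y) := by rw [mul_assoc, hec y]
        _ = c * e * y := (mul_assoc _ _ _).symm
    · rw [hec, mul_assoc, he]
  · rw [map_mul, qm_e he, mul_one]

theorem blkq_finrank_center (e : A) (he : e * e = e) (hec : ∀ x, e * x = x * e)
    [(blkI e).IsTwoSided]
    (Z : Submodule K A) (hZ : ∀ c, c ∈ Z ↔ (c ∈ Subalgebra.center K A ∧ e * c = c)) :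
    Module.finrank K (Subalgebra.center K (A ⧸ blkI e)) = Module.finrank K Z := by
  have hinjZ : ∀ c, c ∈ Z → qm e c = 0 → c = 0 := by
    intro c hc h0
    rw [qm_eq_zero] at h0
    have h2 := ((hZ c).1 hc).2
    rw [← h2, hec, h0]
  let f : Z →ₗ[K] Subalgebra.toSubmodule (Subalgebra.center K (A ⧸ blkI e)) :=
    LinearMap.codRestrict _ ((Ideal.Quotient.mkₐ K (blkI e)).toLinearMap ∘ₗ Z.subtype)
      (fun c => blkq_center_mem e Z hZ c.1 c.2)
  have hf_inj : Function.Injective f := by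
    rw [injective_iff_map_eq_zero]
    intro c hc
    have h4 : qm e c.1 = 0 := congrArg Subtype.val hc
    exact Subtype.ext (hinjZ c.1 c.2 h4)
  have hf_surj : Function.Surjective f := by
    rintro ⟨c', hc'⟩
    obtain ⟨c, hcZ, rfl⟩ := blkq_center_surj e he hec Z hZ c' hc'
    exact ⟨⟨c, hcZ⟩, rfl⟩
  rw [← Subalgebra.finrank_toSubmodule]
  exact (LinearEquiv.finrank_eq (LinearEquiv.ofBijective f ⟨hf_inj, hf_surj⟩)).symm

theorem blkq_finrank (e : A) (hec : ∀ x, e * x = x * e) [(blkI e).IsTwoSided] :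
    Module.finrank K (A ⧸ blkI e) =
      Module.finrank K (LinearMap.range (LinearMap.mulLeft K e)) := by
  rw [← sigK_range (K := K) hec]
  exact LinearEquiv.finrank_eq (LinearEquiv.ofInjective (sigK K e) sigK_inj)

/-- the abstract block-algebra step: generation of `A e` over the block part of the centre -/
theorem kuls_blk_abstract [IsAlgClosed K] [FiniteDimensional K A]
    (lam : A →ₗ[K] K) (hsymm : ∀ x y, lam (x * y) = lam (y * x))
    (hnd : ∀ x, (∀ y, lam (x * y) = 0) → x = 0)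
    (e : A) (he : e * e = e) (hec : ∀ x, e * x = x * e)
    (Z : Submodule K A) (hZ : ∀ c, c ∈ Z ↔ (c ∈ Subalgebra.center K A ∧ e * c = c))
    (hZpos : 0 < Module.finrank K Z) (hZ4 : Module.finrank K Z ≤ 4)
    (hfun : ∃ φ₀ : A →ₗ[K] K, ∀ φ : A →ₗ[K] K, (∀ X Y, φ (X * Y) = φ (Y * X)) →
      (∀ X, IsNilpotent X → φ X = 0) → (∀ X, φ (e * X) = φ X) → ∃ c : K, φ = c • φ₀) :
    ∃ (N : ℕ) (a : Fin N → A),
      (∀ x : A, ∃ z : Fin N → A, (∀ j, z j ∈ Z) ∧ x * e = ∑ j, z j * a j * e) ∧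
      Module.finrank K (LinearMap.range (LinearMap.mulLeft K e)) = N * Module.finrank K Z := by
  have : (blkI e).IsTwoSided := blkI_twoSided e hec
  have hfd : FiniteDimensional K (A ⧸ blkI e) :=
    Module.Finite.of_surjective (Ideal.Quotient.mkₐ K (blkI e)).toLinearMap (qm_surj (e := e))
  have hc := blkq_finrank_center (K := K) e he hec Z hZ
  have : Nontrivial (A ⧸ blkI e) := by
    have h0 : 0 < Module.finrank K (Subalgebra.center K (A ⧸ blkI e)) := by rw [hc]; exact hZpos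
    have := Module.nontrivial_of_finrank_pos h0
    obtain ⟨x, y, hxy⟩ := exists_pair_ne (Subalgebra.center K (A ⧸ blkI e))
    exact ⟨⟨x.1, y.1, fun h => hxy (Subtype.ext h)⟩⟩
  have hfun' : ∃ φ₀ : (A ⧸ blkI e) →ₗ[K] K, ∀ φ : (A ⧸ blkI e) →ₗ[K] K,
      (∀ x y, φ (x * y) = φ (y * x)) → (∀ x, IsNilpotent x → φ x = 0) → ∃ c : K, φ = c • φ₀ := by
    obtain ⟨φ₀, hφ₀⟩ := hfun
    refine ⟨φ₀ ∘ₗ sigK K e, fun φ' h1 h2 => ?_⟩
    have key : ∃ c : K, φ' ∘ₗ (Ideal.Quotient.mkₐ K (blkI e)).toLinearMap = c • φ₀ := by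
      apply hφ₀
      · intro X Y
        change φ' (qm e (X * Y)) = φ' (qm e (Y * X))
        rw [RingHom.map_mul (qm e), RingHom.map_mul (qm e), h1]
      · intro X hX
        exact h2 _ (hX.map (qm e))
      · intro X
        change φ' (qm e (e * X)) = φ' (qm e X)
        rw [RingHom.map_mul (qm e), qm_e he, one_mul]
    obtain ⟨c, hc⟩ := key
    refine ⟨c, ?_⟩
    apply LinearMap.ext
    intro x'
    obtain ⟨x, rfl⟩ := qm_surj (e := e) x'
    have h3 : qm e x = qm e (x * e) := by rw [map_mul, qm_e he, mul_one]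
    have h4 := LinearMap.congr_fun hc (x * e)
    rw [LinearMap.smul_apply, smul_eq_mul] at h4
    rw [LinearMap.smul_apply, LinearMap.comp_apply, sigK_q, smul_eq_mul, ← h4, h3]
    rfl
  obtain ⟨N, a', hgen', hfin'⟩ := kuls_alg (lam ∘ₗ sigK K e)
    (blkq_symm lam hsymm e hec) (blkq_nondeg lam hnd e hec) hfun' (by rw [hc]; exact hZ4)
  choose a ha using fun j => qm_surj (e := e) (a' j)
  refine ⟨N, a, fun x => ?_, ?_⟩
  · obtain ⟨z', hz'c, hz'⟩ := hgen' (qm e x)
    choose z hzZ hz using fun j => blkq_center_surj e he hec Z hZ (z' j) (hz'c j)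
    refine ⟨z, hzZ, ?_⟩
    have h5 : qm e (x - ∑ j, z j * a j) = 0 := by
      rw [map_sub, map_sum, hz', sub_eq_zero]
      refine Finset.sum_congr rfl fun j _ => ?_
      rw [map_mul, hz j, ha j]
    rw [qm_eq_zero, sub_mul, sub_eq_zero, Finset.sum_mul] at h5
    exact h5
  · rw [← blkq_finrank (K := K) e hec, hfin', hc]

end BlkQ

section Concrete

variable {p : ℕ} {M : Ideal AlgInt} (hM : IsPModular p M) {K : Type} [Field K] (res : ℂ → K)
  (hadd : ∀ x y, MemLocalRing M x → MemLocalRing M y → res (x + y) = res x + res y)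
  (hmul : ∀ x y, MemLocalRing M x → MemLocalRing M y → res (x * y) = res x * res y)
  (hone : res 1 = 1)
  (hzero : ∀ x, MemLocalRing M x → (res x = 0 ↔ MemLocalIdeal M x))
  (hsurj : ∀ y : K, ∃ x, MemLocalRing M x ∧ res x = y)
  {G : Type u} [Group G] [Fintype G] [DecidableEq G]

include hM hadd hzero in
theorem locIdeal_of_res_eq {x y : ℂ} (hx : MemLocalRing M x) (hy : MemLocalRing M y)
    (h : res x = res y) : MemLocalIdeal M (x - y) := by
  have h1 : x = (x - y) + y := by ring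
  have h2 := hadd (x - y) y (locRing_sub hM hx hy) hy
  rw [← h1, h] at h2
  exact (hzero _ (locRing_sub hM hx hy)).mp (by simpa using h2)

include hsurj in
theorem exists_lift_fun (X : invAlg K G) :
    ∃ a : G → ℂ, (∀ g, MemLocalRing M (a g)) ∧ rho res a = (X : Matrix G G K) := by
  choose f hf1 hf2 using hsurj
  refine ⟨fun g => f ((X : Matrix G G K) g 1), fun g => hf1 _, ?_⟩
  conv_rhs => rw [eq_Lm X.2]
  unfold rho
  congr 1
  funext g
  exact hf2 _

include hsurj in
theorem exists_lift_cf (X : invAlg K G) (hX : ∀ Y : invAlg K G, X * Y = Y * X) :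
    ∃ z : G → ℂ, IsClassFunction G z ∧ (∀ g, MemLocalRing M (z g)) ∧
      rho res z = (X : Matrix G G K) := by
  classical
  choose f hf1 hf2 using hsurj
  obtain ⟨v, rfl⟩ := exists_psi_of_central X hX
  refine ⟨fun h => f (v (ConjClasses.mk h)), ?_, fun g => hf1 _, ?_⟩
  · intro g h
    have : ConjClasses.mk (h * g * h⁻¹) = ConjClasses.mk g :=
      ConjClasses.mk_eq_mk_iff_isConj.mpr (isConj_iff.mpr ⟨h⁻¹, by group⟩)
    change f (v (ConjClasses.mk (h * g * h⁻¹))) = f (v (ConjClasses.mk g))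
    rw [this]
  · ext g k
    rw [rho_apply, psi_apply, hf2]

include hM hone hzero in
theorem rho_single (g : G) :
    rho res (Pi.single g (1 : ℂ)) = ((dl g : invAlg K G) : Matrix G G K) := by
  change Lm _ = Lm _
  congr 1
  funext h
  by_cases hh : h = g
  · subst hh
    rw [Pi.single_eq_same, Pi.single_eq_same, hone]
  · rw [Pi.single_eq_of_ne hh, Pi.single_eq_of_ne hh, Helper82.res_zero res hM hzero]

include hM hadd hmul hone hzero hsurj in
theorem kuls_gen [IsAlgClosed K] (B : Set (IrrCharacter G)) (hB : IsPBlock M B)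
    (hk : Nat.card B ≤ 4)
    (hfun : ∃ φ₀ : invAlg K G →ₗ[K] K, ∀ φ : invAlg K G →ₗ[K] K,
      (∀ X Y, φ (X * Y) = φ (Y * X)) → (∀ X, IsNilpotent X → φ X = 0) →
      (∀ X, φ (eB res B * X) = φ X) → ∃ c : K, φ = c • φ₀) :
    ∃ (N : ℕ) (a : Fin N → G → ℂ), (∀ j g, MemLocalRing M (a j g)) ∧
      (∀ g : G, ∃ z : Fin N → G → ℂ, (∀ j, IsClassFunction G (z j)) ∧
        (∀ j h, MemLocalRing M (z j h)) ∧
        ∀ h : G, MemLocalIdeal M
          (conv (Pi.single g 1) (blockCoeff B) h - ∑ j, conv (z j) (a j) h)) ∧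
      ∑ᶠ χ ∈ B, charDegree (χ : G → ℂ) ^ 2 = N * Nat.card B := by
  classical
  obtain ⟨P, hPP, hPloc, hPtr, hPint⟩ := Helper7.BrandtCLS.brandt_cls hM B hB
  obtain ⟨r, hr1, hr2⟩ := Helper13.BrandtRank.brandt_rank hM res hadd hmul hone P hPP hPloc
  have hr : r = Nat.card B := by
    rw [hPtr] at hr1
    exact_mod_cast hr1.symm
  have hZ : Module.finrank K (ZB res B) = Nat.card B := by
    rw [finrank_ZB hM res hadd hmul hone hzero B hB P hPP hPloc hPint, hr2, hr]
  obtain ⟨s, hs1, hs2⟩ := Helper13.BrandtRank.brandt_rank hM res hadd hmul hone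
    (lmat (blockCoeff B)) (by rw [← lmat_conv, blockCoeff_conv]) (fun i j => osima hM B hB _)
  have hs3 : Module.finrank K (LinearMap.range (LinearMap.mulLeft K (eB res B))) = s := by
    rw [finrank_range_mulLeft, ← hs2]
    rfl
  have hs4 : s = ∑ᶠ χ ∈ B, charDegree (χ : G → ℂ) ^ 2 := by
    rw [trace_lmat, card_mul_blockCoeff_one] at hs1
    exact_mod_cast hs1.symm
  have hBpos : 0 < Nat.card B := by
    have := Helper4.irr_finite (G := G)
    obtain ⟨χ, rfl⟩ := hB
    have : Nonempty (blockOf M (χ : G → ℂ)) := ⟨⟨χ, Helper79.mem_blockOf_self hM χ⟩⟩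
    exact Nat.card_pos
  obtain ⟨N, α, hgenA, hfinA⟩ := kuls_blk_abstract (lamA : invAlg K G →ₗ[K] K) lamA_symm
    lamA_nondeg (eB res B) (eB_idem hM res hadd hmul hzero B hB) (eB_central res B) (ZB res B)
    (mem_ZB res B) (by rw [hZ]; exact hBpos) (by rw [hZ]; exact hk) hfun
  choose a0 ha0 ha0' using fun j => exists_lift_fun (M := M) res hsurj (α j)
  refine ⟨N, fun j => conv (a0 j) (blockCoeff B),
    fun j g => conv_locRing hM (ha0 j) (osima hM B hB) g, fun g => ?_, ?_⟩
  · obtain ⟨ζ, hζZ, hζ⟩ := hgenA (dl g)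
    choose z hz1 hz2 hz3 using fun j => exists_lift_cf (M := M) res hsurj (ζ j)
      (fun Y => ((Subalgebra.mem_center_iff.mp ((mem_ZB res B (ζ j)).mp (hζZ j)).1) Y).symm)
    refine ⟨z, hz1, hz2, fun h => ?_⟩
    have hloc1 : ∀ h, MemLocalRing M ((Pi.single g (1 : ℂ) : G → ℂ) h) := by
      intro h
      by_cases hh : h = g
      · subst hh
        rw [Pi.single_eq_same]
        exact locRing_one hM
      · rw [Pi.single_eq_of_ne hh]
        exact locRing_zero hM
    have hloc2 : ∀ j h, MemLocalRing M (conv (a0 j) (blockCoeff B) h) :=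
      fun j h => conv_locRing hM (ha0 j) (osima hM B hB) h
    have e1 : rho res (conv (Pi.single g 1) (blockCoeff B)) =
        ∑ j, rho res (conv (z j) (conv (a0 j) (blockCoeff B))) := by
      rw [rho_conv hM res hadd hmul hzero hloc1 (osima hM B hB), rho_single hM res hone hzero]
      have h1 := congrArg Subtype.val hζ
      rw [AddSubmonoidClass.coe_finsetSum] at h1
      refine h1.trans (Finset.sum_congr rfl fun j _ => ?_)
      rw [rho_conv hM res hadd hmul hzero (hz2 j) (hloc2 j),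
        rho_conv hM res hadd hmul hzero (ha0 j) (osima hM B hB), hz3, ha0', ← mul_assoc]
      rfl
    have e2 := congrFun (congrFun e1 h) 1
    rw [Matrix.sum_apply] at e2
    simp only [rho_apply, inv_one, mul_one] at e2
    apply locIdeal_of_res_eq hM res hadd hzero (conv_locRing hM hloc1 (osima hM B hB) h)
      (locRing_sum hM _ _ fun j _ => conv_locRing hM (hz2 j) (hloc2 j) h)
    rw [e2, Helper82.res_sum res hM hadd hzero _ _
      (fun j _ => conv_locRing hM (hz2 j) (hloc2 j) h)]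
  · rw [← hs4, ← hs3, hfinA, hZ]

end Concrete

/-- the number of characters of a block of rank one with at most four characters is the order of
its defect groups -/
theorem kuls_card {G : Type u} [Group G] [Finite G] (p : ℕ) [Fact p.Prime] (M : Ideal AlgInt)
    (hM : IsPModular p M) (B : Set (IrrCharacter G)) (hB : IsPBlock M B)
    (D : Subgroup G) (hD : IsDefectGroup p M B D) (hl : blockRank p B = 1)
    (hk : Nat.card B ≤ 4) : Nat.card D = Nat.card B := by
  classical
  let _ : Fintype G := Fintype.ofFinite G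
  obtain ⟨F, instF, instAC, res, hadd, hmul, hone, hzero, hsurj⟩ :=
    Cfsg.Agent.Lib.Helper82.Kuls.exists_residue_field_acl hM
  let _ := instF
  have := instAC
  have hspan : ∀ g₀ : G, IsPRegular p g₀ → ∃ c : IrrCharacter G → ℂ,
      (∀ χ, MemLocalRing M (c χ)) ∧ ∀ g : G, IsPRegular p g →
        ∑ᶠ χ : IrrCharacter G, c χ * (χ : G → ℂ) g = if IsConj g g₀ then 1 else 0 := by
    intro g₀ hg₀
    obtain ⟨c, hc1, hc2⟩ := Cfsg.Agent.Lib.Helper35.Kuls.kuls_span hM g₀ hg₀
    refine ⟨c, hc1, fun g hg => ?_⟩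
    convert hc2 g hg
  have hfun := Cfsg.Agent.Lib.Helper84.Kuls.kuls_func hM res hadd hmul hone hzero B hB hl hspan
  obtain ⟨N, a, ha, hgen, hsum⟩ := kuls_gen hM res hadd hmul hone hzero hsurj B hB hk hfun
  have hdeg : ∀ χ ∈ B, charDegree (χ : G → ℂ) ^ 2 ≤ N :=
    fun χ hχ => Cfsg.Agent.Lib.Helper57.Kuls.kuls_deg hM B hB N a ha hgen χ hχ
  have := Helper4.irr_finite (G := G)
  let _ : Fintype (IrrCharacter G) := Fintype.ofFinite _
  have hall : ∀ χ ∈ B, charDegree (χ : G → ℂ) ^ 2 = N := by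
    rw [Helper79.finsum_mem_eq_sum_filter_univ] at hsum
    have hcard : Nat.card B = (Finset.univ.filter (· ∈ B)).card := by
      rw [Nat.card_eq_fintype_card, Fintype.card_subtype]
    have h1 : ∑ χ ∈ Finset.univ.filter (· ∈ B), charDegree (χ : G → ℂ) ^ 2 =
        ∑ χ ∈ Finset.univ.filter (· ∈ B), N := by
      rw [hsum, Finset.sum_const, smul_eq_mul, hcard, mul_comm]
    have h2 := (Finset.sum_eq_sum_iff_of_le
      (fun χ hχ => hdeg χ (Finset.mem_filter.mp hχ).2)).mp h1
    intro χ hχ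
    exact h2 χ (Finset.mem_filter.mpr ⟨Finset.mem_univ _, hχ⟩)
  apply Cfsg.Agent.Lib.Helper4.Kuls.kuls_char p M hM B hB D hD hl
  intro χ hχ ψ hψ
  have h3 := (hall χ hχ).trans (hall ψ hψ).symm
  exact Nat.pow_left_injective (by norm_num : 2 ≠ 0) h3

end Cfsg.Agent.Lib.Helper1
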