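import Mathlib
import Cfsg.Agent.Lib.Helper52.LPDefs
import Cfsg.Agent.Lib.Helper52.OutMain

/-!
# LM piece T (helper1, for helper52's S2737 project): transport of `PΩ` along a linear similarity
of forms

`exists_transport`: conjugation by a linear similarity `L` of two forms induces an isomorphism
`POmega F Q ≃* POmega F Q'`; `transport_ind`: it intertwines the automorphisms induced by `g` and
by `L * g * L⁻¹`.
-/

set_option autoImplicit false

namespace Cfsg.Agent.Lib.Helper1.LMT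

open Module QuadraticMap Matrix
open Cfsg Cfsg.Agent.Lib.Helper51 Cfsg.Agent.Lib.Helper52 Cfsg.Agent.Lib.Helper54
open Cfsg.Agent.Lib.Helper52.OU Cfsg.Agent.Lib.Helper52.OUMain Cfsg.Agent.Lib.Helper52.LP

universe u

section Gen

variable {G G' : Type*} [Group G] [Group G']

theorem map_commutator_top (E : G ≃* G') :
    (commutator G).map (E : G →* G') = commutator G' := by
  rw [commutator_def, commutator_def, Subgroup.map_commutator]
  have h : (⊤ : Subgroup G).map (E : G →* G') = ⊤ := by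
    rw [← MonoidHom.range_eq_map, MonoidHom.range_eq_top]
    exact E.surjective
  rw [h]

/-- the restriction of an isomorphism to the commutator subgroups -/
noncomputable def commEquiv (E : G ≃* G') : commutator G ≃* commutator G' :=
  (E.subgroupMap (commutator G)).trans (MulEquiv.subgroupCongr (map_commutator_top E))

theorem coe_commEquiv (E : G ≃* G') (s : commutator G) :
    ((commEquiv E s : commutator G') : G') = E s := rfl

theorem map_center_equiv {A B : Type*} [Group A] [Group B] (e : A ≃* B) :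
    (Subgroup.center A).map (e : A →* B) = Subgroup.center B := by
  ext z
  rw [Subgroup.mem_map, Subgroup.mem_center_iff]
  constructor
  · rintro ⟨y, hy, rfl⟩ g
    rw [Subgroup.mem_center_iff] at hy
    obtain ⟨x, rfl⟩ := e.surjective g
    change e x * e y = e y * e x
    rw [← map_mul, ← map_mul, hy x]
  · intro hz
    refine ⟨e.symm z, ?_, e.apply_symm_apply z⟩
    rw [Subgroup.mem_center_iff]
    intro g
    apply e.injective
    rw [map_mul, map_mul, e.apply_symm_apply]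
    exact hz (e g)

/-- the isomorphism induced on `commutator ⧸ center` -/
noncomputable def quotEquiv (E : G ≃* G') :
    (commutator G ⧸ Subgroup.center (commutator G)) ≃*
      (commutator G' ⧸ Subgroup.center (commutator G')) :=
  QuotientGroup.congr _ _ (commEquiv E) (map_center_equiv (commEquiv E))

theorem quotEquiv_mk (E : G ≃* G') (s : commutator G) :
    quotEquiv E (QuotientGroup.mk s) = QuotientGroup.mk (commEquiv E s) :=
  QuotientGroup.congr_mk _ _ _ _ s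

end Gen

variable {ι : Type} [Fintype ι] [DecidableEq ι] {F : Type u} [Field F]

local notation "mt(" g ")" => ((g : Matrix.GeneralLinearGroup ι F) : Matrix ι ι F)

theorem mem_iso_iff (Q : (ι → F) → F) (g : GL ι F) :
    g ∈ Cfsg.isometryGroup F Q ↔ ∀ x, Q (mt(g) *ᵥ x) = Q x := by
  constructor
  · intro h x
    exact h x x
  · intro h x _
    exact h x

theorem conj_mem (Q Q' : (ι → F) → F) (L : GL ι F) (c : Fˣ)
    (hL : ∀ v : ι → F, Q' (mt(L) *ᵥ v) = (c : F) * Q v) (s : GL ι F)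
    (hs : s ∈ Cfsg.isometryGroup F Q) : L * s * L⁻¹ ∈ Cfsg.isometryGroup F Q' := by
  rw [mem_iso_iff] at hs ⊢
  intro u
  have h1 : mt(L * s * L⁻¹) *ᵥ u = mt(L) *ᵥ (mt(s) *ᵥ (mt(L⁻¹) *ᵥ u)) := by
    rw [Units.val_mul, Units.val_mul, Matrix.mulVec_mulVec, Matrix.mulVec_mulVec]
  have h2 : u = mt(L) *ᵥ (mt(L⁻¹) *ᵥ u) := by
    rw [Matrix.mulVec_mulVec, ← Units.val_mul, mul_inv_cancel, Units.val_one, Matrix.one_mulVec]
  rw [h1, hL, hs]
  conv_rhs => rw [h2, hL]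

theorem conj_mem' (Q Q' : (ι → F) → F) (L : GL ι F) (c : Fˣ)
    (hL : ∀ v : ι → F, Q' (mt(L) *ᵥ v) = (c : F) * Q v) (s : GL ι F)
    (hs : s ∈ Cfsg.isometryGroup F Q') : L⁻¹ * s * L ∈ Cfsg.isometryGroup F Q := by
  rw [mem_iso_iff] at hs ⊢
  intro v
  have h1 : mt(L) *ᵥ (mt(L⁻¹ * s * L) *ᵥ v) = mt(s) *ᵥ (mt(L) *ᵥ v) := by
    rw [Matrix.mulVec_mulVec, Matrix.mulVec_mulVec, ← Units.val_mul, ← Units.val_mul]
    congr 2
    group
  have h3 : (c : F) * Q (mt(L⁻¹ * s * L) *ᵥ v) = (c : F) * Q v := by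
    rw [← hL, h1, hs, hL]
  exact mul_left_cancel₀ c.ne_zero h3

/-- conjugation by a similarity of forms, as an isomorphism of the isometry groups -/
def conjEquiv (Q Q' : (ι → F) → F) (L : GL ι F) (c : Fˣ)
    (hL : ∀ v : ι → F, Q' (mt(L) *ᵥ v) = (c : F) * Q v) :
    ↥(Cfsg.isometryGroup F Q) ≃* ↥(Cfsg.isometryGroup F Q') where
  toFun s := ⟨L * s.1 * L⁻¹, conj_mem Q Q' L c hL s.1 s.2⟩
  invFun s := ⟨L⁻¹ * s.1 * L, conj_mem' Q Q' L c hL s.1 s.2⟩
  left_inv s := Subtype.ext (by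
    change L⁻¹ * (L * s.1 * L⁻¹) * L = s.1
    group)
  right_inv s := Subtype.ext (by
    change L * (L⁻¹ * s.1 * L) * L⁻¹ = s.1
    group)
  map_mul' s t := Subtype.ext (by
    change L * (s.1 * t.1) * L⁻¹ = L * s.1 * L⁻¹ * (L * t.1 * L⁻¹)
    group)

theorem coe_conjEquiv (Q Q' : (ι → F) → F) (L : GL ι F) (c : Fˣ)
    (hL : ∀ v : ι → F, Q' (mt(L) *ᵥ v) = (c : F) * Q v) (s : ↥(Cfsg.isometryGroup F Q)) :
    mt((conjEquiv Q Q' L c hL s : ↥(Cfsg.isometryGroup F Q'))) = mt(L) * mt(s) * mt(L⁻¹) := by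
  change mt(L * s.1 * L⁻¹) = _
  rw [Units.val_mul, Units.val_mul]

theorem exists_transport (Q Q' : (ι → F) → F) (L : GL ι F) (c : Fˣ)
    (hL : ∀ v : ι → F, Q' (mt(L) *ᵥ v) = (c : F) * Q v) :
    ∃ ψ₀ : Cfsg.POmega F Q ≃* Cfsg.POmega F Q',
      (∀ s : ↥(Cfsg.Omega F Q), ∃ s' : ↥(Cfsg.Omega F Q'),
        mt((s' : ↥(Cfsg.isometryGroup F Q')))
          = mt(L) * mt((s : ↥(Cfsg.isometryGroup F Q))) * mt(L⁻¹)) ∧
      (∀ (s : ↥(Cfsg.Omega F Q)) (s' : ↥(Cfsg.Omega F Q')),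
        mt((s' : ↥(Cfsg.isometryGroup F Q')))
          = mt(L) * mt((s : ↥(Cfsg.isometryGroup F Q))) * mt(L⁻¹) →
        ψ₀ (QuotientGroup.mk s) = QuotientGroup.mk s') := by
  refine ⟨quotEquiv (conjEquiv Q Q' L c hL), fun s => ⟨commEquiv (conjEquiv Q Q' L c hL) s, ?_⟩,
    fun s s' h => ?_⟩
  · rw [coe_commEquiv, coe_conjEquiv]
  · rw [quotEquiv_mk]
    congr 1
    apply Subtype.ext
    apply Subtype.ext
    apply Units.ext
    rw [h, coe_commEquiv, coe_conjEquiv]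

theorem transport_ind (Q Q' : (ι → F) → F) (L : GL ι F)
    (ψ₀ : Cfsg.POmega F Q ≃* Cfsg.POmega F Q')
    (h1 : ∀ s : ↥(Cfsg.Omega F Q), ∃ s' : ↥(Cfsg.Omega F Q'),
        mt((s' : ↥(Cfsg.isometryGroup F Q')))
          = mt(L) * mt((s : ↥(Cfsg.isometryGroup F Q))) * mt(L⁻¹))
    (h2 : ∀ (s : ↥(Cfsg.Omega F Q)) (s' : ↥(Cfsg.Omega F Q')),
        mt((s' : ↥(Cfsg.isometryGroup F Q')))
          = mt(L) * mt((s : ↥(Cfsg.isometryGroup F Q))) * mt(L⁻¹) →
        ψ₀ (QuotientGroup.mk s) = QuotientGroup.mk s')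
    (g : GL ι F) (ξ : MulAut (Cfsg.POmega F Q)) (ξ' : MulAut (Cfsg.POmega F Q'))
    (hξ : Ind Q ξ g (RingEquiv.refl F)) (hξ' : Ind Q' ξ' (L * g * L⁻¹) (RingEquiv.refl F)) :
    ∀ t : Cfsg.POmega F Q, ψ₀ (ξ t) = ξ' (ψ₀ t) := by
  intro t
  induction t using QuotientGroup.induction_on with
  | H s =>
    obtain ⟨s₁, hs₁⟩ := semi_conj_mem Q g (RingEquiv.refl F) hξ.1 s
    have e1 : ξ (QuotientGroup.mk s) = QuotientGroup.mk s₁ := hξ.2 s s₁ hs₁
    obtain ⟨s', hs'⟩ := h1 s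
    obtain ⟨s₁', hs₁'⟩ := h1 s₁
    have e2 := h2 s s' hs'
    have e3 := h2 s₁ s₁' hs₁'
    have hmap : ∀ M : Matrix ι ι F, M.map (RingEquiv.refl F) = M := fun M => by
      ext i j
      rfl
    have e4 : ξ' (QuotientGroup.mk s') = QuotientGroup.mk s₁' := by
      apply hξ'.2 s' s₁'
      rw [hs₁', hs', hs₁, hmap, hmap]
      have i1 : mt((L * g * L⁻¹)⁻¹) = mt(L) * mt(g⁻¹) * mt(L⁻¹) := by
        rw [← Units.val_mul, ← Units.val_mul]
        congr 1
        group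
      have i2 : mt(L⁻¹) * mt(L) = 1 := by
        rw [← Units.val_mul, inv_mul_cancel, Units.val_one]
      rw [i1, Units.val_mul, Units.val_mul]
      calc mt(L) * (mt(g) * mt(s) * mt(g⁻¹)) * mt(L⁻¹)
          = mt(L) * mt(g) * (1 : Matrix ι ι F) * mt(s) * (1 : Matrix ι ι F) * mt(g⁻¹) * mt(L⁻¹) := by
            simp only [Matrix.mul_one, Matrix.mul_assoc]
        _ = mt(L) * mt(g) * (mt(L⁻¹) * mt(L)) * mt(s) * (mt(L⁻¹) * mt(L)) * mt(g⁻¹) * mt(L⁻¹) := by
            rw [i2]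
        _ = mt(L) * mt(g) * mt(L⁻¹) * (mt(L) * mt(s) * mt(L⁻¹)) * (mt(L) * mt(g⁻¹) * mt(L⁻¹)) := by
            simp only [Matrix.mul_assoc]
    rw [e1, e3, e2, e4]

end Cfsg.Agent.Lib.Helper1.LMT
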