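import Mathlib

/-!
Monomial subgroup of `SL_6(q)`, `q ≥ 5` (helper1): the two combinatorial cores of the
six-dimensional version of CASEZ (pure statements about a `6 × 6` matrix).
-/

set_option autoImplicit false
set_option linter.unusedSectionVars false
set_option linter.unusedVariables false

namespace Cfsg.Agent.Lib.Helper1.Mono6

open Matrix

section
variable {F : Type*} [Field F] {κ : Type} [Fintype κ] [DecidableEq κ]

theorem z6_two_out (hn : 6 ≤ Fintype.card κ) (S : Finset κ) (hS : S.card ≤ 4) :
    ∃ a b, a ≠ b ∧ a ∉ S ∧ b ∉ S := by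
  have h1 : 1 < Sᶜ.card := by
    have := Finset.card_add_card_compl S
    omega
  obtain ⟨a, ha, b, hb, hab⟩ := Finset.one_lt_card.mp h1
  exact ⟨a, b, hab, Finset.mem_compl.mp ha, Finset.mem_compl.mp hb⟩

/-- Core of the "three columns with a zero" contradiction. -/
theorem z6_trio_core [Fintype F] (hq : 5 ≤ Fintype.card F) (hn : Fintype.card κ = 6)
    (x : Matrix κ κ F)
    (hrow : ∀ r a b, a ≠ b → x r a = 0 → x r b = 0 → False)
    (C3 : ∀ k l m, k ≠ l → k ≠ m → l ≠ m → ∀ α β γ : F, α ≠ 0 → β ≠ 0 → ∀ p,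
      x p k * α + x p l * β + x p m * γ = 0 →
      ∃ i, i ≠ p ∧ x i k * α + x i l * β + x i m * γ = 0)
    (k l m zk zl zm : κ) (hkl : k ≠ l) (hkm : k ≠ m) (hlm : l ≠ m)
    (hzkl : zk ≠ zl) (hzkm : zk ≠ zm) (hzlm : zl ≠ zm)
    (hzm : x zm m = 0)
    (hck : ∀ i, i ≠ zk → x i k ≠ 0) (hcl : ∀ i, i ≠ zl → x i l ≠ 0)
    (hcm : ∀ i, i ≠ zm → x i m ≠ 0) : False := by
  classical
  have hn6 : 6 ≤ Fintype.card κ := hn.ge
  obtain ⟨r1, -, -, hr1, -⟩ := z6_two_out hn6 {zk, zl, zm}
    (Finset.card_le_three.trans (by norm_num))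
  simp only [Finset.mem_insert, Finset.mem_singleton, not_or] at hr1
  have hp : x r1 k ≠ 0 := hck r1 hr1.1
  have hq' : x r1 l ≠ 0 := hcl r1 hr1.2.1
  have hs : x r1 m ≠ 0 := hcm r1 hr1.2.2
  have : Nonempty κ := ⟨r1⟩
  by_cases hB : ∃ r2, r2 ≠ r1 ∧ x r2 k * x r1 l = x r2 l * x r1 k ∧
      x r2 k * x r1 m = x r2 m * x r1 k
  · -- Case B: a second row proportional to `r1`
    obtain ⟨r2, hr21, P1, P2⟩ := hB
    have hr2k : x r2 k ≠ 0 := by
      intro h
      rw [h, zero_mul] at P1
      have hl0 : x r2 l = 0 := by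
        rcases mul_eq_zero.mp P1.symm with h' | h'
        · exact h'
        · exact absurd h' hp
      exact hrow r2 k l hkl h hl0
    have hr2m : x r2 m ≠ 0 := by
      intro h
      rw [h, zero_mul] at P2
      rcases mul_eq_zero.mp P2 with h' | h'
      · exact hr2k h'
      · exact hs h'
    have hr2zm : r2 ≠ zm := by
      intro h
      rw [h] at hr2m
      exact hr2m hzm
    have hxp0 : x zm k ≠ 0 := hck zm hzkm.symm
    have hxq0 : x zm l ≠ 0 := hcl zm hzlm.symm
    have W0 : ∀ γ : F, x zm k * x zm l + x zm l * (-(x zm k)) + x zm m * γ = 0 := by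
      intro γ
      rw [hzm]
      ring
    have CW := fun γ : F => C3 k l m hkl hkm hlm (x zm l) (-(x zm k)) γ hxq0
      (neg_ne_zero.mpr hxp0) zm (W0 γ)
    have f1 : ∀ (j : κ) (γ γ' : F), j ≠ zm →
        x j k * x zm l + x j l * (-(x zm k)) + x j m * γ = 0 →
        x j k * x zm l + x j l * (-(x zm k)) + x j m * γ' = 0 → γ = γ' := by
      intro j γ γ' hj h1 h2
      have h3' : x j m * (γ - γ') = 0 := by linear_combination h1 - h2
      rcases mul_eq_zero.mp h3' with h | h
      · exact absurd h (hcm j hj)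
      · exact sub_eq_zero.mp h
    have f2 : ∀ γ : F, x r2 k * x zm l + x r2 l * (-(x zm k)) + x r2 m * γ = 0 →
        x r1 k * x zm l + x r1 l * (-(x zm k)) + x r1 m * γ = 0 := by
      intro γ h
      have h' : x r2 k * (x r1 k * x zm l + x r1 l * (-(x zm k)) + x r1 m * γ) = 0 := by
        linear_combination (x r1 k) * h - (x zm k) * P1 + γ * P2
      rcases mul_eq_zero.mp h' with h'' | h''
      · exact absurd h'' hr2k
      · exact h''
    obtain ⟨j', hj', Wj'⟩ := CW 0
    obtain ⟨e', he'zm, he'r2, We'⟩ : ∃ e' : κ, e' ≠ zm ∧ e' ≠ r2 ∧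
        x e' k * x zm l + x e' l * (-(x zm k)) + x e' m * 0 = 0 := by
      by_cases h : j' = r2
      · refine ⟨r1, hr1.2.2, hr21.symm, f2 0 ?_⟩
        rw [← h]
        exact Wj'
      · exact ⟨j', hj', h, Wj'⟩
    have hS3card : ({zm, r2, e'} : Finset κ).card = 3 := by
      rw [Finset.card_insert_of_notMem, Finset.card_pair he'r2.symm]
      simp only [Finset.mem_insert, Finset.mem_singleton, not_or]
      exact ⟨hr2zm.symm, he'zm.symm⟩
    have key : ∀ γ : F, γ ≠ 0 → ∃ e, e ∉ ({zm, r2, e'} : Finset κ) ∧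
        x e k * x zm l + x e l * (-(x zm k)) + x e m * γ = 0 := by
      intro γ hγ
      obtain ⟨j, hj, Wj⟩ := CW γ
      by_cases h : j = r2
      · have Wr1 : x r1 k * x zm l + x r1 l * (-(x zm k)) + x r1 m * γ = 0 := by
          apply f2 γ
          rw [← h]
          exact Wj
        refine ⟨r1, ?_, Wr1⟩
        simp only [Finset.mem_insert, Finset.mem_singleton, not_or]
        refine ⟨hr1.2.2, hr21.symm, ?_⟩
        intro h1
        rw [← h1] at We'
        exact hγ (f1 r1 γ 0 hr1.2.2 Wr1 We')
      · refine ⟨j, ?_, Wj⟩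
        simp only [Finset.mem_insert, Finset.mem_singleton, not_or]
        refine ⟨hj, h, ?_⟩
        intro h1
        rw [← h1] at We'
        exact hγ (f1 j γ 0 hj Wj We')
    choose! f hf using key
    have hfzm : ∀ γ : F, γ ≠ 0 → f γ ≠ zm := by
      intro γ hγ h
      have := (hf γ hγ).1
      rw [h] at this
      exact this (Finset.mem_insert_self _ _)
    have hinj : Set.InjOn f ((Finset.univ.erase (0 : F) : Finset F) : Set F) := by
      intro γ hγ γ' hγ' hfe
      have hγ0 : γ ≠ 0 := Finset.ne_of_mem_erase (Finset.mem_coe.mp hγ)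
      have hγ'0 : γ' ≠ 0 := Finset.ne_of_mem_erase (Finset.mem_coe.mp hγ')
      have h1 := (hf γ hγ0).2
      have h2 := (hf γ' hγ'0).2
      rw [← hfe] at h2
      exact f1 (f γ) γ γ' (hfzm γ hγ0) h1 h2
    have hmaps : ∀ γ ∈ (Finset.univ.erase (0 : F) : Finset F),
        f γ ∈ ({zm, r2, e'} : Finset κ)ᶜ := by
      intro γ hγ
      rw [Finset.mem_compl]
      exact (hf γ (Finset.ne_of_mem_erase hγ)).1
    have hle := Finset.card_le_card_of_injOn f hmaps hinj
    have hc1 : (Finset.univ.erase (0 : F)).card = Fintype.card F - 1 := by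
      rw [Finset.card_erase_of_mem (Finset.mem_univ _), Finset.card_univ]
    have hc2 : (({zm, r2, e'} : Finset κ)ᶜ).card = 3 := by
      rw [Finset.card_compl, hS3card, hn]
    omega
  · -- Case A: no row is proportional to `r1`
    push Not at hB
    obtain ⟨jkl, hjkl, Ekl⟩ := C3 k l m hkl hkm hlm (x r1 l) (-(x r1 k)) 0 hq'
      (neg_ne_zero.mpr hp) r1 (by ring)
    obtain ⟨jkm, hjkm, Ekm⟩ := C3 k m l hkm hkl hlm.symm (x r1 m) (-(x r1 k)) 0 hs
      (neg_ne_zero.mpr hp) r1 (by ring)
    obtain ⟨jlm, hjlm, Elm⟩ := C3 l m k hlm hkl.symm hkm.symm (x r1 m) (-(x r1 l)) 0 hs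
      (neg_ne_zero.mpr hq') r1 (by ring)
    have Ekl' : x jkl k * x r1 l = x jkl l * x r1 k := by linear_combination Ekl
    have Ekm' : x jkm k * x r1 m = x jkm m * x r1 k := by linear_combination Ekm
    have Elm' : x jlm l * x r1 m = x jlm m * x r1 l := by linear_combination Elm
    -- closure properties of the three relations
    have F2 : ∀ j, x j k * x r1 l = x j l * x r1 k → x j l * x r1 m = x j m * x r1 l →
        x j k * x r1 m = x j m * x r1 k := by
      intro j e1 e2
      have h : (x j k * x r1 m - x j m * x r1 k) * x r1 l = 0 := by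
        linear_combination (x r1 m) * e1 + (x r1 k) * e2
      rcases mul_eq_zero.mp h with h' | h'
      · exact sub_eq_zero.mp h'
      · exact absurd h' hq'
    have F3 : ∀ j, x j k * x r1 m = x j m * x r1 k → x j l * x r1 m = x j m * x r1 l →
        x j k * x r1 l = x j l * x r1 k := by
      intro j e1 e2
      have h : (x j k * x r1 l - x j l * x r1 k) * x r1 m = 0 := by
        linear_combination (x r1 l) * e1 - (x r1 k) * e2
      rcases mul_eq_zero.mp h with h' | h'
      · exact sub_eq_zero.mp h'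
      · exact absurd h' hs
    have hne1 : jkl ≠ jkm := by
      intro h
      rw [← h] at Ekm'
      exact hB jkl hjkl Ekl' Ekm'
    have hne2 : jkl ≠ jlm := by
      intro h
      rw [← h] at Elm'
      exact hB jkl hjkl Ekl' (F2 jkl Ekl' Elm')
    have hne3 : jkm ≠ jlm := by
      intro h
      rw [← h] at Elm'
      exact hB jkm hjkm (F3 jkm Ekm' Elm') Ekm'
    have hS4card : ({r1, jkl, jkm, jlm} : Finset κ).card = 4 := by
      rw [Finset.card_insert_of_notMem, Finset.card_insert_of_notMem, Finset.card_pair hne3]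
      · simp only [Finset.mem_insert, Finset.mem_singleton, not_or]
        exact ⟨hne1, hne2⟩
      · simp only [Finset.mem_insert, Finset.mem_singleton, not_or]
        exact ⟨hjkl.symm, hjkm.symm, hjlm.symm⟩
    -- a row vanishing at a torus point of the line of `r1` and related to `r1` on `(l,m)`
    have hElm : ∀ (j : κ) (t : F), j ≠ r1 →
        x j k * (x r1 l * x r1 m) + x j l * (t * x r1 k * x r1 m) +
          x j m * (-(1 + t) * x r1 k * x r1 l) = 0 →
        x j l * x r1 m = x j m * x r1 l → False := by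
      intro j t hj hV e
      have h : x r1 l * (x j k * x r1 m - x j m * x r1 k) = 0 := by
        linear_combination hV - t * x r1 k * e
      have e2 : x j k * x r1 m = x j m * x r1 k := by
        rcases mul_eq_zero.mp h with h' | h'
        · exact absurd h' hq'
        · exact sub_eq_zero.mp h'
      exact hB j hj (F3 j e2 e) e2
    have key : ∀ t : F, t ≠ 0 → t ≠ -1 → ∃ j, j ∉ ({r1, jkl, jkm, jlm} : Finset κ) ∧
        x j k * (x r1 l * x r1 m) + x j l * (t * x r1 k * x r1 m) +
          x j m * (-(1 + t) * x r1 k * x r1 l) = 0 := by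
      intro t ht ht1
      have ht1' : 1 + t ≠ 0 := by
        intro h
        apply ht1
        linear_combination h
      obtain ⟨j, hj1, hV⟩ := C3 k l m hkl hkm hlm (x r1 l * x r1 m) (t * x r1 k * x r1 m)
        (-(1 + t) * x r1 k * x r1 l) (mul_ne_zero hq' hs)
        (mul_ne_zero (mul_ne_zero ht hp) hs) r1 (by ring)
      refine ⟨j, ?_, hV⟩
      simp only [Finset.mem_insert, Finset.mem_singleton, not_or]
      refine ⟨hj1, ?_, ?_, ?_⟩
      · intro h
        rw [← h] at Ekl'
        have h2 : (1 + t) * x r1 l * (x j k * x r1 m - x j m * x r1 k) = 0 := by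
          linear_combination hV + t * x r1 m * Ekl'
        have e2 : x j k * x r1 m = x j m * x r1 k := by
          rcases mul_eq_zero.mp h2 with h' | h'
          · rcases mul_eq_zero.mp h' with h'' | h''
            · exact absurd h'' ht1'
            · exact absurd h'' hq'
          · exact sub_eq_zero.mp h'
        exact hB j hj1 Ekl' e2
      · intro h
        rw [← h] at Ekm'
        have h2 : t * x r1 m * (x j l * x r1 k - x j k * x r1 l) = 0 := by
          linear_combination hV - (1 + t) * x r1 l * Ekm'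
        have e2 : x j k * x r1 l = x j l * x r1 k := by
          rcases mul_eq_zero.mp h2 with h' | h'
          · rcases mul_eq_zero.mp h' with h'' | h''
            · exact absurd h'' ht
            · exact absurd h'' hs
          · exact (sub_eq_zero.mp h').symm
        exact hB j hj1 e2 Ekm'
      · intro h
        rw [← h] at Elm'
        exact hElm j t hj1 hV Elm'
    choose! f hf using key
    have hfr1 : ∀ t : F, t ≠ 0 → t ≠ -1 → f t ≠ r1 := by
      intro t ht ht1 h
      have := (hf t ht ht1).1
      rw [h] at this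
      exact this (Finset.mem_insert_self _ _)
    have hinj : Set.InjOn f ((((Finset.univ.erase (0 : F)).erase (-1)) : Finset F) : Set F) := by
      intro t ht t' ht' hfe
      have ht1 : t ≠ -1 := Finset.ne_of_mem_erase (Finset.mem_coe.mp ht)
      have ht0 : t ≠ 0 := Finset.ne_of_mem_erase (Finset.mem_of_mem_erase (Finset.mem_coe.mp ht))
      have ht'1 : t' ≠ -1 := Finset.ne_of_mem_erase (Finset.mem_coe.mp ht')
      have ht'0 : t' ≠ 0 :=
        Finset.ne_of_mem_erase (Finset.mem_of_mem_erase (Finset.mem_coe.mp ht'))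
      have h1 := (hf t ht0 ht1).2
      have h2 := (hf t' ht'0 ht'1).2
      rw [← hfe] at h2
      by_contra hne
      have h3 : (t - t') * x r1 k * (x (f t) l * x r1 m - x (f t) m * x r1 l) = 0 := by
        linear_combination h1 - h2
      have e : x (f t) l * x r1 m = x (f t) m * x r1 l := by
        rcases mul_eq_zero.mp h3 with h' | h'
        · rcases mul_eq_zero.mp h' with h'' | h''
          · exact absurd (sub_eq_zero.mp h'') hne
          · exact absurd h'' hp
        · exact sub_eq_zero.mp h'
      exact hElm (f t) t (hfr1 t ht0 ht1) h1 e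
    have hmaps : ∀ t ∈ (((Finset.univ.erase (0 : F)).erase (-1)) : Finset F),
        f t ∈ ({r1, jkl, jkm, jlm} : Finset κ)ᶜ := by
      intro t ht
      rw [Finset.mem_compl]
      exact (hf t (Finset.ne_of_mem_erase (Finset.mem_of_mem_erase ht))
        (Finset.ne_of_mem_erase ht)).1
    have hle := Finset.card_le_card_of_injOn f hmaps hinj
    have hc0 : (Finset.univ.erase (0 : F)).card = Fintype.card F - 1 := by
      rw [Finset.card_erase_of_mem (Finset.mem_univ _), Finset.card_univ]
    have hc1 := Finset.pred_card_le_card_erase (s := Finset.univ.erase (0 : F)) (a := (-1 : F))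
    have hc2 : (({r1, jkl, jkm, jlm} : Finset κ)ᶜ).card = 2 := by
      rw [Finset.card_compl, hS4card, hn]
    omega

end

end Cfsg.Agent.Lib.Helper1.Mono6
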