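import Mathlib
import Cfsg.Agent.Lib.Helper65.MonoKit

/-!
# S5634 piece STEPA2 (helper65): a non-monomial element mapping a coordinate plane onto a
coordinate plane produces a root element.
-/

set_option autoImplicit false
set_option linter.unusedSectionVars false

namespace Cfsg.Agent.Lib.Helper1.Mono6
open Cfsg.Agent.Lib.Helper65.Mono

open Matrix

section
variable {F : Type*} [Field F] {κ : Type} [Fintype κ] [DecidableEq κ]

theorem stepA2_unit [Fintype F] (hq : 5 ≤ Fintype.card F) : ∃ s : Fˣ, s ≠ 1 := by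
  classical
  have h : 1 < Fintype.card Fˣ := by
    rw [Fintype.card_units]
    omega
  exact Fintype.exists_ne_of_one_lt_card h 1

theorem stepA2_card_compl (J : Finset κ) :
    Fintype.card {i // i ∉ J} = Fintype.card κ - J.card := by
  classical
  rw [Fintype.card_subtype_compl, Fintype.card_coe]

/-- entries of an element stabilising `V_J` with trivial block -/
theorem stepA2_entries {J : Finset κ} (g : GL κ F) (hs : StabJ J (g : Matrix κ κ F))
    (hb : blk J (g : Matrix κ κ F) = 1) (r : κ) (hr : r ∉ J) (c : κ) :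
    (g : Matrix κ κ F) r c = if r = c then 1 else 0 := by
  by_cases hc : c ∈ J
  · rw [hs r c hr hc, if_neg (fun h : r = c => hr (h ▸ hc))]
  · have h1 := congrFun (congrFun hb ⟨r, hr⟩) ⟨c, hc⟩
    simp only [blk, Matrix.submatrix_apply, Matrix.one_apply, Subtype.mk.injEq] at h1
    exact h1

theorem stepA2_inv {J : Finset κ} (g : GL κ F) (hs : StabJ J (g : Matrix κ κ F))
    (hb : blk J (g : Matrix κ κ F) = 1) :
    blk J ((g⁻¹ : GL κ F) : Matrix κ κ F) = 1 := by
  have h1 : blk J (g : Matrix κ κ F) * blk J ((g⁻¹ : GL κ F) : Matrix κ κ F) = 1 := by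
    rw [← blk_mul hs, ← Units.val_mul, mul_inv_cancel, Units.val_one, blk_one]
  rw [hb, one_mul] at h1
  exact h1

/-- reduction to an element with trivial block -/
theorem stepA2_J {X : Subgroup (GL κ F)} (hX : MonIn X) (x1 : GL κ F) (hx1 : x1 ∈ X)
    (J : Finset κ) (hs : StabJ J (x1 : Matrix κ κ F)) (hC : IsMono (blk J (x1 : Matrix κ κ F)))
    (j₀ : κ) (hj₀ : j₀ ∈ J) :
    ∃ g ∈ X, StabJ J (g : Matrix κ κ F) ∧ blk J (g : Matrix κ κ F) = 1 ∧
      (IsMono (g : Matrix κ κ F) → IsMono (x1 : Matrix κ κ F)) := by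
  set C : GL {i // i ∉ J} F := blkG J x1 hs with hCdef
  have hCm : IsMono ((extG J C : GL κ F) : Matrix κ κ F) := by
    rw [extG_val]
    exact isMono_extM hC
  set m : GL κ F := normDet (extG J C) j₀ with hm
  have hmX : m ∈ X := normDet_mem hX hCm j₀
  have hmm : IsMono (m : Matrix κ κ F) := isMono_normDet hCm j₀
  have hms : StabJ J (m : Matrix κ κ F) := by
    intro r c hr hc
    rw [hm, normDet_eq_zero_iff, extG_val]
    exact stabJ_extM J _ r c hr hc
  have hmb : blk J (m : Matrix κ κ F) = blk J (x1 : Matrix κ κ F) := by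
    ext r c
    simp only [blk, Matrix.submatrix_apply]
    have hc : c.1 ≠ j₀ := fun h => c.2 (h ▸ hj₀)
    rw [hm, normDet_apply_ne _ hc, extG_val, extM_apply_notMem _ r.2 c.2]
    rfl
  have hmi : StabJ J ((m⁻¹ : GL κ F) : Matrix κ κ F) := stabJ_inv m hms
  refine ⟨x1 * m⁻¹, X.mul_mem hx1 (X.inv_mem hmX), ?_, ?_, ?_⟩
  · rw [Units.val_mul]
    exact hs.mul hmi
  · rw [Units.val_mul, blk_mul hs, ← hmb, ← blk_mul hms, ← Units.val_mul, mul_inv_cancel,
      Units.val_one, blk_one]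
  · intro hg
    have h1 : x1 = x1 * m⁻¹ * m := by group
    rw [h1, Units.val_mul]
    exact hg.mul hmm

/-- the case `B₁ ≠ 0` -/
theorem stepA2_B {X : Subgroup (GL κ F)} (hX : MonIn X) (hA1 : A1P X) (J : Finset κ)
    (h3 : 3 ≤ Fintype.card {i // i ∉ J}) (g : GL κ F) (hg : g ∈ X)
    (hs : StabJ J (g : Matrix κ κ F)) (hb : blk J (g : Matrix κ κ F) = 1)
    (i0 j : κ) (hi0 : i0 ∈ J) (hj : j ∉ J) (hne : (g : Matrix κ κ F) i0 j ≠ 0)
    (s : Fˣ) (hs1 : s ≠ 1) : RootIn X := by
  classical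
  obtain ⟨⟨m0, hm0⟩, hm0j⟩ := Fintype.exists_ne_of_one_lt_card (by omega : 1 < Fintype.card {i // i ∉ J}) ⟨j, hj⟩
  have hjm : j ≠ m0 := fun h => hm0j (Subtype.ext h.symm)
  have hi0j : i0 ≠ j := fun h => hj (h ▸ hi0)
  have hgi := stepA2_entries g⁻¹ (stabJ_inv g hs) (stepA2_inv g hs hb)
  have hge := stepA2_entries g hs hb
  set g2 : GL κ F := g * dg j m0 s * g⁻¹ * (dg j m0 s)⁻¹ with hg2
  have hg2X : g2 ∈ X :=
    X.mul_mem (X.mul_mem (X.mul_mem hg (dg_mem hX hjm s)) (X.inv_mem hg))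
      (X.inv_mem (dg_mem hX hjm s))
  have hent : ∀ r c, (g2 : Matrix κ κ F) r c =
      ((if r = c then 1 else 0) +
        ((s : F) - 1) * (g : Matrix κ κ F) r j * (if j = c then 1 else 0) +
        (((s⁻¹ : Fˣ) : F) - 1) * (g : Matrix κ κ F) r m0 * (if m0 = c then 1 else 0)) *
        (((dgv j m0 s c)⁻¹ : Fˣ) : F) := by
    intro r c
    rw [hg2, Units.val_mul, dg, diagU_inv_val, Matrix.mul_diagonal, ← dg, conj_dg_apply g hjm,
      hgi j hj c, hgi m0 hm0 c]
  have hsne : (s : F) ≠ 0 := Units.ne_zero s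
  have hUJ : UJ J (g2 : Matrix κ κ F) := by
    intro r c hrc
    by_contra hcon
    apply hrc
    rw [hent, Matrix.one_apply]
    by_cases hr : r ∈ J
    · have hc : c ∈ J := by
        by_contra hc
        exact hcon ⟨hr, hc⟩
      have hjc : j ≠ c := fun h => hj (h ▸ hc)
      have hmc : m0 ≠ c := fun h => hm0 (h ▸ hc)
      simp [dgv, hjc, hmc, Ne.symm hjc, Ne.symm hmc]
    · rw [hge r hr j, hge r hr m0]
      by_cases hcj : c = j
      · subst hcj
        by_cases hrc2 : r = c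
        · subst hrc2
          simp [dgv, hjm, Ne.symm hjm]
        · simp [dgv, Ne.symm hjm, hrc2]
      · by_cases hcm : c = m0
        · subst hcm
          by_cases hrc2 : r = c
          · subst hrc2
            simp [dgv, hjm, Ne.symm hjm]
          · simp [dgv, hjm, Ne.symm hjm, hrc2]
        · simp [dgv, hcj, hcm, Ne.symm hcj, Ne.symm hcm]
  have hne1 : g2 ≠ 1 := by
    intro h
    have h2 : (g2 : Matrix κ κ F) i0 j = 0 := by
      rw [h, Units.val_one, Matrix.one_apply_ne hi0j]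
    rw [hent] at h2
    simp only [if_neg hi0j, if_neg (Ne.symm hjm), ↓reduceIte, zero_add, mul_one, mul_zero,
      add_zero] at h2
    have hs2 : (s : F) - 1 ≠ 0 := by
      intro h0
      apply hs1
      apply Units.ext
      rw [Units.val_one]
      exact sub_eq_zero.mp h0
    rcases mul_eq_zero.mp h2 with h4 | h4
    · rcases mul_eq_zero.mp h4 with h5 | h5
      · exact hs2 h5
      · exact hne h5
    · exact Units.ne_zero _ h4
  exact hA1 J h3 g2 hg2X hUJ hne1

/-- conjugation by a permutation matrix -/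
theorem stepA2_conj (σ : Equiv.Perm κ) (g : GL κ F) (r s : κ) :
    ((monoG σ (fun _ => (1 : Fˣ)) * g * (monoG σ (fun _ => (1 : Fˣ)))⁻¹ : GL κ F) :
      Matrix κ κ F) r s = (g : Matrix κ κ F) (σ⁻¹ r) (σ⁻¹ s) := by
  rw [Units.val_mul, Units.val_mul, Matrix.mul_apply, Finset.sum_eq_single (σ⁻¹ s)]
  · rw [monoG_inv_apply, if_pos rfl, Matrix.mul_apply, Finset.sum_eq_single (σ⁻¹ r)]
    · rw [monoG_apply, if_pos (by simp)]
      simp
    · intro k _ hk
      have : r ≠ σ k := fun h => hk (by rw [h]; simp)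
      rw [monoG_apply, if_neg this, zero_mul]
    · intro h
      exact absurd (Finset.mem_univ _) h
  · intro k _ hk
    rw [monoG_inv_apply, if_neg hk, mul_zero]
  · intro h
    exact absurd (Finset.mem_univ _) h

/-- the case `B₁ = 0` -/
theorem stepA2_C {X : Subgroup (GL κ F)} (hn : 6 ≤ Fintype.card κ) (hX : MonIn X)
    (hLL : LLP X) (hQG : QGP X) (a b : κ) (hab : a ≠ b) (g : GL κ F) (hg : g ∈ X)
    (hge : ∀ r c, (r ≠ a ∧ r ≠ b) ∨ (c ≠ a ∧ c ≠ b) →
      (g : Matrix κ κ F) r c = if r = c then 1 else 0)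
    (hnm : ¬ IsMono (g : Matrix κ κ F)) : RootIn X := by
  classical
  -- a column with two nonzero entries
  have hcase : ((g : Matrix κ κ F) a a ≠ 0 ∧ (g : Matrix κ κ F) b a ≠ 0) ∨
      ((g : Matrix κ κ F) a b ≠ 0 ∧ (g : Matrix κ κ F) b b ≠ 0) := by
    by_contra hcon
    push Not at hcon
    apply hnm
    intro j
    by_cases hja : j = a
    · subst hja
      by_cases h0 : (g : Matrix κ κ F) j j = 0
      · refine ⟨b, fun i' hi' => ?_⟩
        by_contra hne
        by_cases hi'a : i' = j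
        · rw [hi'a] at hi'
          exact hi' h0
        · apply hi'
          rw [hge i' j (Or.inl ⟨hi'a, hne⟩), if_neg hi'a]
      · refine ⟨j, fun i' hi' => ?_⟩
        by_contra hne
        by_cases hi'b : i' = b
        · rw [hi'b] at hi'
          exact hi' (hcon.1 h0)
        · apply hi'
          rw [hge i' j (Or.inl ⟨hne, hi'b⟩), if_neg hne]
    · by_cases hjb : j = b
      · subst hjb
        by_cases h0 : (g : Matrix κ κ F) a j = 0
        · refine ⟨j, fun i' hi' => ?_⟩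
          by_contra hne
          by_cases hi'a : i' = a
          · rw [hi'a] at hi'
            exact hi' h0
          · apply hi'
            rw [hge i' j (Or.inl ⟨hi'a, hne⟩), if_neg hne]
        · refine ⟨a, fun i' hi' => ?_⟩
          by_contra hne
          by_cases hi'b : i' = j
          · rw [hi'b] at hi'
            exact hi' (hcon.2 h0)
          · apply hi'
            rw [hge i' j (Or.inl ⟨hne, hi'b⟩), if_neg hi'b]
      · refine ⟨j, fun i' hi' => ?_⟩
        by_contra hne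
        apply hi'
        rw [hge i' j (Or.inr ⟨hja, hjb⟩), if_neg hne]
  -- a third index
  obtain ⟨c, hca, hcb⟩ : ∃ c, c ≠ a ∧ c ≠ b := by
    by_contra hcon
    push Not at hcon
    have hsub : (Finset.univ : Finset κ) ⊆ {a, b} := by
      intro c _
      by_cases hca : c = a
      · simp [hca]
      · simp [hcon c hca]
    have h1 := Finset.card_le_card hsub
    have h2 : ({a, b} : Finset κ).card ≤ 2 := Finset.card_le_two
    rw [Finset.card_univ] at h1
    omega
  have hac : a ≠ c := Ne.symm hca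
  have hbc : b ≠ c := Ne.symm hcb
  set σ : Equiv.Perm κ := Equiv.swap a b * Equiv.swap b c with hσ
  have hσa : σ a = b := by
    rw [hσ, Equiv.Perm.mul_apply, Equiv.swap_apply_of_ne_of_ne hab hac, Equiv.swap_apply_left]
  have hσb : σ b = c := by
    rw [hσ, Equiv.Perm.mul_apply, Equiv.swap_apply_left, Equiv.swap_apply_of_ne_of_ne hca hcb]
  have hσc : σ c = a := by
    rw [hσ, Equiv.Perm.mul_apply, Equiv.swap_apply_right, Equiv.swap_apply_right]
  have hσo : ∀ k, k ≠ a → k ≠ b → k ≠ c → σ k = k := by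
    intro k h1 h2 h3
    rw [hσ, Equiv.Perm.mul_apply, Equiv.swap_apply_of_ne_of_ne h2 h3,
      Equiv.swap_apply_of_ne_of_ne h1 h2]
  have hia : σ⁻¹ a = c := by rw [Equiv.Perm.inv_eq_iff_eq, hσc]
  have hib : σ⁻¹ b = a := by rw [Equiv.Perm.inv_eq_iff_eq, hσa]
  have hic : σ⁻¹ c = b := by rw [Equiv.Perm.inv_eq_iff_eq, hσb]
  have hio : ∀ k, k ≠ a → k ≠ b → k ≠ c → σ⁻¹ k = k := by
    intro k h1 h2 h3
    rw [Equiv.Perm.inv_eq_iff_eq, hσo k h1 h2 h3]
  set P : GL κ F := monoG σ (fun _ => (1 : Fˣ)) with hP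
  have hPX : P ∈ X := by
    apply hX _ _ (isMono_monoG _ _)
    rw [det_monoG, hσ, Equiv.Perm.sign_mul, Equiv.Perm.sign_swap hab,
      Equiv.Perm.sign_swap hbc]
    simp
  set g' : GL κ F := P * g * P⁻¹ with hg'
  have hg'X : g' ∈ X := X.mul_mem (X.mul_mem hPX hg) (X.inv_mem hPX)
  have hg'e : ∀ r s, (g' : Matrix κ κ F) r s = (g : Matrix κ κ F) (σ⁻¹ r) (σ⁻¹ s) :=
    fun r s => stepA2_conj σ g r s
  -- column `a` of `g'`
  have hg'a : ∀ k, (g' : Matrix κ κ F) k a = if k = a then 1 else 0 := by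
    intro k
    rw [hg'e, hia, hge _ _ (Or.inr ⟨hca, hcb⟩)]
    by_cases hk : k = a
    · rw [hk, hia, if_pos rfl, if_pos rfl]
    · have : σ⁻¹ k ≠ c := by
        intro h
        apply hk
        rw [Equiv.Perm.inv_eq_iff_eq, hσc] at h
        exact h
      rw [if_neg this, if_neg hk]
  -- column `c` of `g'`
  have hg'c : ∀ k, k ≠ b → k ≠ c → (g' : Matrix κ κ F) k c = 0 := by
    intro k hkb hkc
    rw [hg'e, hic]
    have h1 : σ⁻¹ k ≠ a := by
      intro h
      apply hkb
      rw [Equiv.Perm.inv_eq_iff_eq, hσa] at h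
      exact h
    have h2 : σ⁻¹ k ≠ b := by
      intro h
      apply hkc
      rw [Equiv.Perm.inv_eq_iff_eq, hσb] at h
      exact h
    rw [hge _ _ (Or.inl ⟨h1, h2⟩), if_neg h2]
  have hg'bc : (g' : Matrix κ κ F) b c = (g : Matrix κ κ F) a b := by rw [hg'e, hib, hic]
  have hg'cc : (g' : Matrix κ κ F) c c = (g : Matrix κ κ F) b b := by rw [hg'e, hic]
  set g3 : GL κ F := g * g' with hg3
  have hg3X : g3 ∈ X := X.mul_mem hg hg'X
  have h3a : ∀ r, (g3 : Matrix κ κ F) r a = (g : Matrix κ κ F) r a := by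
    intro r
    rw [hg3, Units.val_mul, Matrix.mul_apply, Finset.sum_eq_single a]
    · rw [hg'a, if_pos rfl, mul_one]
    · intro k _ hk
      rw [hg'a, if_neg hk, mul_zero]
    · intro h
      exact absurd (Finset.mem_univ _) h
  have h3c : ∀ r, (g3 : Matrix κ κ F) r c =
      (g : Matrix κ κ F) r b * (g : Matrix κ κ F) a b +
        (g : Matrix κ κ F) r c * (g : Matrix κ κ F) b b := by
    intro r
    rw [hg3, Units.val_mul, Matrix.mul_apply, Fintype.sum_eq_add b c hbc, hg'bc, hg'cc]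
    intro k hk
    rw [hg'c k hk.1 hk.2, mul_zero]
  -- the set `J'`
  set J' : Finset κ := ({a, b, c} : Finset κ)ᶜ with hJ'
  have hmem : ∀ k, k ∉ J' ↔ (k = a ∨ k = b ∨ k = c) := by
    intro k
    rw [hJ', Finset.mem_compl, not_not]
    simp
  have hcard3 : ({a, b, c} : Finset κ).card = 3 := by
    rw [Finset.card_eq_three]
    exact ⟨a, b, c, hab, hac, hbc, rfl⟩
  have hJ'card : J'.card = Fintype.card κ - 3 := by
    rw [hJ', Finset.card_compl, hcard3]
  have hJ'ne : J'.Nonempty := by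
    rw [← Finset.card_pos, hJ'card]
    omega
  have hS3 : 3 ≤ Fintype.card {i // i ∉ J'} := by
    rw [stepA2_card_compl, hJ'card]
    omega
  have hsg : StabJ J' (g : Matrix κ κ F) := by
    intro r s hr hs
    have hs' : ¬ (s = a ∨ s = b ∨ s = c) := fun h => ((hmem s).mpr h) hs
    push Not at hs'
    have hrs : r ≠ s := fun h => hr (h ▸ hs)
    rw [hge r s (Or.inr ⟨hs'.1, hs'.2.1⟩), if_neg hrs]
  have hsg' : StabJ J' (g' : Matrix κ κ F) := by
    intro r s hr hs
    have hs' : ¬ (s = a ∨ s = b ∨ s = c) := fun h => ((hmem s).mpr h) hs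
    push Not at hs'
    have hrs : r ≠ s := fun h => hr (h ▸ hs)
    rw [hg'e, hio s hs'.1 hs'.2.1 hs'.2.2, hge _ s (Or.inr ⟨hs'.1, hs'.2.1⟩)]
    have : σ⁻¹ r ≠ s := by
      intro h
      apply hrs
      rw [Equiv.Perm.inv_eq_iff_eq, hσo s hs'.1 hs'.2.1 hs'.2.2] at h
      exact h
    rw [if_neg this]
  have hsg3 : StabJ J' (g3 : Matrix κ κ F) := by
    rw [hg3, Units.val_mul]
    exact hsg.mul hsg'
  have haJ : a ∉ J' := (hmem a).mpr (Or.inl rfl)
  have hbJ : b ∉ J' := (hmem b).mpr (Or.inr (Or.inl rfl))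
  have hcJ : c ∉ J' := (hmem c).mpr (Or.inr (Or.inr rfl))
  have hnm3 : ¬ IsMono (blk J' (g3 : Matrix κ κ F)) := by
    intro hm
    rcases hcase with ⟨h1, h2⟩ | ⟨h1, h2⟩
    · obtain ⟨i, hi⟩ := hm ⟨a, haJ⟩
      have e1 := hi ⟨a, haJ⟩ (by
        simp only [blk, Matrix.submatrix_apply]
        rw [h3a]
        exact h1)
      have e2 := hi ⟨b, hbJ⟩ (by
        simp only [blk, Matrix.submatrix_apply]
        rw [h3a]
        exact h2)
      rw [← e2] at e1
      exact hab (Subtype.mk.inj e1)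
    · obtain ⟨i, hi⟩ := hm ⟨c, hcJ⟩
      have hgac : (g : Matrix κ κ F) a c = 0 := by
        rw [hge a c (Or.inr ⟨hca, hcb⟩), if_neg hac]
      have hgbc : (g : Matrix κ κ F) b c = 0 := by
        rw [hge b c (Or.inr ⟨hca, hcb⟩), if_neg hbc]
      have e1 := hi ⟨a, haJ⟩ (by
        simp only [blk, Matrix.submatrix_apply]
        rw [h3c, hgac, zero_mul, add_zero]
        exact mul_ne_zero h1 h1)
      have e2 := hi ⟨b, hbJ⟩ (by
        simp only [blk, Matrix.submatrix_apply]
        rw [h3c, hgbc, zero_mul, add_zero]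
        exact mul_ne_zero h2 h1)
      rw [← e2] at e1
      exact hab (Subtype.mk.inj e1)
  obtain ⟨z, hz, hzs, hroot⟩ := hQG J' hJ'ne hS3 g3 hg3X hsg3 hnm3
  exact hLL J' hJ'ne hS3 z hz hzs hroot

/-- STEPA2 -/
theorem stepA' [Fintype F] (hq : 5 ≤ Fintype.card F) (hn : 6 ≤ Fintype.card κ)
    {X : Subgroup (GL κ F)} (hX : MonIn X) (_hdet : ∀ g ∈ X, (g : Matrix κ κ F).det = 1)
    (hA1 : A1P X) (hLL : LLP X) (hQG : QGP X) (x : GL κ F) (hx : x ∈ X)
    (hnm : ¬ IsMono (x : Matrix κ κ F)) (a b i i' : κ) (hab : a ≠ b) (hii : i ≠ i')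
    (hcols : ∀ r, r ≠ i → r ≠ i' →
      (x : Matrix κ κ F) r a = 0 ∧ (x : Matrix κ κ F) r b = 0) : RootIn X := by
  classical
  set π : Equiv.Perm κ := Equiv.swap b (Equiv.swap i a i') * Equiv.swap i a with hπ
  have hne1 : Equiv.swap i a i' ≠ a := by
    intro h
    have h2 : Equiv.swap i a i' = Equiv.swap i a i := by rw [h, Equiv.swap_apply_left]
    exact hii ((Equiv.swap i a).injective h2).symm
  have hπi : π i = a := by
    rw [hπ, Equiv.Perm.mul_apply, Equiv.swap_apply_left,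
      Equiv.swap_apply_of_ne_of_ne hab (Ne.symm hne1)]
  have hπi' : π i' = b := by
    rw [hπ, Equiv.Perm.mul_apply, Equiv.swap_apply_right]
  set w0 : GL κ F := monoG π (fun _ => (1 : Fˣ)) with hw0
  set w : GL κ F := normDet w0 a with hw
  have hwm : IsMono (w : Matrix κ κ F) := isMono_normDet (isMono_monoG _ _) a
  have hwX : w ∈ X := normDet_mem hX (isMono_monoG _ _) a
  have hwi : ∀ r, r ≠ a → (w : Matrix κ κ F) r i = 0 := by
    intro r hr
    rw [hw, normDet_eq_zero_iff, hw0, monoG_apply, hπi, if_neg hr]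
  have hwi' : ∀ r, r ≠ b → (w : Matrix κ κ F) r i' = 0 := by
    intro r hr
    rw [hw, normDet_eq_zero_iff, hw0, monoG_apply, hπi', if_neg hr]
  set x1 : GL κ F := w * x with hx1
  have hx1X : x1 ∈ X := X.mul_mem hwX hx
  set J : Finset κ := {a, b} with hJ
  have haJ : a ∈ J := by rw [hJ]; simp
  have hJcard : J.card = 2 := by
    rw [hJ, Finset.card_pair hab]
  have hS3 : 3 ≤ Fintype.card {i // i ∉ J} := by
    rw [stepA2_card_compl, hJcard]
    omega
  have hs1 : StabJ J (x1 : Matrix κ κ F) := by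
    intro r c hr hc
    have hra : r ≠ a := fun h => hr (by rw [h, hJ]; simp)
    have hrb : r ≠ b := fun h => hr (by rw [h, hJ]; simp)
    rw [hx1, Units.val_mul, Matrix.mul_apply]
    apply Finset.sum_eq_zero
    intro k _
    by_cases hki : k = i
    · rw [hki, hwi r hra, zero_mul]
    · by_cases hki' : k = i'
      · rw [hki', hwi' r hrb, zero_mul]
      · have h := hcols k hki hki'
        rw [hJ, Finset.mem_insert, Finset.mem_singleton] at hc
        rcases hc with hc | hc
        · rw [hc, h.1, mul_zero]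
        · rw [hc, h.2, mul_zero]
  have hnm1 : ¬ IsMono (x1 : Matrix κ κ F) := by
    intro h
    apply hnm
    have h1 : x = w⁻¹ * x1 := by rw [hx1]; group
    rw [h1, Units.val_mul]
    exact (isMono_inv w hwm).mul h
  by_cases hC : IsMono (blk J (x1 : Matrix κ κ F))
  · obtain ⟨g, hgX, hgs, hgb, hgm⟩ := stepA2_J hX x1 hx1X J hs1 hC a haJ
    have hgnm : ¬ IsMono (g : Matrix κ κ F) := fun h => hnm1 (hgm h)
    by_cases hB : ∃ i0 ∈ J, ∃ j, j ∉ J ∧ (g : Matrix κ κ F) i0 j ≠ 0
    · obtain ⟨i0, hi0, j, hj, hne⟩ := hB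
      obtain ⟨s, hs⟩ := stepA2_unit hq
      exact stepA2_B hX hA1 J hS3 g hgX hgs hgb i0 j hi0 hj hne s hs
    · push Not at hB
      apply stepA2_C hn hX hLL hQG a b hab g hgX _ hgnm
      intro r c hrc
      by_cases hr : r ∈ J
      · have hc : c ∉ J := by
          rcases hrc with h | h
          · exfalso
            rw [hJ, Finset.mem_insert, Finset.mem_singleton] at hr
            rcases hr with hr | hr
            · exact h.1 hr
            · exact h.2 hr
          · rw [hJ, Finset.mem_insert, Finset.mem_singleton]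
            push Not
            exact h
        rw [hB r hr c hc, if_neg (fun h : r = c => hc (h ▸ hr))]
      · exact stepA2_entries g hgs hgb r hr c
  · obtain ⟨z, hz, hzs, hroot⟩ := hQG J ⟨a, haJ⟩ hS3 x1 hx1X hs1 hC
    exact hLL J ⟨a, haJ⟩ hS3 z hz hzs hroot

end

end Cfsg.Agent.Lib.Helper1.Mono6
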