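import Mathlib
import Cfsg.Agent.Lib.Helper65.MonoDefs
import Cfsg.Agent.Lib.Helper52.MonoCASEZ
import Cfsg.Agent.Lib.Helper13.MonoP4
import Cfsg.Agent.Lib.Helper1.Mono6Core

/-!
Monomial subgroup of `SL_6(q)`, `q ≥ 5` (helper1): CASEZ in dimension exactly six, without the
proportionality statement `P4starP` (which the landed proof only has for dimension `≥ 7`).
-/

set_option autoImplicit false
set_option linter.unusedSectionVars false
set_option linter.unusedVariables false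

namespace Cfsg.Agent.Lib.Helper1.Mono6

open Matrix Cfsg.Agent.Lib.Helper65.Mono

section
variable {F : Type*} [Field F] {κ : Type} [Fintype κ] [DecidableEq κ]

/-- (Z-a) for combinations of three columns -/
theorem z6_comb3 (hn : 6 ≤ Fintype.card κ) {X : Subgroup (GL κ F)} (hX : MonIn X)
    (h3 : P3col X)
    (hT : TransP κ F) (x₀ : GL κ F) (hx₀ : x₀ ∈ X) (hnm : ¬ IsMono (x₀ : Matrix κ κ F))
    (i₀ k₀ : κ) (h0 : (x₀ : Matrix κ κ F) i₀ k₀ = 0)
    (k l m : κ) (hkl : k ≠ l) (hkm : k ≠ m) (hlm : l ≠ m) (α β γ : F) (hα : α ≠ 0) (hβ : β ≠ 0)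
    (p : κ) (hp : (x₀ : Matrix κ κ F) p k * α + (x₀ : Matrix κ κ F) p l * β +
      (x₀ : Matrix κ κ F) p m * γ = 0) :
    ∃ i, i ≠ p ∧ (x₀ : Matrix κ κ F) i k * α + (x₀ : Matrix κ κ F) i l * β +
      (x₀ : Matrix κ κ F) i m * γ = 0 := by
  obtain ⟨a, b, hab, ha, hb⟩ := z6_two_out hn {k, l, m}
    (Finset.card_le_three.trans (by norm_num))
  simp only [Finset.mem_insert, Finset.mem_singleton, not_or] at ha hb
  have hval : ∀ i, ((x₀ : Matrix κ κ F) *ᵥ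
      (Pi.single k α + Pi.single l β + Pi.single m γ)) i =
      (x₀ : Matrix κ κ F) i k * α + (x₀ : Matrix κ κ F) i l * β +
        (x₀ : Matrix κ κ F) i m * γ := by
    intro i
    rw [Matrix.mulVec_add, Matrix.mulVec_add, Pi.add_apply, Pi.add_apply, caseZ_single,
      caseZ_single, caseZ_single]
  obtain ⟨i, hip, hi⟩ := caseZ_key hX h3 hT x₀ hx₀ hnm i₀ k₀ h0
    (Pi.single k α + Pi.single l β + Pi.single m γ) k l a b hkl
    (by simp [Pi.single_apply, hkl, hkm, hα])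
    (by simp [Pi.single_apply, hkl.symm, hlm, hβ]) hab
    (by simp [Pi.single_apply, ha.1, ha.2.1, ha.2.2])
    (by simp [Pi.single_apply, hb.1, hb.2.1, hb.2.2]) p
    (by rw [hval]; exact hp)
  rw [hval] at hi
  exact ⟨i, hip, hi⟩

/-- every value of the ratio of two columns is attained twice -/
theorem z6_twice (hn : 6 ≤ Fintype.card κ)
    {X : Subgroup (GL κ F)} (hX : MonIn X) (h3 : P3col X) (h3r : P3row X)
    (hT : TransP κ F) (x₀ : GL κ F) (hx₀ : x₀ ∈ X) (hnm : ¬ IsMono (x₀ : Matrix κ κ F))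
    (i₀ k₀ : κ) (h0 : (x₀ : Matrix κ κ F) i₀ k₀ = 0)
    (k l : κ) (hkl : k ≠ l) (i : κ) (hik : (x₀ : Matrix κ κ F) i k ≠ 0)
    (hil : (x₀ : Matrix κ κ F) i l ≠ 0) :
    ∃ j, j ≠ i ∧ (x₀ : Matrix κ κ F) i l * (x₀ : Matrix κ κ F) j k =
        (x₀ : Matrix κ κ F) i k * (x₀ : Matrix κ κ F) j l := by
  obtain ⟨m, -, -, hm, -⟩ := z6_two_out hn {k, l} (Finset.card_le_two.trans (by norm_num))
  simp only [Finset.mem_insert, Finset.mem_singleton, not_or] at hm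
  obtain ⟨j, hji, hj⟩ := z6_comb3 hn hX h3 hT x₀ hx₀ hnm i₀ k₀ h0 k l m hkl (Ne.symm hm.1)
    (Ne.symm hm.2) ((x₀ : Matrix κ κ F) i l) (-((x₀ : Matrix κ κ F) i k)) 0 hil
    (neg_ne_zero.mpr hik) i (by ring)
  exact ⟨j, hji, by linear_combination hj⟩

/-- Core of "two columns without zeros are proportional". -/
theorem z6_prop_core (hn : 6 ≤ Fintype.card κ) (x ψ : Matrix κ κ F) (a b : κ)
    (ha : ∀ i, x i a ≠ 0) (hb : ∀ i, x i b ≠ 0)
    (hψa : ∀ k k', k ≠ k' → ψ a k = 0 → ψ a k' = 0 → False)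
    (hψb : ∀ k k', k ≠ k' → ψ b k = 0 → ψ b k' = 0 → False)
    (A1 : ∀ j j', j ≠ j' → x j b * x j' a = x j a * x j' b → ∀ k, k ≠ j → k ≠ j' →
      ψ a k ≠ 0 → ψ b k ≠ 0 → ψ a k * x j a = x j b * ψ b k)
    (A2 : ∀ c d : F, c ≠ 0 → d ≠ 0 → ∀ k k', k ≠ k' → ψ b k ≠ 0 → ψ b k' ≠ 0 →
      ψ a k * c = d * ψ b k → ψ a k' * c = d * ψ b k' → ∀ i, i ≠ k → i ≠ k' →
      x i b * c = x i a * d)
    (i0 i1 : κ) (hi : i0 ≠ i1) (heq : x i0 b * x i1 a = x i0 a * x i1 b) :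
    ∀ i, x i b * x i0 a = x i a * x i0 b := by
  classical
  have hZa : (Finset.univ.filter (fun k => ψ a k = 0)).card ≤ 1 := by
    rw [Finset.card_le_one]
    intro k hk k' hk'
    by_contra hne
    exact hψa k k' hne (Finset.mem_filter.mp hk).2 (Finset.mem_filter.mp hk').2
  have hZb : (Finset.univ.filter (fun k => ψ b k = 0)).card ≤ 1 := by
    rw [Finset.card_le_one]
    intro k hk k' hk'
    by_contra hne
    exact hψb k k' hne (Finset.mem_filter.mp hk).2 (Finset.mem_filter.mp hk').2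
  have hout : ∀ T : Finset κ, T.card ≤ 2 → ∃ k k', k ≠ k' ∧ k ∉ T ∧ k' ∉ T ∧ ψ a k ≠ 0 ∧
      ψ b k ≠ 0 ∧ ψ a k' ≠ 0 ∧ ψ b k' ≠ 0 := by
    intro T hT
    obtain ⟨k, k', hkk, hk, hk'⟩ := z6_two_out hn
      (T ∪ Finset.univ.filter (fun k => ψ a k = 0) ∪ Finset.univ.filter (fun k => ψ b k = 0))
      (by
        refine le_trans (Finset.card_union_le _ _) ?_
        have := Finset.card_union_le T (Finset.univ.filter (fun k => ψ a k = 0))
        omega)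
    simp only [Finset.mem_union, Finset.mem_filter, Finset.mem_univ, true_and, not_or]
      at hk hk'
    exact ⟨k, k', hkk, hk.1.1, hk'.1.1, hk.1.2, hk.2, hk'.1.2, hk'.2⟩
  obtain ⟨k1, k2, hk12, hk1T, hk2T, h1a, h1b, h2a, h2b⟩ := hout {i0, i1} Finset.card_le_two
  simp only [Finset.mem_insert, Finset.mem_singleton, not_or] at hk1T hk2T
  have e1 := A1 i0 i1 hi heq k1 hk1T.1 hk1T.2 h1a h1b
  have e2 := A1 i0 i1 hi heq k2 hk2T.1 hk2T.2 h2a h2b
  have hrow : ∀ i, i ≠ k1 → i ≠ k2 → x i b * x i0 a = x i a * x i0 b :=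
    A2 (x i0 a) (x i0 b) (ha i0) (hb i0) k1 k2 hk12 h1b h2b e1 e2
  obtain ⟨k3, -, -, hk3T, -, h3a, h3b, -, -⟩ := hout {k1, k2} Finset.card_le_two
  simp only [Finset.mem_insert, Finset.mem_singleton, not_or] at hk3T
  obtain ⟨j, j', hjj, hj, hj'⟩ := z6_two_out hn {k1, k2, k3}
    (Finset.card_le_three.trans (by norm_num))
  simp only [Finset.mem_insert, Finset.mem_singleton, not_or] at hj hj'
  have rj := hrow j hj.1 hj.2.1
  have rj' := hrow j' hj'.1 hj'.2.1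
  have hrat : x j b * x j' a = x j a * x j' b := by
    have h : (x j b * x j' a - x j a * x j' b) * x i0 a = 0 := by
      linear_combination (x j' a) * rj - (x j a) * rj'
    rcases mul_eq_zero.mp h with h' | h'
    · exact sub_eq_zero.mp h'
    · exact absurd h' (ha i0)
  have e3' := A1 j j' hjj hrat k3 (Ne.symm hj.2.2) (Ne.symm hj'.2.2) h3a h3b
  have e3 : ψ a k3 * x i0 a = x i0 b * ψ b k3 := by
    have h : (ψ a k3 * x i0 a - x i0 b * ψ b k3) * x j a = 0 := by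
      linear_combination (x i0 a) * e3' + (ψ b k3) * rj
    rcases mul_eq_zero.mp h with h' | h'
    · exact sub_eq_zero.mp h'
    · exact absurd h' (ha j)
  have r1 := A2 (x i0 a) (x i0 b) (ha i0) (hb i0) k2 k3 (Ne.symm hk3T.2) h2b h3b e2 e3 k1 hk12
    (Ne.symm hk3T.1)
  have r2 := A2 (x i0 a) (x i0 b) (ha i0) (hb i0) k1 k3 (Ne.symm hk3T.1) h1b h3b e1 e3 k2
    hk12.symm (Ne.symm hk3T.2)
  intro i
  by_cases h1 : i = k1
  · rw [h1]
    exact r1
  · by_cases h2 : i = k2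
    · rw [h2]
      exact r2
    · exact hrow i h1 h2

/-- at most one column has no zero -/
theorem z6_nozero (hn : 6 ≤ Fintype.card κ)
    {X : Subgroup (GL κ F)} (hX : MonIn X) (h3 : P3col X) (h3r : P3row X) (hrk : RKP X)
    (hT : TransP κ F) (x₀ : GL κ F) (hx₀ : x₀ ∈ X) (hnm : ¬ IsMono (x₀ : Matrix κ κ F))
    (i₀ k₀ : κ) (h0 : (x₀ : Matrix κ κ F) i₀ k₀ = 0)
    (k l : κ) (hkl : k ≠ l) (hk : ∀ i, (x₀ : Matrix κ κ F) i k ≠ 0)
    (hl : ∀ i, (x₀ : Matrix κ κ F) i l ≠ 0) : False := by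
  have hψ : x₀⁻¹ ∈ X := X.inv_mem hx₀
  have hψnm : ¬ IsMono ((x₀⁻¹ : GL κ F) : Matrix κ κ F) := by
    rw [isMono_inv_iff]
    exact hnm
  obtain ⟨i1, hi1, heq⟩ := z6_twice hn hX h3 h3r hT x₀ hx₀ hnm i₀ k₀ h0 k l hkl k (hk k) (hl k)
  have hall := z6_prop_core hn (x₀ : Matrix κ κ F) ((x₀⁻¹ : GL κ F) : Matrix κ κ F) k l hk hl
    (fun c c' hne h1 h2 => h3r _ hψ hψnm k c c' hne h1 h2)
    (fun c c' hne h1 h2 => h3r _ hψ hψnm l c c' hne h1 h2)
    (fun j j' hjj hrat c hcj hcj' hak hbk => p4star_aux1 hX h3 hrk x₀ hx₀ hnm k l j j' hkl hjj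
      (hk j) (hl j) (hk j') (hl j') hrat c hcj hcj' hak hbk)
    (fun c d hc hd c1 c2 hcc hb1 hb2 e e' i hi hi' => p4star_aux2 hX h3r hrk x₀ hx₀ hnm k l hkl
      c d hc hd c1 c2 hcc hb1 hb2 e e' i hi hi' (hk i) (hl i))
    k i1 hi1.symm heq
  have hp : ∀ j, (x₀ : Matrix κ κ F) j l =
      (x₀ : Matrix κ κ F) k l / (x₀ : Matrix κ κ F) k k * (x₀ : Matrix κ κ F) j k := by
    intro j
    have := hall j
    have hkk := hk k
    field_simp
    linear_combination this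
  have e1 := gl_inv_mul_apply x₀ l l
  have e2 := gl_inv_mul_apply x₀ l k
  rw [if_pos rfl] at e1
  rw [if_neg hkl.symm] at e2
  have e3 : ∑ j, ((x₀⁻¹ : GL κ F) : Matrix κ κ F) l j * (x₀ : Matrix κ κ F) j l =
      (x₀ : Matrix κ κ F) k l / (x₀ : Matrix κ κ F) k k *
        ∑ j, ((x₀⁻¹ : GL κ F) : Matrix κ κ F) l j * (x₀ : Matrix κ κ F) j k := by
    rw [Finset.mul_sum]
    apply Finset.sum_congr rfl
    intro j _
    rw [hp j]
    ring
  rw [e1, e2, mul_zero] at e3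
  exact one_ne_zero e3

/-- CASEZ in dimension six -/
theorem caseZ6 [Fintype F] (hq : 5 ≤ Fintype.card F) (hn : Fintype.card κ = 6)
    {X : Subgroup (GL κ F)} (hX : MonIn X) (h3 : P3col X) (h3r : P3row X) (hrk : RKP X)
    (hT : TransP κ F) (x₀ : GL κ F) (hx₀ : x₀ ∈ X) (hnm : ¬ IsMono (x₀ : Matrix κ κ F))
    (i₀ k₀ : κ) (h0 : (x₀ : Matrix κ κ F) i₀ k₀ = 0) : False := by
  classical
  have hn6 : 6 ≤ Fintype.card κ := hn.ge
  have hcol := h3 x₀ hx₀ hnm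
  have hrow := h3r x₀ hx₀ hnm
  have hZ : 2 < (Finset.univ.filter (fun k => ∃ i, (x₀ : Matrix κ κ F) i k = 0)).card := by
    have h1 : (Finset.univ.filter (fun k => ∃ i, (x₀ : Matrix κ κ F) i k = 0))ᶜ.card ≤ 1 := by
      rw [Finset.card_le_one]
      intro a ha b hb
      by_contra hne
      simp only [Finset.mem_compl, Finset.mem_filter, Finset.mem_univ, true_and, not_exists]
        at ha hb
      exact z6_nozero hn6 hX h3 h3r hrk hT x₀ hx₀ hnm i₀ k₀ h0 a b hne ha hb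
    have := Finset.card_add_card_compl
      (Finset.univ.filter (fun k => ∃ i, (x₀ : Matrix κ κ F) i k = 0))
    omega
  obtain ⟨k, l, m, hk, hl, hm, hkl, hkm, hlm⟩ := Finset.two_lt_card_iff.mp hZ
  simp only [Finset.mem_filter, Finset.mem_univ, true_and] at hk hl hm
  obtain ⟨zk, hzk⟩ := hk
  obtain ⟨zl, hzl⟩ := hl
  obtain ⟨zm, hzm⟩ := hm
  have hzkl : zk ≠ zl := by
    intro h
    rw [← h] at hzl
    exact hrow zk k l hkl hzk hzl
  have hzkm : zk ≠ zm := by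
    intro h
    rw [← h] at hzm
    exact hrow zk k m hkm hzk hzm
  have hzlm : zl ≠ zm := by
    intro h
    rw [← h] at hzm
    exact hrow zl l m hlm hzl hzm
  have hck : ∀ i, i ≠ zk → (x₀ : Matrix κ κ F) i k ≠ 0 := fun i hi h => hcol k i zk hi h hzk
  have hcl : ∀ i, i ≠ zl → (x₀ : Matrix κ κ F) i l ≠ 0 := fun i hi h => hcol l i zl hi h hzl
  have hcm : ∀ i, i ≠ zm → (x₀ : Matrix κ κ F) i m ≠ 0 := fun i hi h => hcol m i zm hi h hzm
  exact z6_trio_core hq hn (x₀ : Matrix κ κ F) (fun r a b hab h1 h2 => hrow r a b hab h1 h2)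
    (fun k l m hkl hkm hlm α β γ hα hβ p hp =>
      z6_comb3 hn6 hX h3 hT x₀ hx₀ hnm i₀ k₀ h0 k l m hkl hkm hlm α β γ hα hβ p hp)
    k l m zk zl zm hkl hkm hlm hzkl hzkm hzlm hzm hck hcl hcm

end

end Cfsg.Agent.Lib.Helper1.Mono6
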