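import Mathlib
import Cfsg.Agent.Lib.Helper65.MonoMain
import Cfsg.Agent.Lib.Helper1.Mono6STEPA
import Cfsg.Agent.Lib.Helper1.Mono6STEPA2
import Cfsg.Agent.Lib.Helper1.Mono6RK
import Cfsg.Agent.Lib.Helper1.Mono6CASED
import Cfsg.Agent.Lib.Helper1.Mono6Z

/-!
The monomial group is maximal in `SL_6(q)`, `q ≥ 5` (helper1): helper65's assembly `mono_max`
(dimension `≥ 7`) redone in dimension six.  The pieces STEPA, STEPA', RK, CASED are the landed
proofs recompiled with `6 ≤ n`; CASEZ is replaced by `caseZ6` (no `P4starP`).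
-/

set_option autoImplicit false

namespace Cfsg.Agent.Lib.Helper1.Mono6

open Matrix Cfsg.Agent.Lib.Helper65.Mono

section
variable {F : Type*} [Field F] {κ : Type} [Fintype κ] [DecidableEq κ]

theorem mono_max6 [Fintype F] (hq : 5 ≤ Fintype.card F) (hn6 : Fintype.card κ = 6) :
    MonoMaxP κ F := by
  have hn : 6 ≤ Fintype.card κ := hn6.ge
  intro X hX hSL hne
  by_contra hcon
  have hdet : ∀ g ∈ X, (g : Matrix κ κ F).det = 1 := fun g hg =>
    (Cfsg.Agent.Lib.Helper97.mem_specialLinear_iff g).mp (hSL hg)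
  have hG : GProp F := gprop hq
  have hR : ¬ RootIn X := fun h => hcon (root_sl (by omega) hX h)
  have hA1 := a1 hq hX
  have hLL := ll hq hX hA1
  have hQG := qg hX hG
  have h1 : P1 X := fun x hx k k' hcol => by
    by_contra hm
    exact hR (stepA hq hn hX hdet hA1 hLL hQG x hx hm k k' hcol)
  have h1' : P1' X := fun x hx a b i i' hab hii hcols => by
    by_contra hm
    exact hR (stepA' hq hn hX hdet hA1 hLL hQG x hx hm a b i i' hab hii hcols)
  have hX' := monIn_tinv hX
  have hdet' := det_tinv hdet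
  have hR' : ¬ RootIn (tinv X) := fun h => hR (rootIn_of_tinv h)
  have hA1' := a1 hq hX'
  have hLL' := ll hq hX' hA1'
  have hQG' := qg hX' hG
  have h1t : P1 (tinv X) := fun x hx k k' hcol => by
    by_contra hm
    exact hR' (stepA hq hn hX' hdet' hA1' hLL' hQG' x hx hm k k' hcol)
  have h1t' : P1' (tinv X) := fun x hx a b i i' hab hii hcols => by
    by_contra hm
    exact hR' (stepA' hq hn hX' hdet' hA1' hLL' hQG' x hx hm a b i i' hab hii hcols)
  have h3 := p3col hq (by omega) hX h1 h1'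
  have h3r := p3row_of_tinv (p3col hq (by omega) hX' h1t h1t')
  have hrk := rk hn h3
  obtain ⟨x₀, hx₀, hnm⟩ := hne
  by_cases hD : ∀ x ∈ X, ¬ IsMono (x : Matrix κ κ F) → ∀ i j, (x : Matrix κ κ F) i j ≠ 0
  · exact hnm (caseD hn hX hrk hD x₀ hx₀)
  · push Not at hD
    obtain ⟨x, hx, hxm, i, j, h0⟩ := hD
    exact caseZ6 hq hn6 hX h3 h3r hrk trans_one_zero x hx hxm i j h0

/-- The monomial group of determinant one is maximal in `SL_6(q)` for `q ≥ 5` (standard
frame). -/
theorem mono_max_fin6 {F : Type*} [Field F] [Fintype F] (hq : 5 ≤ Fintype.card F) :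
    MonoMaxP (Fin 6) F :=
  mono_max6 hq (by rw [Fintype.card_fin])

end

end Cfsg.Agent.Lib.Helper1.Mono6
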