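import Mathlib
import Cfsg.Prelude.Def_GeometricClasses
import Cfsg.Prelude.Def_LieClassical

/-!
# Project O9 (helper44, S5835), piece NF3

Two invertible symmetric `3 × 3` matrices over a finite field of odd characteristic are similar:
`Aᵀ G₂ A = c • G₁` for some `A ∈ GL_3`, `c ≠ 0`.  Route: every such `G` is congruent to
`diag(1, 1, d)` (orthogonal basis, then twice "a non-degenerate binary form represents 1"), and
`c • diag(1, 1, d₁)` is congruent to `diag(1, 1, c d₁)` by a rotation-type matrix.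
-/

set_option autoImplicit false

namespace Cfsg.Agent.Lib.Helper44.O9

open Matrix Polynomial

variable {n : ℕ} {F : Type*} [Field F] [Fintype F]

theorem NF3_bin (h2 : (2 : F) ≠ 0) (a b : F) (ha : a ≠ 0) (hb : b ≠ 0) :
    ∃ x y : F, a * x ^ 2 + b * y ^ 2 = 1 := by
  have hchar : ringChar F ≠ 2 := by
    intro h
    apply h2
    have h3 := ringChar.Nat.cast_ringChar (R := F)
    rw [h] at h3
    exact_mod_cast h3
  have hR : Fintype.card F % 2 = 1 := FiniteField.odd_card_of_char_ne_two hchar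
  have hf : degree (C a * X ^ 2 : F[X]) = 2 := by
    rw [degree_C_mul_X_pow 2 ha]; rfl
  have hg : degree (C b * X ^ 2 - C 1 : F[X]) = 2 := by
    rw [degree_sub_C]
    · rw [degree_C_mul_X_pow 2 hb]; rfl
    · rw [degree_C_mul_X_pow 2 hb]; decide
  obtain ⟨x, y, hxy⟩ := FiniteField.exists_root_sum_quadratic hf hg hR
  refine ⟨x, y, ?_⟩
  simp only [eval_mul, eval_C, eval_pow, eval_X, eval_sub] at hxy
  linear_combination hxy

omit [Fintype F] in
theorem NF3_step12 (a0 a1 a2 x y : F) (h : a0 * x ^ 2 + a1 * y ^ 2 = 1) :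
    (!![x, -a1 * y, 0; y, a0 * x, 0; 0, 0, 1] : Matrix (Fin 3) (Fin 3) F)ᵀ *
      Matrix.diagonal ![a0, a1, a2] * !![x, -a1 * y, 0; y, a0 * x, 0; 0, 0, 1] =
      Matrix.diagonal ![1, a0 * a1, a2] := by
  ext i j
  fin_cases i <;> fin_cases j <;>
    simp [Matrix.mul_apply, Fin.sum_univ_three, Matrix.diagonal_apply] <;>
    first
      | ring1
      | linear_combination h
      | linear_combination (a0 * a1) * h

omit [Fintype F] in
theorem NF3_step23 (b1 b2 x y : F) (h : b1 * x ^ 2 + b2 * y ^ 2 = 1) :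
    (!![1, 0, 0; 0, x, -b2 * y; 0, y, b1 * x] : Matrix (Fin 3) (Fin 3) F)ᵀ *
      Matrix.diagonal ![1, b1, b2] * !![1, 0, 0; 0, x, -b2 * y; 0, y, b1 * x] =
      Matrix.diagonal ![1, 1, b1 * b2] := by
  ext i j
  fin_cases i <;> fin_cases j <;>
    simp [Matrix.mul_apply, Fin.sum_univ_three, Matrix.diagonal_apply] <;>
    first
      | ring1
      | linear_combination h
      | linear_combination (b1 * b2) * h

omit [Fintype F] in
theorem NF3_rot (c d x y : F) (h : c * x ^ 2 + c * y ^ 2 = 1) :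
    (!![x, -y, 0; y, x, 0; 0, 0, 1] : Matrix (Fin 3) (Fin 3) F)ᵀ *
      (c • Matrix.diagonal ![1, 1, d]) * !![x, -y, 0; y, x, 0; 0, 0, 1] =
      Matrix.diagonal ![1, 1, c * d] := by
  ext i j
  fin_cases i <;> fin_cases j <;>
    simp [Matrix.mul_apply, Fin.sum_univ_three, Matrix.diagonal_apply] <;>
    first
      | ring1
      | linear_combination h

omit [Fintype F] in
theorem NF3_det12 (a0 a1 x y : F) (h : a0 * x ^ 2 + a1 * y ^ 2 = 1) :
    (!![x, -a1 * y, 0; y, a0 * x, 0; 0, 0, 1] : Matrix (Fin 3) (Fin 3) F).det = 1 := by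
  rw [Matrix.det_fin_three]
  simp
  linear_combination h

omit [Fintype F] in
theorem NF3_det23 (b1 b2 x y : F) (h : b1 * x ^ 2 + b2 * y ^ 2 = 1) :
    (!![1, 0, 0; 0, x, -b2 * y; 0, y, b1 * x] : Matrix (Fin 3) (Fin 3) F).det = 1 := by
  rw [Matrix.det_fin_three]
  simp
  linear_combination h

omit [Fintype F] in
theorem NF3_detrot (c x y : F) (h : c * x ^ 2 + c * y ^ 2 = 1) :
    (!![x, -y, 0; y, x, 0; 0, 0, 1] : Matrix (Fin 3) (Fin 3) F).det ≠ 0 := by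
  rw [Matrix.det_fin_three]
  simp
  intro h0
  have h1 : c * (x * x + y * y) = 1 := by linear_combination h
  rw [h0, mul_zero] at h1
  exact zero_ne_one h1

omit [Fintype F] in
theorem NF3_diag (h2 : (2 : F) ≠ 0) (G : Matrix (Fin 3) (Fin 3) F) (hs : Gᵀ = G)
    (hd : G.det ≠ 0) :
    ∃ (P : Matrix (Fin 3) (Fin 3) F) (a : Fin 3 → F), P.det ≠ 0 ∧ (∀ i, a i ≠ 0) ∧
      Pᵀ * G * P = Matrix.diagonal a := by
  let _i2 : Invertible (2 : F) := invertibleOfNonzero h2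
  have hB : LinearMap.IsSymm (Matrix.toBilin' G) := by
    rw [LinearMap.isSymm_def]
    intro x y
    rw [Matrix.toBilin'_apply', Matrix.toBilin'_apply', RingHom.id_apply]
    rw [Matrix.dotProduct_mulVec, ← hs, Matrix.vecMul_transpose, hs, dotProduct_comm]
  obtain ⟨v, hv⟩ := LinearMap.BilinForm.exists_orthogonal_basis hB
  have hfin : Module.finrank F (Fin 3 → F) = 3 := by simp
  let v' : Module.Basis (Fin 3) F (Fin 3 → F) := v.reindex (finCongr hfin)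
  let P : Matrix (Fin 3) (Fin 3) F := Matrix.of (fun i j => v' j i)
  have hP : ∀ i j, (Pᵀ * G * P) i j = Matrix.toBilin' G (v' i) (v' j) := by
    intro i j
    rw [Matrix.toBilin'_apply', Matrix.mul_apply]
    simp only [Matrix.mul_apply, Matrix.transpose_apply, dotProduct, Matrix.mulVec, P,
      Matrix.of_apply, Finset.sum_mul, Finset.mul_sum]
    rw [Finset.sum_comm]
    refine Finset.sum_congr rfl (fun k _ => Finset.sum_congr rfl (fun l _ => by ring))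
  have hPu : IsUnit P := by
    rw [← Matrix.linearIndependent_cols_iff_isUnit]
    have h3 : P.col = fun j => v' j := by
      funext j i
      rfl
    rw [h3]
    exact v'.linearIndependent
  have hPd : P.det ≠ 0 := ((Matrix.isUnit_iff_isUnit_det P).1 hPu).ne_zero
  have hdiag : Pᵀ * G * P = Matrix.diagonal (fun i => Matrix.toBilin' G (v' i) (v' i)) := by
    ext i j
    rw [hP]
    by_cases hij : i = j
    · subst hij
      rw [Matrix.diagonal_apply_eq]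
    · rw [Matrix.diagonal_apply_ne _ hij]
      have h4 := LinearMap.isOrthoᵢ_def.1 hv ((finCongr hfin).symm i) ((finCongr hfin).symm j)
        (fun h => hij ((finCongr hfin).symm.injective h))
      simpa [v', Module.Basis.reindex_apply] using h4
  refine ⟨P, fun i => Matrix.toBilin' G (v' i) (v' i), hPd, ?_, hdiag⟩
  have hdet : (Matrix.diagonal (fun i => Matrix.toBilin' G (v' i) (v' i))).det ≠ 0 := by
    rw [← hdiag, Matrix.det_mul, Matrix.det_mul, Matrix.det_transpose]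
    exact mul_ne_zero (mul_ne_zero hPd hd) hPd
  rw [Matrix.det_diagonal] at hdet
  intro i
  exact (Finset.prod_ne_zero_iff.1 hdet) i (Finset.mem_univ i)

theorem NF3_nf (h2 : (2 : F) ≠ 0) (G : Matrix (Fin 3) (Fin 3) F) (hs : Gᵀ = G)
    (hd : G.det ≠ 0) :
    ∃ (A : Matrix (Fin 3) (Fin 3) F) (d : F), A.det ≠ 0 ∧ d ≠ 0 ∧
      Aᵀ * G * A = Matrix.diagonal ![1, 1, d] := by
  obtain ⟨P, a, hPd, ha, hP⟩ := NF3_diag h2 G hs hd
  have ha' : a = ![a 0, a 1, a 2] := by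
    funext i
    fin_cases i <;> rfl
  rw [ha'] at hP
  obtain ⟨x, y, hxy⟩ := NF3_bin h2 (a 0) (a 1) (ha 0) (ha 1)
  obtain ⟨x', y', hxy'⟩ :=
    NF3_bin h2 (a 0 * a 1) (a 2) (mul_ne_zero (ha 0) (ha 1)) (ha 2)
  have hM1 := NF3_step12 (a 0) (a 1) (a 2) x y hxy
  have hM2 := NF3_step23 (a 0 * a 1) (a 2) x' y' hxy'
  have hD1 := NF3_det12 (a 0) (a 1) x y hxy
  have hD2 := NF3_det23 (a 0 * a 1) (a 2) x' y' hxy'
  generalize (!![x, -a 1 * y, 0; y, a 0 * x, 0; 0, 0, 1] : Matrix (Fin 3) (Fin 3) F) = M1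
    at hM1 hD1
  generalize (!![1, 0, 0; 0, x', -a 2 * y'; 0, y', a 0 * a 1 * x'] :
    Matrix (Fin 3) (Fin 3) F) = M2 at hM2 hD2
  refine ⟨P * M1 * M2, a 0 * a 1 * a 2, ?_, ?_, ?_⟩
  · rw [Matrix.det_mul, Matrix.det_mul, hD1, hD2, mul_one, mul_one]
    exact hPd
  · exact mul_ne_zero (mul_ne_zero (ha 0) (ha 1)) (ha 2)
  · rw [Matrix.transpose_mul, Matrix.transpose_mul]
    have e1 : M2ᵀ * (M1ᵀ * Pᵀ) * G * (P * M1 * M2) =
        M2ᵀ * (M1ᵀ * (Pᵀ * G * P) * M1) * M2 := by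
      simp only [Matrix.mul_assoc]
    rw [e1, hP, hM1, hM2]

theorem NF3 (h2 : (2 : F) ≠ 0) (G₁ G₂ : Matrix (Fin 3) (Fin 3) F) (hs1 : G₁ᵀ = G₁)
    (hs2 : G₂ᵀ = G₂) (hd1 : G₁.det ≠ 0) (hd2 : G₂.det ≠ 0) :
    ∃ (A : GL (Fin 3) F) (c : F), c ≠ 0 ∧ A.1ᵀ * G₂ * A.1 = c • G₁ := by
  obtain ⟨A1, d1, hA1, hd1', h1⟩ := NF3_nf h2 G₁ hs1 hd1
  obtain ⟨A2, d2, hA2, hd2', h2'⟩ := NF3_nf h2 G₂ hs2 hd2
  have hc : d2 / d1 ≠ 0 := div_ne_zero hd2' hd1'
  obtain ⟨x, y, hxy⟩ := NF3_bin h2 (d2 / d1) (d2 / d1) hc hc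
  have hNd := NF3_detrot (d2 / d1) x y hxy
  have hNr := NF3_rot (d2 / d1) d1 x y hxy
  generalize (!![x, -y, 0; y, x, 0; 0, 0, 1] : Matrix (Fin 3) (Fin 3) F) = N at hNd hNr
  have hBd : (A1 * N).det ≠ 0 := by
    rw [Matrix.det_mul]
    exact mul_ne_zero hA1 hNd
  have hBeq : (A1 * N)ᵀ * ((d2 / d1) • G₁) * (A1 * N) = A2ᵀ * G₂ * A2 := by
    rw [h2', Matrix.transpose_mul]
    have e1 : Nᵀ * A1ᵀ * ((d2 / d1) • G₁) * (A1 * N) =
        Nᵀ * ((d2 / d1) • (A1ᵀ * G₁ * A1)) * N := by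
      simp only [Matrix.mul_assoc, Matrix.mul_smul, Matrix.smul_mul]
    rw [e1, h1, hNr, div_mul_cancel₀ _ hd1']
  generalize A1 * N = B at hBd hBeq
  have hBu : IsUnit B.det := IsUnit.mk0 _ hBd
  have hAm : IsUnit (A2 * B⁻¹) := by
    rw [Matrix.isUnit_iff_isUnit_det, Matrix.det_mul, Matrix.det_nonsing_inv,
      Ring.inverse_eq_inv']
    exact IsUnit.mk0 _ (mul_ne_zero hA2 (inv_ne_zero hBd))
  obtain ⟨A, hA⟩ := hAm
  refine ⟨A, d2 / d1, hc, ?_⟩
  show (A : Matrix (Fin 3) (Fin 3) F)ᵀ * G₂ * (A : Matrix (Fin 3) (Fin 3) F) = (d2 / d1) • G₁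
  rw [hA, Matrix.transpose_mul]
  have e2 : (B⁻¹)ᵀ * A2ᵀ * G₂ * (A2 * B⁻¹) = (B⁻¹)ᵀ * (A2ᵀ * G₂ * A2) * B⁻¹ := by
    simp only [Matrix.mul_assoc]
  rw [e2, ← hBeq]
  have e3 : (B⁻¹)ᵀ * (Bᵀ * ((d2 / d1) • G₁) * B) * B⁻¹ =
      (B * B⁻¹)ᵀ * ((d2 / d1) • G₁) * (B * B⁻¹) := by
    rw [Matrix.transpose_mul]
    simp only [Matrix.mul_assoc]
  rw [e3, Matrix.mul_nonsing_inv _ hBu, Matrix.transpose_one, Matrix.one_mul, Matrix.mul_one]

end Cfsg.Agent.Lib.Helper44.O9
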