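import Mathlib
import Cfsg.Agent.Lib.Helper72.PQDefs
import Cfsg.Agent.Lib.Helper12.Ward2
import Cfsg.Agent.Lib.Helper12.Ward6

set_option autoImplicit false

/-! S4306 piece IINON (job 2268, for helper72): type II with `Q` nonabelian is contradictory. -/

namespace Cfsg.Agent.Lib.Helper1.PQ

open Subgroup
open scoped commutatorElement
open Cfsg.Agent.Lib.Helper72.PQ
open Cfsg.Agent.Lib.Helper12.Ward

universe u

/-- fixed points in the commutator of a coprime action on an abelian group are trivial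
(a variant of `comm_fix_trivial` without the hypothesis `Q ≤ ⁅Q, R⁆`) -/
theorem h1_comm_fix {Γ : Type u} [Group Γ] [Finite Γ] (Q R : Subgroup Γ)
    (hQc : ∀ v ∈ Q, ∀ w ∈ Q, v * w = w * v)
    (hRQ : R ≤ normalizer (Q : Set Γ)) (hcop : (Nat.card R).Coprime (Nat.card Q)) :
    ∀ y ∈ ⁅Q, R⁆, (∀ x ∈ R, x * y = y * x) → y = 1 := by
  classical
  let _ : CommGroup ↥Q := { (inferInstance : Group ↥Q) with
    mul_comm := fun v w => Subtype.ext (hQc v v.2 w w.2) }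
  let _ : Fintype ↥R := Fintype.ofFinite _
  let ρ : ↥R → ↥Q → ↥Q := fun x w => ⟨x.1 * w.1 * x.1⁻¹, conj_mem_of_nz (hRQ x.2) w.2⟩
  have hcardK : Fintype.card ↥R = Nat.card R := (Nat.card_eq_fintype_card).symm
  have hle : ⁅Q, R⁆ ≤ (Subgroup.closure {g : ↥Q | ∃ x u, g = ρ x u * u⁻¹}).map Q.subtype := by
    rw [Subgroup.commutator_le]
    intro g₁ hg₁ g₂ hg₂
    refine ⟨ρ ⟨g₂, hg₂⟩ ⟨g₁⁻¹, Q.inv_mem hg₁⟩ * (⟨g₁⁻¹, Q.inv_mem hg₁⟩ : ↥Q)⁻¹,
      Subgroup.subset_closure ⟨_, _, rfl⟩, ?_⟩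
    show (g₂ * g₁⁻¹ * g₂⁻¹) * (g₁⁻¹)⁻¹ = ⁅g₁, g₂⁆
    rw [commutatorElement_def, inv_inv,
      ← hQc g₁ hg₁ _ (conj_mem_of_nz (hRQ hg₂) (Q.inv_mem hg₁))]
    group
  intro y hy hfix
  obtain ⟨y', hy', rfl⟩ := hle hy
  have := fix_comm_abs (W := ↥Q) (K := ↥R) ρ
    (fun x z w => Subtype.ext (show (x.1 * z.1) * w.1 * (x.1 * z.1)⁻¹
      = x.1 * (z.1 * w.1 * z.1⁻¹) * x.1⁻¹ by group))
    (fun x w₁ w₂ => Subtype.ext (show x.1 * (w₁.1 * w₂.1) * x.1⁻¹
      = (x.1 * w₁.1 * x.1⁻¹) * (x.1 * w₂.1 * x.1⁻¹) by group))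
    (by rw [hcardK]; exact hcop) y' hy'
    (fun x => Subtype.ext (show x.1 * y'.1 * x.1⁻¹ = y'.1 from
      conj_eq_of_comm (hfix x.1 x.2)))
  rw [this]; rfl

theorem h1_nz_of_comm {Γ : Type u} [Group Γ] {H : Subgroup Γ} {g : Γ}
    (h : ∀ x ∈ H, g * x = x * g) : g ∈ normalizer (H : Set Γ) := by
  apply nz_of_conj_mem
  · intro x hx
    have e : g * x * g⁻¹ = x := by rw [h x hx]; group
    rw [e]; exact hx
  · intro x hx
    have e : g⁻¹ * x * g = x := by rw [mul_assoc, ← h x hx]; group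
    rw [e]; exact hx

/-- in a subgroup of prime order, commuting with one nontrivial element means commuting with
all of it -/
theorem h1_comm_all {Γ : Type u} [Group Γ] [Finite Γ] {p : ℕ} (hp : p.Prime) {F : Subgroup Γ}
    (hF : Nat.card F = p) {d : Γ} (hd : d ∈ F) (hd1 : d ≠ 1) {x : Γ} (hx : d * x = x * d) :
    ∀ a ∈ F, a * x = x * a := by
  intro a ha
  have : Fact p.Prime := ⟨hp⟩
  have hmem := mem_zpowers_of_prime_card (G := ↥F) hF (g := ⟨d, hd⟩) (g' := ⟨a, ha⟩)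
    (by intro h; exact hd1 (congrArg Subtype.val h))
  obtain ⟨k, hk⟩ := Subgroup.mem_zpowers_iff.1 hmem
  have ha' : a = d ^ k := by
    have := congrArg Subtype.val hk
    simpa using this.symm
  rw [ha']
  exact (Commute.zpow_left (show Commute d x from hx) k).eq

/-- IINON -/
theorem iinon (h1 : II0Stmt.{u}) (h2 : HHFStmt.{u}) (h3 : FMStmt.{u}) (h4 : L2Stmt.{u})
    (h5 : L3Stmt.{u}) : IInonStmt.{u} := by
  intro Γ _ _ p ℓ r q s A F V Q R T hII hnab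
  obtain ⟨hZc, hZcomm, -, -⟩ := h4 Γ p ℓ r q s A F V Q R T
  obtain ⟨-, hL3⟩ := h5 Γ p ℓ r q s A F V Q R T
  have hp : p.Prime := T.frob.hp
  have : Fact q.Prime := ⟨T.hq⟩
  have : Fact r.Prime := ⟨T.hr⟩
  -- `Z = C_Q(R)` is nontrivial
  have hZ1 : cz Q R ≠ ⊥ := by
    intro hbot
    apply hnab
    intro x hx y hy
    have hmem := hZcomm x hx y hy
    rw [hbot, Subgroup.mem_bot] at hmem
    calc x * y = (x * y * x⁻¹ * y⁻¹) * (y * x) := by group
      _ = y * x := by rw [hmem, one_mul]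
  have hZQ : cz Q R ≤ Q := fun z hz => (mem_cz.1 hz).1
  have hAZ : A ≤ normalizer ((cz Q R : Subgroup Γ) : Set Γ) := fun a ha =>
    nz_inf (T.hAQ ha) (nz_centralizer (T.hAR ha))
  have hQZ : Q ≤ normalizer ((cz Q R : Subgroup Γ) : Set Γ) := fun y hy =>
    h1_nz_of_comm (fun z hz => (hZc z hz y hy).symm)
  have hRZ : R ≤ normalizer ((cz Q R : Subgroup Γ) : Set Γ) := fun x hx =>
    h1_nz_of_comm (fun z hz => (mem_cz.1 hz).2 x hx)
  by_cases hcase : ∃ z ∈ cz Q R, z ≠ 1 ∧ ∀ a ∈ F, a * z = z * a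
  · -- Case 1
    obtain ⟨z, hz, hz1, hzF⟩ := hcase
    set ZF : Subgroup Γ := cz Q R ⊓ centralizer (F : Set Γ) with hZF
    have hZFQ : ZF ≤ Q := fun x hx => hZQ hx.1
    have hZF1 : ZF ≠ ⊥ := by
      intro hbot
      have hzmem : z ∈ ZF := ⟨hz, Subgroup.mem_centralizer_iff.2 hzF⟩
      rw [hbot, Subgroup.mem_bot] at hzmem
      exact hz1 hzmem
    have hAZF : A ≤ normalizer ((ZF : Subgroup Γ) : Set Γ) := fun a ha =>
      nz_inf (hAZ ha) (nz_centralizer (T.frob.hAF ha))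
    have hQZF : Q ≤ normalizer ((ZF : Subgroup Γ) : Set Γ) := fun y hy =>
      h1_nz_of_comm (fun x hx => (hZc x hx.1 y hy).symm)
    have hRZF : R ≤ normalizer ((ZF : Subgroup Γ) : Set Γ) := fun x' hx' =>
      h1_nz_of_comm (fun x hx => (mem_cz.1 hx.1).2 x' hx')
    have hCVF : ∀ v ∈ V, (∀ a ∈ F, a * v = v * a) → v = 1 := by
      intro v hv hvF
      apply hL3 ZF hZFQ hZF1 hAZF hQZF hRZF v hv
      intro n hn
      exact (T.hnVQ v hv n (hZQ hn.1) hvF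
        (fun a ha => Subgroup.mem_centralizer_iff.1 hn.2 a ha)).symm
    have hFQ : ∃ a ∈ F, ∃ y ∈ Q, a * y ≠ y * a := by
      by_contra hno
      push Not at hno
      have hF1 : F ≠ ⊥ := by
        intro h
        have hc := T.frob.hF
        rw [h, Subgroup.card_bot] at hc
        exact hp.one_lt.ne hc
      obtain ⟨a, ha, ha1⟩ := (F.bot_or_exists_ne_one).resolve_left hF1
      have hRC : ∀ x ∈ R, x ∈ cz R Q := by
        intro x hx
        apply hII a ha ha1 x hx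
        rw [mem_cz]
        refine ⟨R.mul_mem (conj_mem_of_nz (T.hAR (T.frob.hFA ha)) hx) (R.inv_mem hx), ?_⟩
        intro y hy
        have hy1 : x⁻¹ * y * x ∈ Q := conj_mem_of_nz' (T.hRQ hx) hy
        have e1 := hno a ha (x⁻¹ * y * x) hy1
        have e2 := hno a ha y hy
        have e1' : a⁻¹ * (x⁻¹ * y * x) = (x⁻¹ * y * x) * a⁻¹ :=
          (Commute.inv_left (show Commute a (x⁻¹ * y * x) from e1)).eq
        calc y * (a * x * a⁻¹ * x⁻¹) = (a * y) * x * a⁻¹ * x⁻¹ := by rw [e2]; group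
          _ = a * x * ((x⁻¹ * y * x) * a⁻¹) * x⁻¹ := by group
          _ = a * x * (a⁻¹ * (x⁻¹ * y * x)) * x⁻¹ := by rw [e1']
          _ = a * x * a⁻¹ * x⁻¹ * y := by group
      have hbot : ⁅Q, R⁆ = ⊥ :=
        commutator_eq_bot_of_comm (fun y hy x hx => ((mem_cz.1 (hRC x hx)).2 y hy))
      rw [T.hE5] at hbot
      exact T.hQ1 hbot
    exact h2 Γ p ℓ r q s A F V Q R T hCVF hFQ
  · -- Case 2
    have hCZF : ∀ z ∈ cz Q R, (∀ a ∈ F, a * z = z * a) → z = 1 := by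
      intro z hz hzF
      by_contra hz1
      exact hcase ⟨z, hz, hz1, hzF⟩
    obtain ⟨u, huQ, huZ, huF⟩ := h1 Γ p ℓ r q s A F V Q R T hII
    set Q₀ : Subgroup Γ := Q ⊓ centralizer (F : Set Γ) with hQ₀
    have hQ₀Q : Q₀ ≤ Q := fun y hy => hy.1
    have hQ₀V : Q₀ ≤ normalizer (V : Set Γ) := fun y hy => T.hQV hy.1
    have hWV : ⁅V, Q₀⁆ ≤ V := by
      rw [Subgroup.commutator_le]
      intro v hv y hy
      rw [commutatorElement_def]
      have h' := conj_mem_of_nz (hQ₀V hy) (V.inv_mem hv)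
      have e : v * y * v⁻¹ * y⁻¹ = v * (y * v⁻¹ * y⁻¹) := by group
      rw [e]
      exact V.mul_mem hv h'
    have hcop : (Nat.card Q₀).Coprime (Nat.card V) :=
      IsPGroup.coprime_card_of_ne q r T.hqr Q₀ V (T.hQq.to_le hQ₀Q) T.hVr
    have hCW : ∀ w ∈ ⁅V, Q₀⁆, (∀ y ∈ Q₀, y * w = w * y) → w = 1 :=
      h1_comm_fix V Q₀ T.hVc hQ₀V hcop
    have hWf : ∀ w ∈ ⁅V, Q₀⁆, (∀ a ∈ F, a * w = w * a) → w = 1 := by
      intro w hw hwF
      apply hCW w hw
      intro y hy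
      exact (T.hnVQ w (hWV hw) y hy.1 hwF
        (fun a ha => Subgroup.mem_centralizer_iff.1 hy.2 a ha)).symm
    -- a generator of `F`
    have hF1 : F ≠ ⊥ := by
      intro h
      have hc := T.frob.hF
      rw [h, Subgroup.card_bot] at hc
      exact hp.one_lt.ne hc
    obtain ⟨c, hc, hc1⟩ := (F.bot_or_exists_ne_one).resolve_left hF1
    have hcp : c ^ p = 1 := by
      have h' : (⟨c, hc⟩ : ↥F) ^ Nat.card F = 1 := pow_card_eq_one'
      rw [T.frob.hF] at h'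
      have := congrArg Subtype.val h'
      simpa using this
    have hcj : ∀ j, 0 < j → j < p → c ^ j ≠ 1 := by
      intro j hj0 hjp hj1
      have hg : c ^ Nat.gcd j p = 1 := pow_gcd_eq_one.2 ⟨hj1, hcp⟩
      have hcopr : Nat.Coprime j p := by
        rw [Nat.coprime_comm, Nat.Prime.coprime_iff_not_dvd hp]
        intro hdvd
        exact absurd (Nat.le_of_dvd hj0 hdvd) (not_le.2 hjp)
      rw [Nat.Coprime] at hcopr
      rw [hcopr, pow_one] at hg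
      exact hc1 hg
    have hWab : Ab (⁅V, Q₀⁆ : Subgroup Γ) := fun x hx y hy => T.hVc x (hWV hx) y (hWV hy)
    have hZW : cz Q R ≤ normalizer ((⁅V, Q₀⁆ : Subgroup Γ) : Set Γ) := fun z hz =>
      nz_comm (T.hQV (hZQ hz)) (h1_nz_of_comm (fun y hy => hZc z hz y hy.1))
    have hcQ₀ : c ∈ normalizer ((Q₀ : Subgroup Γ) : Set Γ) :=
      h1_nz_of_comm (fun y hy => Subgroup.mem_centralizer_iff.1 hy.2 c hc)
    have hcW : c ∈ normalizer ((⁅V, Q₀⁆ : Subgroup Γ) : Set Γ) :=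
      nz_comm (T.hAV (T.frob.hFA hc)) hcQ₀
    have hcZ : c ∈ normalizer ((cz Q R : Subgroup Γ) : Set Γ) := hAZ (T.frob.hFA hc)
    have hfpf : ∀ j, 0 < j → j < p → ∀ x ∈ cz Q R, c ^ j * x = x * c ^ j → x = 1 := by
      intro j hj0 hjp x hx hcomm
      exact hCZF x hx (h1_comm_all hp T.frob.hF (F.pow_mem hc j) (hcj j hj0 hjp) hcomm)
    have hcopZW : (Nat.card (cz Q R)).Coprime (Nat.card (⁅V, Q₀⁆ : Subgroup Γ)) :=
      IsPGroup.coprime_card_of_ne q r T.hqr (cz Q R) (⁅V, Q₀⁆ : Subgroup Γ)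
        (T.hQq.to_le hZQ) (T.hVr.to_le hWV)
    have hWc : ∀ w ∈ ⁅V, Q₀⁆, c * w = w * c → w = 1 := fun w hw h =>
      hWf w hw (h1_comm_all hp T.frob.hF hc hc1 h)
    have hFM := h3 Γ (⁅V, Q₀⁆ : Subgroup Γ) (cz Q R) c p hp.pos hcp hWab hZW hcW hcZ hfpf
      hcopZW hWc
    have hW : ∀ w ∈ ⁅V, Q₀⁆, w = 1 := fun w hw =>
      hL3 (cz Q R) hZQ hZ1 hAZ hQZ hRZ w (hWV hw) (fun n hn => hFM n hn w hw)
    have huQ₀ : u ∈ Q₀ := ⟨huQ, Subgroup.mem_centralizer_iff.2 huF⟩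
    have hu1 : u = 1 := by
      apply T.hE2' u huQ
      intro v hv
      have hcm : ⁅v, u⁆ = 1 := hW _ (Subgroup.commutator_mem_commutator hv huQ₀)
      exact (commutatorElement_eq_one_iff_mul_comm.mp hcm).symm
    exact huZ (by rw [hu1]; exact (cz Q R).one_mem)

end Cfsg.Agent.Lib.Helper1.PQ
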