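import Cfsg.Agent.Lib.Helper22.PTDefs

/-!
# Project PT (helper22, S4705), piece ZERO

A `p`-regular element `g` with `g ^ 2` not central has `ζ g = 0 = ζ (g ^ 2)`: as there are no
elements of order `4`, the order of `g` is `m` or `2 m` with `m` odd; in the second case
`g = τ x` with `τ = g ^ m` an involution and `x = g ^ (m + 1)` of odd order.
-/

set_option autoImplicit false

namespace Cfsg.Agent.Lib.Helper1.PT

open Cfsg Cfsg.Agent.Lib.Helper22.BFD Cfsg.Agent.Lib.Helper22.PT
open scoped ComplexConjugate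

universe u

variable {G : Type u} [Group G] [Fintype G]

/-- PIECE ZERO -/
theorem zero (p : ℕ) [Fact p.Prime] (z : G) (ζ : G → ℂ) (h : Hyp G p z ζ)
    (hoddz : ∀ g : G, Odd (orderOf g) → ¬ p ∣ orderOf g → g ∉ Subgroup.center G → ζ g = 0)
    (hno4 : ∀ g : G, orderOf g ≠ 4)
    (hmix : ∀ τ x : G, orderOf τ = 2 → Odd (orderOf x) → ¬ p ∣ orderOf x → τ * x = x * τ →
      x ∉ Subgroup.center G → ζ (τ * x) = 0)
    (g : G) (hreg : ¬ p ∣ orderOf g) (hg2 : g ^ 2 ∉ Subgroup.center G) :
    ζ g = 0 ∧ ζ (g ^ 2) = 0 := by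
  have hNpos : 0 < orderOf g := orderOf_pos g
  have hgZ : g ∉ Subgroup.center G := fun hc => hg2 (Subgroup.pow_mem _ hc 2)
  have hreg2 : ¬ p ∣ orderOf (g ^ 2) := fun hd => hreg (hd.trans (orderOf_pow_dvd 2))
  -- no element of order 4, so 4 does not divide the order of g
  have h4 : ¬ 4 ∣ orderOf g := by
    intro hd
    obtain ⟨k, hk⟩ := hd
    have hk0 : k ≠ 0 := by
      rintro rfl
      omega
    have hkd : k ∣ orderOf g := ⟨4, by rw [hk]; ring⟩
    have h5 := orderOf_pow_of_dvd (x := g) hk0 hkd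
    have h6 : orderOf g / k = 4 := by
      rw [hk]
      exact Nat.mul_div_cancel _ (Nat.pos_of_ne_zero hk0)
    exact hno4 (g ^ k) (h5.trans h6)
  rcases Nat.even_or_odd (orderOf g) with hev | hodd
  · -- order 2 m with m odd
    obtain ⟨m, hm⟩ := hev
    have hm2 : orderOf g = 2 * m := by omega
    have hmodd : Odd m := by
      rcases Nat.even_or_odd m with hme | hmo
      · exfalso
        obtain ⟨j, hj⟩ := hme
        exact h4 ⟨j, by omega⟩
      · exact hmo
    have hm0 : m ≠ 0 := by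
      rintro rfl
      omega
    have hg2m : g ^ (2 * m) = 1 := by
      rw [← hm2]
      exact pow_orderOf_eq_one g
    -- the square
    have ho2 : orderOf (g ^ 2) = m := by
      have h5 := orderOf_pow_of_dvd (x := g) (n := 2) (by norm_num) ⟨m, hm2⟩
      rw [h5, hm2]
      exact Nat.mul_div_cancel_left _ (by norm_num)
    have hz2 : ζ (g ^ 2) = 0 := hoddz (g ^ 2) (by rw [ho2]; exact hmodd) hreg2 hg2
    refine ⟨?_, hz2⟩
    -- the involution and the odd part
    have hoτ : orderOf (g ^ m) = 2 := by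
      have h5 := orderOf_pow_of_dvd (x := g) hm0 ⟨2, by rw [hm2]; ring⟩
      rw [h5, hm2]
      exact Nat.mul_div_cancel _ (Nat.pos_of_ne_zero hm0)
    have hxm : (g ^ (m + 1)) ^ m = 1 := by
      obtain ⟨j, hj⟩ := hmodd
      have h7 : (m + 1) * m = 2 * m * (j + 1) := by
        rw [hj]
        ring
      rw [← pow_mul, h7, pow_mul, hg2m, one_pow]
    have hox : orderOf (g ^ (m + 1)) ∣ m := orderOf_dvd_of_pow_eq_one hxm
    have hxodd : Odd (orderOf (g ^ (m + 1))) := Odd.of_dvd_nat hmodd hox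
    have hxreg : ¬ p ∣ orderOf (g ^ (m + 1)) :=
      fun hd => hreg (hd.trans (orderOf_pow_dvd (m + 1)))
    have hcomm : g ^ m * g ^ (m + 1) = g ^ (m + 1) * g ^ m := by
      rw [← pow_add, ← pow_add, add_comm]
    have hx2 : (g ^ (m + 1)) ^ 2 = g ^ 2 := by
      rw [← pow_mul]
      have h8 : (m + 1) * 2 = 2 * m + 2 := by ring
      rw [h8, pow_add, hg2m, one_mul]
    have hxZ : g ^ (m + 1) ∉ Subgroup.center G := by
      intro hc
      apply hg2
      rw [← hx2]
      exact Subgroup.pow_mem _ hc 2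
    have hprod : g ^ m * g ^ (m + 1) = g := by
      rw [← pow_add]
      have h9 : m + (m + 1) = 2 * m + 1 := by ring
      rw [h9, pow_add, hg2m, one_mul, pow_one]
    have h10 := hmix (g ^ m) (g ^ (m + 1)) hoτ hxodd hxreg hcomm hxZ
    rw [hprod] at h10
    exact h10
  · -- odd order
    refine ⟨hoddz g hodd hreg hgZ, ?_⟩
    exact hoddz (g ^ 2) (Odd.of_dvd_nat hodd (orderOf_pow_dvd 2)) hreg2 hg2

end Cfsg.Agent.Lib.Helper1.PT
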