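import Mathlib
import Cfsg.Agent.Lib.Helper50.SubfMax
import Cfsg.Agent.Lib.Helper94.S6RHO
import Cfsg.Agent.Lib.Helper95.S6SL2

/-!
Subfield subgroups of `SL_n(q)`, `q` odd (helper1): an overgroup `M` whose parameter field is
`F₀` is contained in the subfield group.  Replaces the dihedral argument of `Helper50.SubfMax`
(which needs two classes of rational involutions) by an `SL₂` argument: a rational transvection
group and an `M`-conjugate of it generate a subgroup of `SL₂(F)` containing `-1` (Dickson), which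
gives an involution of `M` fixing a rational point and the image of a rational point.
-/

set_option autoImplicit false

namespace Cfsg.Agent.Lib.Helper1.S6

open Matrix Cfsg.Agent.Lib.Helper97 Cfsg.Agent.Lib.Helper50 Cfsg.Agent.Lib.Helper19.Dk
open Cfsg.Agent.Lib.Helper94.S6 Cfsg.Agent.Lib.Helper95.S6

theorem le_H1_odd6 {n : ℕ} (hn : 3 ≤ n) {F : Type*} [Field F] [Fintype F] {F₀ : Subfield F}
    {M : Subgroup (GL (Fin n) F)}
    (hHM : H1 (Fin n) F₀ ⊓ Cfsg.Geo.specialLinear (Fin n) F ≤ M)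
    (h3 : ∀ i j : Fin n, ∃ k, k ≠ i ∧ k ≠ j)
    (hW : ∀ c : F, InW M c → c ∈ F₀)
    (hsq : ∀ c : F, c ^ 2 ∈ F₀ → c ∈ F₀) (h2 : (2 : F) ≠ 0)
    (hn2 : (2 : F) * ((n : F) - 2) ≠ 0) : M ≤ H1 (Fin n) F₀ := by
  classical
  intro m hm
  by_contra hmH
  have hGPl : ∀ m ∈ M, ¬ GP F₀ m → m ∈ H1 (Fin n) F₀ :=
    fun m hm h => mem_H1_of_not_GP hHM h3 hW m hm h
  have hGPm : GP F₀ m := by
    by_contra h
    exact hmH (hGPl m hm h)
  have hGPm' : GP F₀ m⁻¹ := by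
    by_contra h
    have h1 := (H1 (Fin n) F₀).inv_mem (hGPl m⁻¹ (M.inv_mem hm) h)
    rw [inv_inv] at h1
    exact hmH h1
  set i0 : Fin n := ⟨0, by omega⟩ with hi0
  set i1 : Fin n := ⟨1, by omega⟩ with hi1
  have n01 : i0 ≠ i1 := by rw [hi0, hi1]; simp
  obtain ⟨u, hu⟩ : ∃ u : Fin n → F, u = Pi.single i0 1 := ⟨_, rfl⟩
  obtain ⟨φ, hφ⟩ : ∃ φ : Fin n → F, φ = Pi.single i1 1 := ⟨_, rfl⟩
  have huR : RatV F₀ u := by rw [hu]; exact ratV_single F₀ i0 F₀.one_mem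
  have hφR : RatV F₀ φ := by rw [hφ]; exact ratV_single F₀ i1 F₀.one_mem
  have hu0 : u ≠ 0 := by rw [hu]; exact single_ne_zero_fin _
  have hφ0 : φ ≠ 0 := by rw [hφ]; exact single_ne_zero_fin _
  have hφu : φ ⬝ᵥ u = 0 := by rw [hu, hφ]; exact single_dot_single_ne n01 1 1
  obtain ⟨v, hv⟩ : ∃ v : Fin n → F, v = (m : Matrix (Fin n) (Fin n) F) *ᵥ u := ⟨_, rfl⟩
  obtain ⟨ψ, hψ⟩ : ∃ ψ : Fin n → F, ψ = φ ᵥ* ((m⁻¹ : GL (Fin n) F) : Matrix (Fin n) (Fin n) F) :=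
    ⟨_, rfl⟩
  have hα : φ ⬝ᵥ v ≠ 0 := by
    rw [hv]
    exact hGPm u φ huR hφR hu0 hφ0
  have hβ : ψ ⬝ᵥ u ≠ 0 := by
    rw [hψ, ← Matrix.dotProduct_mulVec]
    exact hGPm' u φ huR hφR hu0 hφ0
  have hψv : ψ ⬝ᵥ v = 0 := by
    rw [hψ, hv, ← Matrix.dotProduct_mulVec, gl_inv_mulVec]
    exact hφu
  -- the normalised functionals
  obtain ⟨α, hαdef⟩ : ∃ α : F, α = φ ⬝ᵥ v := ⟨_, rfl⟩
  obtain ⟨β, hβdef⟩ : ∃ β : F, β = ψ ⬝ᵥ u := ⟨_, rfl⟩
  have hα0 : α ≠ 0 := by rw [hαdef]; exact hα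
  have hβ0 : β ≠ 0 := by rw [hβdef]; exact hβ
  have e1 : (α⁻¹ • φ) ⬝ᵥ u = 0 := by rw [smul_dotProduct, hφu, smul_zero]
  have e2 : (β⁻¹ • ψ) ⬝ᵥ v = 0 := by rw [smul_dotProduct, hψv, smul_zero]
  have e3 : (α⁻¹ • φ) ⬝ᵥ v = 1 := by
    rw [smul_dotProduct, ← hαdef, smul_eq_mul, inv_mul_cancel₀ hα0]
  have e4 : (β⁻¹ • ψ) ⬝ᵥ u = 1 := by
    rw [smul_dotProduct, ← hβdef, smul_eq_mul, inv_mul_cancel₀ hβ0]
  obtain ⟨ρ, hρ⟩ := exists_rho u v (α⁻¹ • φ) (β⁻¹ • ψ) e1 e2 e3 e4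
  -- the two root groups
  have hA : ∀ c ∈ F₀, uu (α * c) ∈ M.comap ρ := by
    intro c hc
    rw [Subgroup.mem_comap]
    have hTM : TM M u (c • φ) := rat_TM hHM huR (ratV_smul hc hφR)
      (by rw [smul_dotProduct, hφu, smul_zero])
    apply hTM.2
    rw [hρ, tv, uu_00, uu_01, uu_10, uu_11, sub_self, zero_smul, zero_smul, zero_smul, add_zero,
      add_zero, add_zero, Matrix.vecMulVec_smul, Matrix.vecMulVec_smul, smul_smul, mul_comm α c,
      mul_assoc, mul_inv_cancel₀ hα0, mul_one]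
  have hB : ∀ d ∈ F₀, ll (β * d) ∈ M.comap ρ := by
    intro d hd
    rw [Subgroup.mem_comap]
    have hTM0 : TM M u (d • φ) := rat_TM hHM huR (ratV_smul hd hφR)
      (by rw [smul_dotProduct, hφu, smul_zero])
    have hTM := TM_conj hTM0 (M.inv_mem hm)
    rw [inv_inv, ← hv, Matrix.smul_vecMul, ← hψ] at hTM
    apply hTM.2
    rw [hρ, tv]
    have l00 : (ll (β * d) : S2 F) 0 0 = 1 := rfl
    have l01 : (ll (β * d) : S2 F) 0 1 = 0 := rfl
    have l10 : (ll (β * d) : S2 F) 1 0 = β * d := rfl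
    have l11 : (ll (β * d) : S2 F) 1 1 = 1 := rfl
    rw [l00, l01, l10, l11, sub_self, zero_smul, zero_smul, zero_smul, add_zero, add_zero,
      add_zero, Matrix.vecMulVec_smul, Matrix.vecMulVec_smul, smul_smul, mul_comm β d,
      mul_assoc, mul_inv_cancel₀ hβ0, mul_one]
  obtain ⟨g, hgL, hg⟩ := sl2_neg_one_mem h2 F₀ hsq (M.comap ρ) α β hα0 hβ0 hA hB
  rw [Subgroup.mem_comap] at hgL
  have g00 : g 0 0 = -1 := by
    have := congrFun (congrFun hg 0) 0
    simpa using this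
  have g01 : g 0 1 = 0 := by
    have := congrFun (congrFun hg 0) 1
    simpa using this
  have g10 : g 1 0 = 0 := by
    have := congrFun (congrFun hg 1) 0
    simpa using this
  have g11 : g 1 1 = -1 := by
    have := congrFun (congrFun hg 1) 1
    simpa using this
  have hgg : g * g = 1 := by
    apply Subtype.ext
    rw [Matrix.SpecialLinearGroup.coe_mul, hg, Matrix.SpecialLinearGroup.coe_one, neg_mul_neg,
      mul_one]
  obtain ⟨z, hz⟩ : ∃ z : GL (Fin n) F, z = ρ g := ⟨_, rfl⟩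
  have hzM : z ∈ M := by rw [hz]; exact hgL
  have hzz : z * z = 1 := by rw [hz, ← map_mul, hgg, map_one]
  have hzval : (z : Matrix (Fin n) (Fin n) F) =
      1 - (2 : F) • Matrix.vecMulVec u (β⁻¹ • ψ) - (2 : F) • Matrix.vecMulVec v (α⁻¹ • φ) := by
    rw [hz, hρ, g00, g01, g10, g11, zero_smul, zero_smul, add_zero, add_zero]
    have h22 : (-1 - 1 : F) = -2 := by ring
    rw [h22, neg_smul, neg_smul]
    abel
  have hzu : (z : Matrix (Fin n) (Fin n) F) *ᵥ u = (-1 : F) • u := by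
    rw [hzval, Matrix.sub_mulVec, Matrix.sub_mulVec, Matrix.one_mulVec, Matrix.smul_mulVec,
      Matrix.smul_mulVec, Matrix.vecMulVec_mulVec, Matrix.vecMulVec_mulVec, e4, e1]
    simp only [MulOpposite.op_one, MulOpposite.op_zero, one_smul, zero_smul, smul_zero,
      sub_zero]
    rw [two_smul, neg_one_smul]
    abel
  have hzv : (z : Matrix (Fin n) (Fin n) F) *ᵥ v = (-1 : F) • v := by
    rw [hzval, Matrix.sub_mulVec, Matrix.sub_mulVec, Matrix.one_mulVec, Matrix.smul_mulVec,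
      Matrix.smul_mulVec, Matrix.vecMulVec_mulVec, Matrix.vecMulVec_mulVec, e2, e3]
    simp only [MulOpposite.op_one, MulOpposite.op_zero, one_smul, zero_smul, smul_zero,
      sub_zero]
    rw [two_smul, neg_one_smul]
    abel
  -- `z` is rational
  have hzinv : z⁻¹ = z := inv_eq_of_mul_eq_one_left hzz
  have hrat0 := rat_of_fix_point hHM h3 hW z hzM i0 (-1) (by rw [← hu]; exact hzu)
  rw [hzinv] at hrat0
  have hzR : RatM F₀ ((z : Matrix (Fin n) (Fin n) F) + 1) := by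
    intro i j
    have h1 := hrat0 i j
    rw [Matrix.smul_apply, smul_eq_mul, neg_one_mul] at h1
    rw [Matrix.add_apply]
    have h4 : (1 : Matrix (Fin n) (Fin n) F) i j ∈ F₀ := ratM_one F₀ i j
    have h5 := F₀.add_mem (F₀.neg_mem h1) h4
    rwa [neg_neg] at h5
  -- `z + 1 ≠ 0` by the trace
  have hz1 : (z : Matrix (Fin n) (Fin n) F) + 1 ≠ 0 := by
    intro h
    have htr := congrArg Matrix.trace h
    rw [hzval, Matrix.trace_add, Matrix.trace_sub, Matrix.trace_sub, Matrix.trace_smul,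
      Matrix.trace_smul, Matrix.trace_vecMulVec, Matrix.trace_vecMulVec, Matrix.trace_one,
      Matrix.trace_zero, dotProduct_comm u, dotProduct_comm v, e4, e3, Fintype.card_fin,
      smul_eq_mul, mul_one] at htr
    apply hn2
    linear_combination htr
  obtain ⟨l, hl⟩ := exists_row_ne_zero hz1
  have hφ'R : RatV F₀ (Pi.single l 1 ᵥ* ((z : Matrix (Fin n) (Fin n) F) + 1)) :=
    ratM_vecMul (ratV_single F₀ l F₀.one_mem) hzR
  apply hGPm u _ huR hφ'R hu0 hl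
  rw [← hv, ← Matrix.dotProduct_mulVec, Matrix.add_mulVec, hzv, Matrix.one_mulVec, neg_one_smul,
    neg_add_cancel, dotProduct_zero]

end Cfsg.Agent.Lib.Helper1.S6
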