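import Mathlib
import Cfsg.Agent.Lib.Helper50.SubfMax
import Cfsg.Agent.Lib.Helper1.S6Odd
import Cfsg.Agent.Lib.Helper2.S6TWO

/-!
Subfield subgroups of `SL_6(q)` are maximal (helper1): `Helper50.subfield_max_aux` redone in
dimension six, with the odd-characteristic step replaced by `le_H1_odd6` and the
characteristic-two step by `le_H1_two6`.
-/

set_option autoImplicit false

namespace Cfsg.Agent.Lib.Helper1.S6

open Matrix Cfsg.Agent.Lib.Helper97 Cfsg.Agent.Lib.Helper50
open Cfsg.Agent.Lib.Helper2.S6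

section

variable {F : Type*} [Field F] [Fintype F]

/-- The subfield group (in standard position) is maximal in `SL_6`. -/
theorem subfield_max_aux6 (F₀ : Subfield F) (r : ℕ) (hr : r.Prime)
    (hcard : Fintype.card F = Nat.card F₀ ^ r) :
    Cfsg.Geo.IsMaximalIn (Cfsg.Geo.specialLinear (Fin 6) F)
      (H1 (Fin 6) F₀ ⊓ Cfsg.Geo.specialLinear (Fin 6) F) := by
  classical
  have h3 : ∀ i j : Fin 6, ∃ k, k ≠ i ∧ k ≠ j := fin_third (by omega)
  have : Nontrivial (Fin 6) := Fin.nontrivial_iff_two_le.mpr (by omega)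
  refine ⟨lt_of_le_of_ne inf_le_right ?_, fun M hHM hMK => ?_⟩
  · intro heq
    have hex : ∃ c : F, c ∉ F₀ := by
      by_contra hcon
      push Not at hcon
      have h1 : Nat.card F₀ = Fintype.card F := by
        rw [← Nat.card_eq_fintype_card]
        exact Nat.card_congr (Equiv.subtypeUnivEquiv hcon)
      have h4 : 1 < Nat.card F₀ := by rw [h1]; exact Fintype.one_lt_card
      rw [← h1] at hcard
      have h5 : Nat.card F₀ ^ 1 = Nat.card F₀ ^ r := by rw [pow_one]; exact hcard
      have h6 := Nat.pow_right_injective h4 h5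
      exact hr.one_lt.ne h6
    obtain ⟨c, hc⟩ := hex
    set i0 : Fin 6 := ⟨0, by omega⟩ with hi0
    set i1 : Fin 6 := ⟨1, by omega⟩ with hi1
    have n01 : i0 ≠ i1 := by rw [hi0, hi1]; simp
    have h01 : (Pi.single i1 c : Fin 6 → F) ⬝ᵥ Pi.single i0 1 = 0 :=
      single_dot_single_ne n01 c 1
    have ht : tvG (Pi.single i0 1) (Pi.single i1 c) h01 ∈
        H1 (Fin 6) F₀ ⊓ Cfsg.Geo.specialLinear (Fin 6) F := by
      rw [heq]; exact tvG_mem_specialLinear _ _ h01
    obtain ⟨c', hc'0, A, hA, htA⟩ := exists_of_mem_H1 F₀ _ ht.1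
    have e00 := congrFun (congrFun htA i0) i0
    have e01 := congrFun (congrFun htA i0) i1
    rw [tvG_val, tv, Matrix.add_apply, Matrix.vecMulVec_apply, Matrix.smul_apply,
      Pi.single_eq_same, Pi.single_eq_of_ne n01, mul_zero, add_zero, Matrix.one_apply_eq,
      smul_eq_mul] at e00
    rw [tvG_val, tv, Matrix.add_apply, Matrix.vecMulVec_apply, Matrix.smul_apply,
      Pi.single_eq_same, Pi.single_eq_same, one_mul, Matrix.one_apply_ne n01, zero_add,
      smul_eq_mul] at e01
    have hc'mem : c' ∈ F₀ := by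
      have h7 : c' = (A i0 i0)⁻¹ := eq_inv_of_mul_eq_one_left e00.symm
      rw [h7]; exact F₀.inv_mem (hA i0 i0)
    apply hc
    rw [e01]
    exact F₀.mul_mem hc'mem (hA i0 i1)
  · rcases inW_dichotomy hHM h3 r hr hcard with hW | hall
    · left
      have hGPl : ∀ m ∈ M, ¬ GP F₀ m → m ∈ H1 (Fin 6) F₀ :=
        fun m hm h => mem_H1_of_not_GP hHM h3 hW m hm h
      have hle : M ≤ H1 (Fin 6) F₀ := by
        by_cases h2 : (2 : F) = 0
        · exact le_H1_two6 hHM hGPl (mem_of_sq_mem F₀ r hcard (Or.inl h2)) h2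
        · rcases hr.eq_two_or_odd' with hr2 | hrodd
          · intro m hm
            by_contra hmH
            have hGP : GP F₀ m := by
              by_contra h
              exact hmH (hGPl m hm h)
            have h5 := card_le_of_GP F₀ r hcard m hGP ⟨0, by omega⟩
            rw [Fintype.card_fin] at h5
            omega
          · refine le_H1_odd6 (by norm_num) hHM h3 hW
              (mem_of_sq_mem F₀ r hcard (Or.inr hrodd)) h2 ?_
            have h8 : (2 : F) * (((6 : ℕ) : F) - 2) = 2 * 2 * 2 := by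
              push_cast
              ring
            rw [h8]
            exact mul_ne_zero (mul_ne_zero h2 h2) h2
      exact le_antisymm (fun m hm => ⟨hle hm, hMK hm⟩) hHM
    · right
      exact le_antisymm hMK (sl_le_of_inW hall)

/-- The subfield subgroup of `SL_6(F)` for a subfield of prime degree is maximal. -/
theorem subfield_isMaximalIn6 (F₀ : Subfield F) (r : ℕ) (hr : r.Prime)
    (hcard : Fintype.card F = Nat.card F₀ ^ r) (P : GL (Fin 6) F) :
    Cfsg.Geo.IsMaximalIn (Cfsg.Geo.specialLinear (Fin 6) F)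
      (Cfsg.Geo.subfieldSubgroup F₀ P ⊓ Cfsg.Geo.specialLinear (Fin 6) F) := by
  have h := isMaximalIn_map (MulAut.conj P) (subfield_max_aux6 F₀ r hr hcard)
  rw [Subgroup.map_inf_eq _ _ _ (MulAut.conj P).injective, sl_map_conj] at h
  exact h

end

end Cfsg.Agent.Lib.Helper1.S6
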