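import Mathlib
import Cfsg.Prelude.Def_GeometricClasses
import Cfsg.Prelude.Def_LieClassical
import Cfsg.Agent.Lib.Helper71.Asch0
import Cfsg.Agent.Lib.Helper71.Asch8

/-! Project SPG (helper71), S5823, sub-project SP8-EA (architect helper1): a tensor decomposition
`2 ⊗ 4` with an orthogonal plus-type factor refines to the tensor cube `2 ⊗ 2 ⊗ 2`.
Shared definitions of the pieces. -/

set_option autoImplicit false

namespace Cfsg.Agent.Lib.Helper1.SP8EADefs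

open Matrix Cfsg.Geo Cfsg.Agent.Lib.Helper71.Asch

variable {F : Type*} [Field F]

/-- the standard alternating `2 × 2` matrix -/
def J2 : Matrix (Fin 2) (Fin 2) F := !![0, 1; -1, 0]

/-- the Gram matrix `J ⊗ J` on `Fin 2 → Fin 2` (symmetric, the polar form of the determinant) -/
def K22 : Matrix (Fin 2 → Fin 2) (Fin 2 → Fin 2) F := pt (fun _ : Fin 2 => (J2 : Matrix (Fin 2) (Fin 2) F))

/-- the swap of the two tensor factors of `F² ⊗ F²` -/
def swapM : Matrix (Fin 2 → Fin 2) (Fin 2 → Fin 2) F :=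
  Matrix.of fun x y => if y = x ∘ Equiv.swap (0 : Fin 2) 1 then 1 else 0

/-- `a ⊗ M` on `F² ⊗ (F² ⊗ F²)`, indexed by `Fin 3 → Fin 2` -/
def lift3 (a : Matrix (Fin 2) (Fin 2) F) (M : Matrix (Fin 2 → Fin 2) (Fin 2 → Fin 2) F) :
    Matrix (Fin 3 → Fin 2) (Fin 3 → Fin 2) F :=
  Matrix.of fun x y => a (x 0) (y 0) * M ![x 1, x 2] ![y 1, y 2]

/-- `1 ⊗ S`, from `Fin 3 → Fin 2` to `Fin 2 × Fin 4` -/
def T3 (S : Matrix (Fin 4) (Fin 2 → Fin 2) F) : Matrix (Fin 2 × Fin 4) (Fin 3 → Fin 2) F :=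
  Matrix.of fun p x => if p.1 = x 0 then S p.2 ![x 1, x 2] else 0

/-- `1 ⊗ Si`, from `Fin 2 × Fin 4` to `Fin 3 → Fin 2` -/
def T3i (Si : Matrix (Fin 2 → Fin 2) (Fin 4) F) : Matrix (Fin 3 → Fin 2) (Fin 2 × Fin 4) F :=
  Matrix.of fun x p => if p.1 = x 0 then Si ![x 1, x 2] p.2 else 0

/-- the rectangular base change `P · (1 ⊗ S)` from the tensor cube to `Fin n` -/
def P3 {n : ℕ} (e : Fin n ≃ Fin 2 × Fin 4) (P : GL (Fin n) F) (S : Matrix (Fin 4) (Fin 2 → Fin 2) F) :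
    Matrix (Fin n) (Fin 3 → Fin 2) F :=
  P.1.submatrix id e.symm * T3 S

/-- its inverse `(1 ⊗ Si) · P⁻¹` -/
def Q3 {n : ℕ} (e : Fin n ≃ Fin 2 × Fin 4) (P : GL (Fin n) F) (Si : Matrix (Fin 2 → Fin 2) (Fin 4) F) :
    Matrix (Fin 3 → Fin 2) (Fin n) F :=
  T3i Si * (P⁻¹ : GL (Fin n) F).1.submatrix e.symm id

end Cfsg.Agent.Lib.Helper1.SP8EADefs
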