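import Mathlib
import Cfsg.Prelude.Def_GeometricClasses
import Cfsg.Prelude.Def_LieClassical
import Cfsg.Agent.Lib.Helper71.Asch0
import Cfsg.Agent.Lib.Helper71.Asch8
import Cfsg.Agent.Lib.Helper1.SP8EADefs

set_option autoImplicit false
set_option linter.unusedSectionVars false

namespace Cfsg.Agent.Lib.Helper1.SP8EA1

open Matrix Cfsg.Geo Cfsg.Agent.Lib.Helper71.Asch Cfsg.Agent.Lib.Helper1.SP8EADefs
open scoped Kronecker

variable {n : ℕ} {F : Type*} [Field F] [Fintype F]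

theorem bil_expand {κ : Type} [Fintype κ] [DecidableEq κ] (f : (κ → F) → (κ → F) → F)
    (hb : IsBilinearForm f) (u v : κ → F) : f u v = u ⬝ᵥ gramMatrix f *ᵥ v := by
  let B : LinearMap.BilinForm F (κ → F) :=
    LinearMap.mk₂ F f hb.add_left hb.smul_left hb.add_right hb.smul_right
  have h1 : Matrix.toBilin' (LinearMap.BilinForm.toMatrix' B) = B := Matrix.toBilin'_toMatrix' B
  have h2 : LinearMap.BilinForm.toMatrix' B = gramMatrix f := by
    ext i j
    rw [LinearMap.BilinForm.toMatrix'_apply]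
    rfl
  calc f u v = B u v := rfl
    _ = Matrix.toBilin' (LinearMap.BilinForm.toMatrix' B) u v := by rw [h1]
    _ = u ⬝ᵥ gramMatrix f *ᵥ v := by rw [Matrix.toBilin'_apply', h2]

theorem K22_mul_K22 : (K22 : Matrix (Fin 2 → Fin 2) (Fin 2 → Fin 2) F) * K22 = 1 := by
  unfold K22
  rw [pt_mul]
  have h1 : (J2 : Matrix (Fin 2) (Fin 2) F) * J2 = -1 := by
    ext a b
    fin_cases a <;> fin_cases b <;> simp [J2, Matrix.mul_apply, Fin.sum_univ_two]
  rw [← pt_one (F := F) (k := 2) (m := 2)]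
  ext x y
  rw [pt_apply, pt_apply, Fin.prod_univ_two, Fin.prod_univ_two, h1]
  simp

theorem K22_apply (x y : Fin 2 → Fin 2) :
    (K22 : Matrix (Fin 2 → Fin 2) (Fin 2 → Fin 2) F) x y = J2 (x 0) (y 0) * J2 (x 1) (y 1) := by
  unfold K22
  rw [pt_apply, Fin.prod_univ_two]

theorem EA1 (h2ne : (2 : F) ≠ 0) (f₂ : (Fin 4 → F) → (Fin 4 → F) → F) (h2 : IsSymmetricForm f₂)
    (hplus : IsPlusTypeOn (fun v : Fin 4 → F => f₂ v v) ⊤) :
    ∃ (S : Matrix (Fin 4) (Fin 2 → Fin 2) F) (Si : Matrix (Fin 2 → Fin 2) (Fin 4) F),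
      S * Si = 1 ∧ Si * S = 1 ∧ Sᵀ * gramMatrix f₂ * S = (K22 : Matrix (Fin 2 → Fin 2) (Fin 2 → Fin 2) F) := by
  classical
  set G := gramMatrix f₂ with hG
  have hexp : ∀ u v, f₂ u v = u ⬝ᵥ G *ᵥ v := bil_expand f₂ h2.bilinear
  have hsub_l : ∀ x y v, f₂ (x - y) v = f₂ x v - f₂ y v := by
    intro x y v
    have := h2.bilinear.add_left (x - y) y v
    rw [sub_add_cancel] at this
    rw [this]; ring
  have hsub_r : ∀ v x y, f₂ v (x - y) = f₂ v x - f₂ v y := by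
    intro v x y
    have := h2.bilinear.add_right v (x - y) y
    rw [sub_add_cancel] at this
    rw [this]; ring
  have hsmul_l := h2.bilinear.smul_left
  have hsmul_r := h2.bilinear.smul_right
  have hneg_l : ∀ x v, f₂ (-x) v = - f₂ x v := by
    intro x v
    have := hsmul_l (-1) x v
    rw [neg_one_smul] at this
    rw [this]; ring
  have hneg_r : ∀ v x, f₂ v (-x) = - f₂ v x := by
    intro v x
    have := hsmul_r (-1) v x
    rw [neg_one_smul] at this
    rw [this]; ring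
  have hdet : G.det ≠ 0 := by
    intro h0
    obtain ⟨v, hv, hGv⟩ := Matrix.exists_mulVec_eq_zero_iff.2 h0
    obtain ⟨x, hx⟩ := (h2.nondegenerate v hv).1
    apply hx
    rw [hexp, hGv, dotProduct_zero]
  obtain ⟨U, -, hUs, hUd⟩ := hplus
  have hUd2 : Module.finrank F U = 2 := by
    have : Module.finrank F (⊤ : Submodule F (Fin 4 → F)) = 4 := by simp
    omega
  let b : Module.Basis (Fin 2) F U := Module.finBasisOfFinrankEq F U hUd2
  have hUU : ∀ u ∈ U, ∀ u' ∈ U, f₂ u u' = 0 := by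
    intro u hu u' hu'
    have h1 : f₂ (u + u') (u + u') = 0 := hUs _ (U.add_mem hu hu')
    have h3 : f₂ u u = 0 := hUs u hu
    have h4 : f₂ u' u' = 0 := hUs u' hu'
    rw [h2.bilinear.add_left, h2.bilinear.add_right, h2.bilinear.add_right, h3, h4,
      h2.symm u' u] at h1
    have : (2 : F) * f₂ u u' = 0 := by linear_combination h1
    exact (mul_eq_zero.1 this).resolve_left h2ne
  have hdual : ∀ i : Fin 2, ∃ w : Fin 4 → F, ∀ j : Fin 2,
      f₂ (b j : Fin 4 → F) w = if j = i then 1 else 0 := by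
    intro i
    obtain ⟨ψ, hψ⟩ := LinearMap.exists_extend (b.coord i)
    let r : Fin 4 → F := fun j => ψ (Pi.single j 1)
    have hψr : ∀ v : Fin 4 → F, ψ v = v ⬝ᵥ r := by
      intro v
      rw [LinearMap.pi_apply_eq_sum_univ ψ v]
      simp only [dotProduct, r, smul_eq_mul]
      refine Finset.sum_congr rfl fun j _ => ?_
      congr 2
      funext k
      simp [Pi.single_apply, eq_comm]
    refine ⟨G⁻¹ *ᵥ r, fun j => ?_⟩
    rw [hexp, Matrix.mulVec_mulVec, Matrix.mul_nonsing_inv _ (isUnit_iff_ne_zero.2 hdet),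
      Matrix.one_mulVec, ← hψr]
    have h5 : ψ (b j : Fin 4 → F) = (b.coord i) (b j) := by
      rw [← hψ]; rfl
    rw [h5, Module.Basis.coord_apply, Module.Basis.repr_self, Finsupp.single_apply]
  obtain ⟨w1', hw1'⟩ := hdual 0
  obtain ⟨w2', hw2'⟩ := hdual 1
  obtain ⟨u1, hu1⟩ : ∃ u1 : Fin 4 → F, u1 = (b 0 : Fin 4 → F) := ⟨_, rfl⟩
  obtain ⟨u2, hu2⟩ : ∃ u2 : Fin 4 → F, u2 = (b 1 : Fin 4 → F) := ⟨_, rfl⟩
  have hu1U : u1 ∈ U := hu1 ▸ (b 0).2
  have hu2U : u2 ∈ U := hu2 ▸ (b 1).2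
  have a11 : f₂ u1 w1' = 1 := by rw [hu1]; simpa using hw1' 0
  have a21 : f₂ u2 w1' = 0 := by rw [hu2]; simpa using hw1' 1
  have a12 : f₂ u1 w2' = 0 := by rw [hu1]; simpa using hw2' 0
  have a22 : f₂ u2 w2' = 1 := by rw [hu2]; simpa using hw2' 1
  have z11 : f₂ u1 u1 = 0 := hUU _ hu1U _ hu1U
  have z12 : f₂ u1 u2 = 0 := hUU _ hu1U _ hu2U
  have z21 : f₂ u2 u1 = 0 := hUU _ hu2U _ hu1U
  have z22 : f₂ u2 u2 = 0 := hUU _ hu2U _ hu2U
  have a11' : f₂ w1' u1 = 1 := by rw [h2.symm]; exact a11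
  have a21' : f₂ w1' u2 = 0 := by rw [h2.symm]; exact a21
  have a12' : f₂ w2' u1 = 0 := by rw [h2.symm]; exact a12
  have a22' : f₂ w2' u2 = 1 := by rw [h2.symm]; exact a22
  obtain ⟨w1, hw1⟩ : ∃ w1 : Fin 4 → F, w1 = w1' - (f₂ w1' w1' / 2) • u1 := ⟨_, rfl⟩
  have b11 : f₂ u1 w1 = 1 := by
    rw [hw1, hsub_r, hsmul_r, z11, a11]; ring
  have b21 : f₂ u2 w1 = 0 := by
    rw [hw1, hsub_r, hsmul_r, z21, a21]; ring
  have c11 : f₂ w1 w1 = 0 := by
    rw [hw1]
    simp only [hsub_l, hsub_r, hsmul_l, hsmul_r, z11, a11, a11']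
    field_simp
    ring
  have b11' : f₂ w1 u1 = 1 := by rw [h2.symm]; exact b11
  have b21' : f₂ w1 u2 = 0 := by rw [h2.symm]; exact b21
  obtain ⟨α, hα⟩ : ∃ α : F, α = f₂ w1 w2' := ⟨_, rfl⟩
  obtain ⟨w2, hw2⟩ : ∃ w2 : Fin 4 → F, w2 = w2' - α • u1 - (f₂ w2' w2' / 2) • u2 := ⟨_, rfl⟩
  have b12 : f₂ u1 w2 = 0 := by
    rw [hw2]
    simp only [hsub_r, hsmul_r, z11, z12, a12]
    ring
  have b22 : f₂ u2 w2 = 1 := by
    rw [hw2]
    simp only [hsub_r, hsmul_r, z21, z22, a22]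
    ring
  have c12 : f₂ w1 w2 = 0 := by
    rw [hw2]
    simp only [hsub_r, hsmul_r, b11', b21', ← hα]
    ring
  have c22 : f₂ w2 w2 = 0 := by
    rw [hw2]
    simp only [hsub_l, hsub_r, hsmul_l, hsmul_r, z11, z12, z21, z22, a12, a22, a12', a22']
    field_simp
    ring
  have b12' : f₂ w2 u1 = 0 := by rw [h2.symm]; exact b12
  have b22' : f₂ w2 u2 = 1 := by rw [h2.symm]; exact b22
  have c12' : f₂ w2 w1 = 0 := by rw [h2.symm]; exact c12
  let col : (Fin 2 → Fin 2) → Fin 4 → F := fun x =>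
    if x 0 = 0 then (if x 1 = 0 then u1 else u2) else (if x 1 = 0 then -w2 else w1)
  have key : ∀ x y : Fin 2 → Fin 2, f₂ (col x) (col y) =
      (J2 : Matrix (Fin 2) (Fin 2) F) (x 0) (y 0) * J2 (x 1) (y 1) := by
    intro x y
    simp only [col]
    generalize x 0 = a
    generalize x 1 = b'
    generalize y 0 = c
    generalize y 1 = d
    fin_cases a <;> fin_cases b' <;> fin_cases c <;> fin_cases d <;>
      simp [J2, hneg_l, hneg_r, z11, z12, z21, z22, b11, b21, b12, b22, b11', b21', b12', b22',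
        c11, c12, c12', c22]
  let S : Matrix (Fin 4) (Fin 2 → Fin 2) F := Matrix.of fun i x => col x i
  have hS : Sᵀ * G * S = (K22 : Matrix (Fin 2 → Fin 2) (Fin 2 → Fin 2) F) := by
    ext x y
    rw [K22_apply, ← key x y, hexp]
    simp only [Matrix.mul_apply, dotProduct, Matrix.mulVec, Matrix.transpose_apply, S,
      Matrix.of_apply, Finset.sum_mul, Finset.mul_sum]
    rw [Finset.sum_comm]
    refine Finset.sum_congr rfl fun i _ => Finset.sum_congr rfl fun j _ => by ring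
  have hSiS : ((K22 : Matrix (Fin 2 → Fin 2) (Fin 2 → Fin 2) F) * Sᵀ * G) * S =
      (1 : Matrix (Fin 2 → Fin 2) (Fin 2 → Fin 2) F) := by
    rw [Matrix.mul_assoc, Matrix.mul_assoc, ← Matrix.mul_assoc Sᵀ, hS, K22_mul_K22]
  refine ⟨S, K22 * Sᵀ * G, ?_, hSiS, hS⟩
  exact (Matrix.mul_eq_one_comm_of_equiv (Fintype.equivOfCardEq
    (by simp : Fintype.card (Fin 4) = Fintype.card (Fin 2 → Fin 2)))).2 hSiS

end Cfsg.Agent.Lib.Helper1.SP8EA1
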