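import Mathlib
import Cfsg.Prelude.Def_GeometricClasses
import Cfsg.Prelude.Def_LieClassical
import Cfsg.Agent.Lib.Helper71.Asch0
import Cfsg.Agent.Lib.Helper71.Asch8
import Cfsg.Agent.Lib.Helper94.TIFT1c
import Cfsg.Agent.Lib.Helper1.SP8EADefs

set_option autoImplicit false

namespace Cfsg.Agent.Lib.Helper1.SP8EA4b

open Matrix Cfsg.Geo Cfsg.Agent.Lib.Helper71.Asch Cfsg.Agent.Lib.Helper1.SP8EADefs
open scoped Kronecker

variable {n : ℕ} {F : Type*} [Field F] [Fintype F]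

theorem mul_perm_apply {m k : ℕ} (τ : Equiv.Perm (Fin k)) (M : Matrix (Fin k → Fin m) (Fin k → Fin m) F)
    (x z : Fin k → Fin m) :
    (M * (Matrix.of fun x y : Fin k → Fin m => if y = x ∘ τ then (1 : F) else 0)) x z =
      M x (z ∘ τ.symm) := by
  rw [Matrix.mul_apply, Finset.sum_eq_single (z ∘ τ.symm)]
  · have h0 : z = (z ∘ τ.symm) ∘ τ := by
      ext j; simp
    rw [Matrix.of_apply, if_pos h0, mul_one]
  · intro b _ hb
    have h0 : z ≠ b ∘ τ := by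
      rintro rfl
      apply hb
      ext j; simp
    rw [Matrix.of_apply, if_neg h0, mul_zero]
  · intro h; exact absurd (Finset.mem_univ _) h

theorem EA4b (A : GL (Fin 2) F) (U V : Matrix (Fin 2) (Fin 2) F) (hU : U.det ≠ 0) (hV : V.det ≠ 0)
    (M : Matrix (Fin 2 → Fin 2) (Fin 2 → Fin 2) F)
    (hM : M = pt ![U, V] ∨ M = pt ![U, V] * swapM) :
    ∃ g : GL (Fin 3 → Fin 2) F, g ∈ tensorWreathStandard 2 3 F ∧ g.1 = lift3 A.1 M := by
  classical
  set Ug : GL (Fin 2) F := Matrix.GeneralLinearGroup.mkOfDetNeZero U hU with hUg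
  set Vg : GL (Fin 2) F := Matrix.GeneralLinearGroup.mkOfDetNeZero V hV with hVg
  have hUg1 : Ug.1 = U := rfl
  have hVg1 : Vg.1 = V := rfl
  set gs : Fin 3 → GL (Fin 2) F := ![A, Ug, Vg] with hgs
  have h1 : pt (fun i => (gs i).1) * pt (fun i => ((gs i)⁻¹ : GL (Fin 2) F).1) = 1 := by
    rw [pt_mul]
    have : (fun i => (gs i).1 * ((gs i)⁻¹ : GL (Fin 2) F).1) = fun _ : Fin 3 => (1 : Matrix (Fin 2) (Fin 2) F) := by
      funext i
      rw [← Units.val_mul, mul_inv_cancel, Units.val_one]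
    rw [this, pt_one]
  have h2 : pt (fun i => ((gs i)⁻¹ : GL (Fin 2) F).1) * pt (fun i => (gs i).1) = 1 := by
    rw [pt_mul]
    have : (fun i => ((gs i)⁻¹ : GL (Fin 2) F).1 * (gs i).1) = fun _ : Fin 3 => (1 : Matrix (Fin 2) (Fin 2) F) := by
      funext i
      rw [← Units.val_mul, inv_mul_cancel, Units.val_one]
    rw [this, pt_one]
  let t : GL (Fin 3 → Fin 2) F := ⟨pt (fun i => (gs i).1), pt (fun i => ((gs i)⁻¹ : GL (Fin 2) F).1), h1, h2⟩
  have ht1 : t.1 = pt (fun i => (gs i).1) := rfl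
  have htp : IsPureTensor 2 3 t := ⟨gs, fun x y => rfl⟩
  have htmem : t ∈ tensorWreathStandard 2 3 F := Subgroup.subset_closure (Or.inl htp)
  have hpt : ∀ x y : Fin 3 → Fin 2, pt (fun i => (gs i).1) x y =
      A.1 (x 0) (y 0) * (U (x 1) (y 1) * V (x 2) (y 2)) := by
    intro x y
    rw [pt_apply, Fin.prod_univ_three]
    simp only [hgs, Matrix.cons_val_zero, Matrix.cons_val_one, Matrix.cons_val_two,
      Matrix.head_cons, Matrix.tail_cons, hUg1, hVg1]
    ring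
  have hpt2 : ∀ z w : Fin 2 → Fin 2, pt ![U, V] z w = U (z 0) (w 0) * V (z 1) (w 1) := by
    intro z w
    rw [pt_apply, Fin.prod_univ_two]
    simp
  rcases hM with rfl | rfl
  · refine ⟨t, htmem, ?_⟩
    rw [ht1]
    ext x y
    rw [hpt]
    simp only [lift3, Matrix.of_apply, hpt2]
    simp
  · obtain ⟨π, hπ1, hπp, -⟩ := Cfsg.Agent.Lib.Helper94.TIFT1c.T1c_perm_conj (F := F) (m := 2)
      (Equiv.swap (1 : Fin 3) 2)
    refine ⟨t * π, Subgroup.mul_mem _ htmem (Subgroup.subset_closure (Or.inr hπp)), ?_⟩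
    rw [Units.val_mul, ht1, hπ1]
    ext x y
    have e1 : (pt (fun i => (gs i).1) * (Cfsg.Agent.Lib.Helper94.TIFT1c.permM 2 (Equiv.swap (1 : Fin 3) 2) :
        Matrix (Fin 3 → Fin 2) (Fin 3 → Fin 2) F)) x y =
        pt (fun i => (gs i).1) x (y ∘ (Equiv.swap (1 : Fin 3) 2).symm) :=
      mul_perm_apply (Equiv.swap (1 : Fin 3) 2) _ x y
    rw [e1, hpt]
    have e2 : (pt ![U, V] * (swapM : Matrix (Fin 2 → Fin 2) (Fin 2 → Fin 2) F)) ![x 1, x 2] ![y 1, y 2] =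
        pt ![U, V] ![x 1, x 2] (![y 1, y 2] ∘ (Equiv.swap (0 : Fin 2) 1).symm) :=
      mul_perm_apply (Equiv.swap (0 : Fin 2) 1) _ _ _
    simp only [lift3, Matrix.of_apply]
    rw [e2, hpt2]
    simp [Equiv.swap_apply_def]

end Cfsg.Agent.Lib.Helper1.SP8EA4b
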