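import Mathlib
import Cfsg.Prelude.Def_GeometricClasses
import Cfsg.Prelude.Def_LieClassical
import Cfsg.Agent.Lib.Helper71.Asch0
import Cfsg.Agent.Lib.Helper71.Asch8
import Cfsg.Agent.Lib.Helper77.TIFT4
import Cfsg.Agent.Lib.Helper1.SP8EADefs
import Cfsg.Agent.Lib.Helper1.SP8EA1
import Cfsg.Agent.Lib.Helper82.SP8EA2
import Cfsg.Agent.Lib.Helper30.SP8EA3
import Cfsg.Agent.Lib.Helper29.SP8EA4a
import Cfsg.Agent.Lib.Helper1.SP8EA4b
import Cfsg.Agent.Lib.Helper39.SP8EA4c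

/-! Project SPG (helper71), S5823, sub-project SP8-EA (architect helper1): a tensor decomposition
`2 ⊗ 4` of a symplectic space whose orthogonal 4-dimensional factor is of plus type refines to the
tensor cube `2 ⊗ 2 ⊗ 2` (class C7).  Pieces: EA1 (Witt normal form, helper1; independent copy by
helper72), EA2 (similitudes of `J ⊗ J`, helper82; independent copy by helper71), EA3 (helper30),
EA4a (helper29), EA4b (helper1; independent copy by helper29), EA4c (helper39); final step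
`Helper77.TIFT4.T4`. -/

set_option autoImplicit false

namespace Cfsg.Agent.Lib.Helper1.SP8EA

open Matrix Cfsg.Geo Cfsg.Agent.Lib.Helper71.Asch Cfsg.Agent.Lib.Helper1.SP8EADefs
open Cfsg.Agent.Lib.Helper1.SP8EA1 (EA1)
open Cfsg.Agent.Lib.Helper82.SP8EA2 (EA2)
open Cfsg.Agent.Lib.Helper30.SP8EA3 (EA3)
open Cfsg.Agent.Lib.Helper29.SP8EA4a (EA4a)
open Cfsg.Agent.Lib.Helper1.SP8EA4b (EA4b)
open Cfsg.Agent.Lib.Helper39.SP8EA4c (EA4c)
open scoped Kronecker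

variable {n : ℕ} {F : Type*} [Field F] [Fintype F]

theorem two_ne_zero_of_odd (hq : Odd (Fintype.card F)) : (2 : F) ≠ 0 := by
  intro h
  have h1 : ringChar F = 2 := CharP.ringChar_of_prime_eq_zero Nat.prime_two (by exact_mod_cast h)
  have h2 := (FiniteField.even_card_iff_char_two (F := F)).1 h1
  rcases hq with ⟨k, hk⟩
  omega

theorem EA (hq : Odd (Fintype.card F)) (f : (Fin n → F) → (Fin n → F) → F)
    (hf : IsSymplecticForm f) (H : Subgroup (GL (Fin n) F)) (hfix : FixesForm (matrixSet H) f)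
    (e : Fin n ≃ Fin 2 × Fin 4) (P : GL (Fin n) F) (f₁ : (Fin 2 → F) → (Fin 2 → F) → F)
    (f₂ : (Fin 4 → F) → (Fin 4 → F) → F) (h1 : IsSymplecticForm f₁) (h2 : IsSymmetricForm f₂)
    (ht : IsTensorFormStructure id f f₁ f₂ e P) (hH : H ≤ tensorProductSubgroup 2 4 e P)
    (hplus : IsPlusTypeOn (fun v : Fin 4 → F => f₂ v v) ⊤) :
    ∃ (e' : Fin n ≃ (Fin 3 → Fin 2)) (P' : GL (Fin n) F) (f₁' : (Fin 2 → F) → (Fin 2 → F) → F),
      IsSymplecticForm f₁' ∧ IsTensorPowerFormStructure id f f₁' e' P' ∧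
      H ≤ tensorWreathSubgroup 2 3 e' P' := by
  classical
  have h2ne : (2 : F) ≠ 0 := two_ne_zero_of_odd hq
  obtain ⟨S, Si, hSSi, hSiS, hS⟩ := EA1 h2ne f₂ h2 hplus
  obtain ⟨c', hc', hform⟩ := EA4c f e P f₁ f₂ h1 h2 ht S hS
  obtain ⟨hPQ, hQP, htm⟩ := EA4a e P S Si hSSi hSiS
  have hdet : ∀ i : Fin 3, ((fun _ : Fin 3 => (J2 : Matrix (Fin 2) (Fin 2) F)) i).det ≠ 0 := by
    intro i
    simp [J2, Matrix.det_fin_two]
  have hskew : ∀ i : Fin 3, ((fun _ : Fin 3 => (J2 : Matrix (Fin 2) (Fin 2) F)) i)ᵀ =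
      -((fun _ : Fin 3 => (J2 : Matrix (Fin 2) (Fin 2) F)) i) := by
    intro i
    ext a b
    fin_cases a <;> fin_cases b <;> simp [J2]
  have hdiag : ∀ (i : Fin 3) (u : Fin 2), ((fun _ : Fin 3 => (J2 : Matrix (Fin 2) (Fin 2) F)) i) u u = 0 := by
    intro i u
    fin_cases u <;> simp [J2]
  have hconj : ∀ i j : Fin 3, ∃ (μ : F) (B : GL (Fin 2) F), μ ≠ 0 ∧
      B.1ᵀ * ((fun _ : Fin 3 => (J2 : Matrix (Fin 2) (Fin 2) F)) j) * B.1 =
        μ • ((fun _ : Fin 3 => (J2 : Matrix (Fin 2) (Fin 2) F)) i) := by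
    intro i j
    exact ⟨1, 1, one_ne_zero, by simp⟩
  refine Cfsg.Agent.Lib.Helper77.TIFT4.T4 f hf H (le_refl 2) (by norm_num) (P3 e P S) (Q3 e P Si)
    hPQ hQP c' hc' (fun _ : Fin 3 => (J2 : Matrix (Fin 2) (Fin 2) F)) hdet hskew hdiag hconj hform ?_
  intro h hh
  obtain ⟨A, B, hAB⟩ := (mem_tensorProductSubgroup_iff e P h).1 (hH hh)
  obtain ⟨μ, hμ, hB⟩ := EA3 f e P f₁ f₂ h1 h2 ht A B (by
    rw [← hAB]
    exact hfix h.1 ⟨h, hh, rfl⟩)
  have hsim : (Si * B.1 * S)ᵀ * K22 * (Si * B.1 * S) =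
      μ • (K22 : Matrix (Fin 2 → Fin 2) (Fin 2 → Fin 2) F) := by
    rw [← hS]
    have e1 : (Si * B.1 * S)ᵀ * (Sᵀ * gramMatrix f₂ * S) * (Si * B.1 * S)
        = Sᵀ * (B.1ᵀ * ((S * Si)ᵀ * gramMatrix f₂ * (S * Si)) * B.1) * S := by
      simp only [Matrix.transpose_mul, Matrix.mul_assoc]
    rw [e1, hSSi, Matrix.transpose_one, Matrix.one_mul, Matrix.mul_one, hB, Matrix.mul_smul,
      Matrix.smul_mul]
  obtain ⟨U, V, hU, hV, hM⟩ := EA2 h2ne (Si * B.1 * S) μ hμ hsim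
  obtain ⟨g, hg, hg1⟩ := EA4b A U V hU hV _ hM
  exact ⟨g, hg, by rw [hAB, hg1]; exact htm A.1 B.1⟩

end Cfsg.Agent.Lib.Helper1.SP8EA
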