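import Mathlib

/-! Project SPG (helper71, S5662), sub-project XT (helper1): the twisted powers of a matrix. -/

set_option autoImplicit false

namespace Cfsg.Agent.Lib.Helper1.SPGXT

variable {n : ℕ} {F : Type*} [Field F]

/-- Twisted powers of `B` along the ring endomorphism `σ` (applied entrywise):
`tw σ B 0 = 1`, `tw σ B (j + 1) = B * σ (tw σ B j)`; so `tw σ B j = B σ(B) ⋯ σ^(j-1)(B)`. -/
def tw (σ : F →+* F) (B : Matrix (Fin n) (Fin n) F) : ℕ → Matrix (Fin n) (Fin n) F
  | 0 => 1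
  | (j + 1) => B * (tw σ B j).map σ

theorem tw_zero (σ : F →+* F) (B : Matrix (Fin n) (Fin n) F) : tw σ B 0 = 1 := rfl

theorem tw_succ (σ : F →+* F) (B : Matrix (Fin n) (Fin n) F) (j : ℕ) :
    tw σ B (j + 1) = B * (tw σ B j).map σ := rfl

end Cfsg.Agent.Lib.Helper1.SPGXT
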