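import Mathlib
import Cfsg.Agent.Lib.Helper1.SPGXTDefs

/-! Project SPG (helper71, S5662), sub-project XT (helper1), piece XT-D2: Hilbert 90 for `GL_n`
over a finite field, in the form: a matrix `B` whose twisted norm along the Frobenius is `1` is
`D * σ(D)⁻¹`. -/

set_option autoImplicit false

namespace Cfsg.Agent.Lib.Helper1.SPGXTD2

open Matrix Cfsg.Agent.Lib.Helper1.SPGXT

variable {n : ℕ} {F : Type*} [Field F] [Fintype F]

/-- no proper power of the Frobenius is the identity -/
theorem pow_fix_lt (p e : ℕ) [Fact p.Prime] (hq : Fintype.card F = p ^ e) (m : ℕ) (hm0 : 0 < m)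
    (hme : m < e) (h : ∀ x : F, x ^ (p ^ m) = x) : False := by
  classical
  have hp : p.Prime := Fact.out
  obtain ⟨g, hg⟩ := IsCyclic.exists_generator (α := Fˣ)
  have hord : orderOf g = p ^ e - 1 := by
    rw [orderOf_eq_card_of_forall_mem_zpowers hg, Nat.card_eq_fintype_card, Fintype.card_units, hq]
  have h1 : g ^ (p ^ m) = g := Units.ext (by rw [Units.val_pow_eq_pow_val]; exact h g)
  have hpm : 1 ≤ p ^ m := Nat.one_le_pow _ _ hp.pos
  have h2 : g ^ (p ^ m - 1) = 1 := by
    have h3 : g ^ (p ^ m - 1) * g = 1 * g := by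
      rw [← pow_succ, Nat.sub_add_cancel hpm, h1, one_mul]
    exact mul_right_cancel h3
  have h3 : p ^ e - 1 ∣ p ^ m - 1 := by
    rw [← hord]
    exact orderOf_dvd_of_pow_eq_one h2
  have h4 : p ^ m < p ^ e := Nat.pow_lt_pow_right hp.one_lt hme
  have h5 : 1 < p ^ m := Nat.one_lt_pow (by omega) hp.one_lt
  have h6 := Nat.le_of_dvd (by omega) h3
  omega

/-- distinct powers of the Frobenius below `e` are distinct -/
theorem frob_inj (p e : ℕ) [Fact p.Prime] [CharP F p] (hq : Fintype.card F = p ^ e) (i j : ℕ)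
    (hi : i < e) (hj : j < e) (h : ∀ x : F, x ^ (p ^ i) = x ^ (p ^ j)) : i = j := by
  have key : ∀ i j : ℕ, i < j → j < e → (∀ x : F, x ^ (p ^ i) = x ^ (p ^ j)) → False := by
    intro i j hij hj h
    apply pow_fix_lt p e hq (j - i) (by omega) (by omega)
    intro x
    have h1 : (x ^ (p ^ (j - i))) ^ (p ^ i) = x ^ (p ^ i) := by
      rw [← pow_mul, ← pow_add, Nat.sub_add_cancel hij.le]
      exact (h x).symm
    have h2 : iterateFrobenius F p i (x ^ (p ^ (j - i))) = iterateFrobenius F p i x := by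
      rw [iterateFrobenius_def, iterateFrobenius_def]
      exact h1
    exact (iterateFrobenius F p i).injective h2
  rcases lt_trichotomy i j with h1 | h1 | h1
  · exact (key i j h1 hj h).elim
  · exact h1
  · exact (key j i h1 hi (fun x => (h x).symm)).elim

/-- PIECE XT-D2 -/
theorem XTD2 (hn : 1 ≤ n) (p e : ℕ) [Fact p.Prime] [CharP F p] (hq : Fintype.card F = p ^ e)
    (B : Matrix (Fin n) (Fin n) F) (hN : tw (frobenius F p) B e = 1) :
    ∃ D : Matrix (Fin n) (Fin n) F, IsUnit D ∧ B * D.map (frobenius F p) = D := by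
  classical
  have hp : p.Prime := Fact.out
  have he : 0 < e := by
    rcases Nat.eq_zero_or_pos e with h0 | h0
    · rw [h0, pow_zero] at hq
      have := Fintype.one_lt_card (α := F)
      omega
    · exact h0
  obtain ⟨σ, hσ⟩ : ∃ σ : F →+* F, σ = frobenius F p := ⟨_, rfl⟩
  rw [← hσ] at hN ⊢
  obtain ⟨τ, hτ⟩ : ∃ τ : ℕ → F →+* F, τ = fun j => iterateFrobenius F p j := ⟨_, rfl⟩
  have hτapp : ∀ j x, τ j x = x ^ (p ^ j) := by
    intro j x
    rw [hτ]
    exact iterateFrobenius_def p j x
  have hστ : ∀ j x, σ (τ j x) = τ (j + 1) x := by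
    intro j x
    rw [hτapp, hτapp, hσ, frobenius_def, ← pow_mul, ← pow_succ]
  have hτ0 : ∀ x, τ 0 x = x := by
    intro x
    rw [hτapp, pow_zero, pow_one]
  have hτe : ∀ x, τ e x = x := by
    intro x
    rw [hτapp, ← hq]
    exact FiniteField.pow_card x
  obtain ⟨N, hNdef⟩ : ∃ N : ℕ → Matrix (Fin n) (Fin n) F, N = tw σ B := ⟨_, rfl⟩
  have hN0 : N 0 = 1 := by rw [hNdef]; rfl
  have hNe : N e = 1 := by rw [hNdef]; exact hN
  have hNsucc : ∀ j, N (j + 1) = B * (N j).map σ := by
    intro j
    rw [hNdef]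
    rfl
  have hmapmap : ∀ (M : Matrix (Fin n) (Fin n) F) (j : ℕ),
      (M.map (τ j)).map σ = M.map (τ (j + 1)) := by
    intro M j
    ext a b
    rw [Matrix.map_apply, Matrix.map_apply, Matrix.map_apply]
    exact hστ j _
  have hmap0 : ∀ M : Matrix (Fin n) (Fin n) F, M.map (τ 0) = M := by
    intro M
    ext a b
    rw [Matrix.map_apply]
    exact hτ0 _
  have hmape : ∀ M : Matrix (Fin n) (Fin n) F, M.map (τ e) = M := by
    intro M
    ext a b
    rw [Matrix.map_apply]
    exact hτe _
  -- the operator on matrices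
  obtain ⟨Dm, hDm⟩ : ∃ Dm : Matrix (Fin n) (Fin n) F → Matrix (Fin n) (Fin n) F,
      Dm = fun M => ∑ j ∈ Finset.range e, N j * M.map (τ j) := ⟨_, rfl⟩
  have hDmapp : ∀ M, Dm M = ∑ j ∈ Finset.range e, N j * M.map (τ j) := by
    intro M
    rw [hDm]
  have key : ∀ M, B * (Dm M).map σ = Dm M := by
    intro M
    have h1 : (Dm M).map σ = ∑ j ∈ Finset.range e, (N j).map σ * M.map (τ (j + 1)) := by
      rw [hDmapp]
      have h0 : ∀ A : Matrix (Fin n) (Fin n) F, A.map σ = σ.mapMatrix A := fun A => rfl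
      rw [h0, map_sum]
      apply Finset.sum_congr rfl
      intro j _
      rw [map_mul, ← h0, ← h0, hmapmap]
    rw [h1, Finset.mul_sum]
    have h2 : ∀ j ∈ Finset.range e, B * ((N j).map σ * M.map (τ (j + 1))) =
        N (j + 1) * M.map (τ (j + 1)) := by
      intro j _
      rw [← Matrix.mul_assoc, ← hNsucc]
    rw [Finset.sum_congr rfl h2]
    have h3 := Finset.sum_range_succ' (fun j => N j * M.map (τ j)) e
    have h4 := Finset.sum_range_succ (fun j => N j * M.map (τ j)) e
    have hg0 : N 0 * M.map (τ 0) = M := by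
      rw [hmap0, hN0, Matrix.one_mul]
    have hge : N e * M.map (τ e) = M := by
      rw [hmape, hNe, Matrix.one_mul]
    simp only [hg0] at h3
    simp only [hge] at h4
    have h5 : ∑ j ∈ Finset.range e, N (j + 1) * M.map (τ (j + 1)) + M = Dm M + M := by
      rw [← h3, h4, hDmapp]
    exact add_right_cancel h5
  -- the vector operator
  obtain ⟨bv, hbv⟩ : ∃ bv : (Fin n → F) → (Fin n → F),
      bv = fun v => ∑ j ∈ Finset.range e, N j *ᵥ (fun i => τ j (v i)) := ⟨_, rfl⟩
  have hbvapp : ∀ v, bv v = ∑ j ∈ Finset.range e, N j *ᵥ (fun i => τ j (v i)) := by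
    intro v
    rw [hbv]
  have hcol : ∀ v : Fin n → Fin n → F,
      (Dm (Matrix.of (fun r i => v i r))).col = fun i => bv (v i) := by
    intro v
    funext i r
    rw [Matrix.col_apply, hDmapp, hbvapp, Matrix.sum_apply, Finset.sum_apply]
    apply Finset.sum_congr rfl
    intro j _
    rw [Matrix.mul_apply]
    rfl
  -- the vectors `bv v` span
  have hspan : Submodule.span F (Set.range bv) = ⊤ := by
    by_contra hne
    obtain ⟨φ, hφ0, hφ⟩ := Submodule.exists_le_ker_of_lt_top _ (lt_top_iff_ne_top.2 hne)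
    have hφb : ∀ v, φ (bv v) = 0 := fun v =>
      LinearMap.mem_ker.1 (hφ (Submodule.subset_span ⟨v, rfl⟩))
    apply hφ0
    have hsmul : ∀ (c : F) (v : Fin n → F),
        bv (c • v) = ∑ j ∈ Finset.range e, τ j c • (N j *ᵥ (fun i => τ j (v i))) := by
      intro c v
      rw [hbvapp]
      apply Finset.sum_congr rfl
      intro j _
      have h1 : (fun i => τ j ((c • v) i)) = τ j c • (fun i => τ j (v i)) := by
        funext i
        rw [Pi.smul_apply, Pi.smul_apply, smul_eq_mul, smul_eq_mul, map_mul]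
      rw [h1, Matrix.mulVec_smul]
    have hsum : ∀ (v : Fin n → F) (c : F),
        ∑ j ∈ Finset.range e, τ j c * φ (N j *ᵥ (fun i => τ j (v i))) = 0 := by
      intro v c
      have h1 := hφb (c • v)
      rw [hsmul, map_sum] at h1
      rw [← h1]
      apply Finset.sum_congr rfl
      intro j _
      rw [map_smul, smul_eq_mul]
    have hinj : Function.Injective (fun j : Fin e => ((τ j : F →+* F) : F →* F)) := by
      intro i j hij
      have h' : ∀ x : F, x ^ (p ^ (i : ℕ)) = x ^ (p ^ (j : ℕ)) := by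
        intro x
        have h1 := DFunLike.congr_fun hij x
        rw [← hτapp, ← hτapp]
        exact h1
      exact Fin.ext (frob_inj p e hq i j i.2 j.2 h')
    have hli := (linearIndependent_monoidHom F F).comp _ hinj
    apply LinearMap.ext
    intro v
    have hz := Fintype.linearIndependent_iff.1 hli
      (fun j : Fin e => φ (N j *ᵥ (fun i => τ j (v i)))) (by
        funext c
        have h1 := hsum v c
        rw [Finset.sum_range] at h1
        rw [Finset.sum_apply, Pi.zero_apply, ← h1]
        apply Finset.sum_congr rfl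
        intro j _
        rw [Pi.smul_apply, smul_eq_mul, mul_comm]
        rfl) ⟨0, he⟩
    have hz' : φ (N 0 *ᵥ (fun i => τ 0 (v i))) = 0 := hz
    have h2 : (fun i => τ 0 (v i)) = v := by
      funext i
      exact hτ0 _
    rw [h2, hN0, Matrix.one_mulVec] at hz'
    rw [hz', LinearMap.zero_apply]
  -- choose `n` vectors `v i` with `bv (v i)` linearly independent
  obtain ⟨g, hg1, -, hg3⟩ := Submodule.exists_fun_fin_finrank_span_eq F (Set.range bv)
  have hfr : Module.finrank F ↥(Submodule.span F (Set.range bv)) = n := by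
    rw [hspan, finrank_top, Module.finrank_fin_fun]
  choose v hv using hg1
  have hli : LinearIndependent F (fun i : Fin n => bv (v (finCongr hfr.symm i))) := by
    have h1 : (fun i : Fin n => bv (v (finCongr hfr.symm i))) = g ∘ (finCongr hfr.symm) := by
      funext i
      rw [Function.comp_apply, hv]
    rw [h1]
    exact hg3.comp _ (finCongr hfr.symm).injective
  refine ⟨Dm (Matrix.of (fun r i => v (finCongr hfr.symm i) r)), ?_, key _⟩
  rw [← Matrix.linearIndependent_cols_iff_isUnit, hcol (fun i => v (finCongr hfr.symm i))]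
  exact hli

end Cfsg.Agent.Lib.Helper1.SPGXTD2
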