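import Mathlib
import Cfsg.Prelude.Def_GeometricClasses
import Cfsg.Agent.Lib.Helper71.Asch5
import Cfsg.Agent.Lib.Helper1.SPGXTDefs
import Cfsg.Agent.Lib.Helper56.SPGXTA
import Cfsg.Agent.Lib.Helper60.SPGXTM1
import Cfsg.Agent.Lib.Helper21.SPGXTM2
import Cfsg.Agent.Lib.Helper67.SPGXTI
import Cfsg.Agent.Lib.Helper61.SPGXTD1
import Cfsg.Agent.Lib.Helper1.SPGXTD2

/-! Project SPG (helper71, S5662), sub-project XT (architect helper1): the symplectic-type branch
of the subgroup structure theorem for `Sp_{2m}(q)`.  Assembly of the pieces XT-A (helper56),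
XT-M1 (helper60), XT-M2 (helper21), XT-I (helper67), XT-D1 (helper61), XT-D2 (helper1). -/

set_option autoImplicit false

namespace Cfsg.Agent.Lib.Helper1.SPGXT

open Matrix Cfsg.Geo Cfsg.Agent.Lib.Helper71.Asch
open Cfsg.Agent.Lib.Helper56.SPGXTA (XTA)
open Cfsg.Agent.Lib.Helper60.SPGXTM1 (XTM1)
open Cfsg.Agent.Lib.Helper21.SPGXTM2 (XTM2)
open Cfsg.Agent.Lib.Helper67.SPGXTI (XTI)
open Cfsg.Agent.Lib.Helper61.SPGXTD1 (XTD1)
open Cfsg.Agent.Lib.Helper1.SPGXTD2 (XTD2)

variable {n : ℕ} {F : Type*} [Field F] [Fintype F]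

/-! ## Assembly (helper1) -/

omit [Fintype F] in
/-- D3: descent from a Frobenius intertwiner. -/
theorem XTD3 (L : Subgroup (GL (Fin n) F)) (p : ℕ) [Fact p.Prime] [CharP F p]
    (B D : Matrix (Fin n) (Fin n) F) (hD : IsUnit D)
    (hint : ∀ x ∈ L, x.1 * B = B * x.1.map (frobenius F p))
    (hBD : B * D.map (frobenius F p) = D) :
    RealisableOver (⊥ : Subfield F) (matrixSet L) := by
  classical
  set σ : F →+* F := frobenius F p with hσ
  obtain ⟨Du, hDu⟩ := hD
  refine ⟨Du⁻¹, ?_⟩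
  rintro _ ⟨x, hx, rfl⟩ i j
  show ((Du⁻¹ : GL (Fin n) F).1 * x.1 * (Du⁻¹⁻¹ : GL (Fin n) F).1) i j ∈ (⊥ : Subfield F)
  rw [Subfield.mem_bot_iff_pow_eq_self F p]
  -- the matrix `M = D⁻¹ x D` is fixed by `σ`
  obtain ⟨M, hM⟩ : ∃ M : Matrix (Fin n) (Fin n) F,
      M = (Du⁻¹ : GL (Fin n) F).1 * x.1 * (Du⁻¹⁻¹ : GL (Fin n) F).1 := ⟨_, rfl⟩
  rw [← hM]
  have hinv : (Du⁻¹ : GL (Fin n) F).1 * D = 1 := by
    rw [← hDu, ← Units.val_mul, inv_mul_cancel, Units.val_one]
  have hinv' : D * (Du⁻¹ : GL (Fin n) F).1 = 1 := by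
    rw [← hDu, ← Units.val_mul, mul_inv_cancel, Units.val_one]
  have hMD : M = (Du⁻¹ : GL (Fin n) F).1 * x.1 * D := by
    rw [hM, inv_inv, hDu]
  have hmapmul : ∀ A C : Matrix (Fin n) (Fin n) F, (A * C).map σ = A.map σ * C.map σ :=
    fun A C => Matrix.map_mul
  -- D * M = x * D
  have h1 : D * M = x.1 * D := by
    rw [hMD, ← Matrix.mul_assoc, ← Matrix.mul_assoc, hinv', Matrix.one_mul]
  have h2 : D.map σ * M.map σ = x.1.map σ * D.map σ := by
    rw [← hmapmul, ← hmapmul, h1]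
  have h3 : B * (D.map σ * M.map σ) = B * (D.map σ * M) := by
    calc B * (D.map σ * M.map σ) = B * (x.1.map σ * D.map σ) := by rw [h2]
      _ = (B * x.1.map σ) * D.map σ := by rw [Matrix.mul_assoc]
      _ = (x.1 * B) * D.map σ := by rw [hint x hx]
      _ = x.1 * (B * D.map σ) := by rw [Matrix.mul_assoc]
      _ = x.1 * D := by rw [hBD]
      _ = D * M := h1.symm
      _ = (B * D.map σ) * M := by rw [hBD]
      _ = B * (D.map σ * M) := by rw [Matrix.mul_assoc]
  -- cancel `B * σD = D`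
  have h4 : D * M.map σ = D * M := by
    calc D * M.map σ = (B * D.map σ) * M.map σ := by rw [hBD]
      _ = B * (D.map σ * M.map σ) := by rw [Matrix.mul_assoc]
      _ = B * (D.map σ * M) := h3
      _ = (B * D.map σ) * M := by rw [Matrix.mul_assoc]
      _ = D * M := by rw [hBD]
  have hMfix : M.map σ = M := by
    calc M.map σ = ((Du⁻¹ : GL (Fin n) F).1 * D) * M.map σ := by rw [hinv, Matrix.one_mul]
      _ = (Du⁻¹ : GL (Fin n) F).1 * (D * M) := by rw [Matrix.mul_assoc, h4]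
      _ = M := by rw [← Matrix.mul_assoc, hinv, Matrix.one_mul]
  have h5 := congrFun (congrFun hMfix i) j
  rw [Matrix.map_apply, hσ, frobenius_def] at h5
  exact h5

/-- XT (assembly, helper1). -/
theorem XT (hn : 4 ≤ n) (f : (Fin n → F) → (Fin n → F) → F) (hf : IsSymplecticForm f)
    (H L : Subgroup (GL (Fin n) F)) (hfix : FixesForm (matrixSet H) f) (h : SymT H L) :
    (∃ p k : ℕ, p.Prime ∧ Odd p ∧ Fintype.card F = p ∧ IsSymplecticTypeGroup 2 L ∧
      Nat.card L = 2 ^ (1 + 2 * k) ∧ Nat.card (Subgroup.center L) = 2 ∧ IsOfMinusType k L) ∨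
    (∃ F₀ : Subfield F, F₀ ≠ ⊤ ∧ RealisableOver F₀ (matrixSet L)) := by
  classical
  obtain ⟨h2, hn0, hZ, k, hk, hst, hcard, hcen⟩ := XTA hn f hf H L hfix h
  obtain ⟨p, hchar⟩ := CharP.exists F
  have := hchar
  have hp : p.Prime := (CharP.char_is_prime_or_zero F p).resolve_right
    (fun h0 => by
      subst h0
      have : CharZero F := CharP.charP_to_charZero F
      exact not_finite F)
  have : Fact p.Prime := ⟨hp⟩
  obtain ⟨e, -, hq⟩ := FiniteField.card F p
  by_cases hqp : Fintype.card F = p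
  · left
    refine ⟨p, k, hp, ?_, hqp, hst, hcard, hcen, ?_⟩
    · rcases hp.eq_two_or_odd' with h2' | hodd
      · exfalso
        apply h2
        have := CharP.cast_eq_zero F p
        rw [h2'] at this
        exact_mod_cast this
      · exact hodd
    · exact XTM2 hn f hf H L hfix h h2 hn0 hZ k hk
        (fun S hc hs hfS htr => XTM1 (by omega) f hf h2 hn0 S hc hs hfS htr)
  · right
    refine ⟨⊥, ?_, ?_⟩
    · intro hbot
      apply hqp
      have h1 : Nat.card (⊥ : Subfield F) = p := Subfield.card_bot F p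
      rw [hbot] at h1
      rw [← h1, Fintype.card_eq_nat_card]
      exact (Nat.card_congr (Subfield.topEquiv (K := F)).toEquiv).symm
    · -- the Frobenius as a ring automorphism
      have hbij : Function.Bijective (frobenius F p) :=
        Finite.injective_iff_bijective.1 (frobenius F p).injective
      obtain ⟨B, hB, hint⟩ := XTI hn f hf H L hfix h h2 hn0 hZ
        (RingEquiv.ofBijective (frobenius F p) hbij)
      have hint' : ∀ x ∈ L, x.1 * B = B * x.1.map (frobenius F p) := hint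
      obtain ⟨B₂, hB₂, hint₂, hN⟩ := XTD1 (by omega) L h.abs p e hq B hB hint'
      obtain ⟨D, hD, hBD⟩ := XTD2 (by omega) p e hq B₂ hN
      exact XTD3 L p B₂ D hD hint₂ hBD

end Cfsg.Agent.Lib.Helper1.SPGXT
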