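import Mathlib
import Cfsg.Prelude.Def_GeometricClasses
import Cfsg.Prelude.Def_LieClassical
import Cfsg.Agent.Lib.Helper71.Asch0
import Cfsg.Agent.Lib.Helper71.Asch5
import Cfsg.Agent.Lib.Helper71.AschMain
import Cfsg.Agent.Lib.Helper65.ASF
import Cfsg.Agent.Lib.Helper65.ASSN
import Cfsg.Agent.Lib.Helper63.SPPSY
import Cfsg.Agent.Lib.Helper51.SU8SKB
import Cfsg.Agent.Lib.Helper19.SUPU7

/-!
# Project SUG (S5663): the symplectic-type branch for unitary groups in any dimension

`XT3` (no form): for `SymT H L` in dimension `n ≥ 2`, `L` is realisable over a proper subfield, or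
has centre of order `2` (with the trace data), or is an `r`-group of symplectic type over the
minimal field for its centre, of order `r^(1+2k)` (`r` odd, centre `r`) or `2^(2+2k)` (centre `4`).
`XTU`: inside `GU_n(q)` the middle case also gives a proper subfield, and `e = 2` when `r = 2`.
Assembly of the landed linear engine (SA, SB, SC, SE, SF, SR, SG, SH, SLmain, SM, E4, ASSN,
sy_index, SKB, U7), following `Helper12.SU8U58.U58`.
-/

set_option autoImplicit false

namespace Cfsg.Agent.Lib.Helper1.SUGXT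

open Matrix Cfsg.Geo Cfsg.Agent.Lib.Helper71.Asch
open Cfsg.Agent.Lib.Helper82.ASSA (SA)
open Cfsg.Agent.Lib.Helper28.ASSB (SB)
open Cfsg.Agent.Lib.Helper66.ASSC (SC)
open Cfsg.Agent.Lib.Helper65.ASSE (SE)
open Cfsg.Agent.Lib.Helper12.ASSF (SF SR)
open Cfsg.Agent.Lib.Helper82.ASSG (SG SH)
open Cfsg.Agent.Lib.Helper75.ASSM (SM E4)
open Cfsg.Agent.Lib.Helper71.AschMain (SLmain)
open Cfsg.Agent.Lib.Helper63.SPPSY (sy_index)
open Cfsg.Agent.Lib.Helper51.SU8SKB (SKB)
open Cfsg.Agent.Lib.Helper19.SUPU7 (U7)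

variable {n : ℕ} {F : Type*} [Field F] [Fintype F] {q : ℕ}

/-- the dimension is a power of the prime `r` -/
theorem dim_pow (hn : 2 ≤ n) (H L : Subgroup (GL (Fin n) F)) (h : SymT H L) (r : ℕ)
    (hr : r.Prime) (hexp : ∀ x ∈ L, x ^ (r * Nat.gcd 2 r) = 1) :
    ∃ k : ℕ, 1 ≤ k ∧ n = r ^ k := by
  classical
  have : Fact r.Prime := ⟨hr⟩
  have hpG : IsPGroup r ↥L := Cfsg.Agent.Lib.Helper65.ASSN.isPGroup_L L r hr hexp
  obtain ⟨a, ha⟩ := IsPGroup.iff_card.1 hpG
  have hidx := sy_index (by omega) H L h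
  have hcard := Subgroup.card_eq_card_quotient_mul_card_subgroup
    ((scalars (Fin n) F).subgroupOf L)
  rw [hidx, ha] at hcard
  have hdvd : n ∣ r ^ a := Dvd.dvd.trans ⟨n, rfl⟩ ⟨_, hcard⟩
  obtain ⟨k, -, hk⟩ := (Nat.dvd_prime_pow hr).1 hdvd
  refine ⟨k, ?_, hk⟩
  by_contra hk0
  have hk0' : k = 0 := by omega
  rw [hk0', pow_zero] at hk
  omega

/-- XT3: the symplectic-type trichotomy in any dimension (no form). -/
theorem XT3 (hn : 2 ≤ n) (H L : Subgroup (GL (Fin n) F)) (h : SymT H L) :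
    (∃ F₁ : Subfield F, F₁ ≠ ⊤ ∧ RealisableOver F₁ (matrixSet L)) ∨
    (Nat.card ↥(L ⊓ scalars (Fin n) F) = 2 ∧ (2 : F) ≠ 0 ∧ (n : F) ≠ 0 ∧
      ∀ x ∈ L, x ∉ scalars (Fin n) F → Matrix.trace x.1 = 0) ∨
    (∃ r p e k : ℕ, IsSymplecticTypeGroup r L ∧ r ≠ p ∧
      IsMinimalFieldFor (Nat.card (Subgroup.center L)) p e F ∧
      ((Odd r ∧ Nat.card (Subgroup.center L) = r ∧ 1 ≤ k ∧ Nat.card L = r ^ (1 + 2 * k)) ∨
       (r = 2 ∧ Nat.card (Subgroup.center L) = 4 ∧ Nat.card L = 2 ^ (2 + 2 * k)))) := by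
  classical
  obtain ⟨r, hr, hx⟩ := SA H L h
  have hr0 := SB hn H L h r hr hx
  have hp := SC H L h r hr hx
  have hexp := SE hn H L h r hr hx hp
  have htr := SG H L h
  have hn0 := SH (by omega) L h.abs r hr hr0 hp
  obtain ⟨k, hk1, hnk⟩ := dim_pow hn H L h r hr hexp
  have : Fact r.Prime := ⟨hr⟩
  have hpG : IsPGroup r ↥L := Cfsg.Agent.Lib.Helper65.ASSN.isPGroup_L L r hr hexp
  have hcen := Cfsg.Agent.Lib.Helper65.ASSN.card_center H L h
  have hrp : ∀ p : ℕ, CharP F p → r ≠ p := by
    intro p hcp hrp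
    apply hr0
    rw [hrp]
    exact CharP.cast_eq_zero F p
  rcases SF hn H L h r hr hexp with ⟨hodd, hz⟩ | ⟨hr2, hz | hz⟩
  · -- `r` odd, centre of order `r`
    have hg : Nat.gcd 2 r = 1 := Nat.coprime_two_left.mpr hodd
    have hroot : ∃ ζ : F, IsPrimitiveRoot ζ r := by
      have h1 := SR (by omega) L
      rw [hz] at h1
      exact h1
    have hexpz : ∀ x ∈ L, x ^ r = 1 := by
      intro x hxL
      have h1 := hexp x hxL
      rw [hg, mul_one] at h1
      exact h1
    obtain ⟨hreal, hcard⟩ := SLmain (by omega) H L h r hr hx r hexpz hr0 hroot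
    rcases SM r hroot hr.pos with ⟨F₁, hF₁, hF₁z⟩ | ⟨p, e, hmin⟩
    · left
      exact ⟨F₁, hF₁, hreal F₁ hF₁z⟩
    · right
      right
      have hexpo : Monoid.exponent ↥L = r * Nat.gcd 2 r := by
        rw [hg, mul_one]
        have hdvd : Monoid.exponent ↥L ∣ r := by
          apply Monoid.exponent_dvd_of_forall_pow_eq_one
          intro x
          apply Subtype.ext
          exact hexpz x.1 x.2
        rcases (Nat.dvd_prime hr).1 hdvd with h1 | h1
        · exfalso
          rw [Monoid.exp_eq_one_iff] at h1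
          obtain ⟨x, hx', y, hy, hne⟩ := Cfsg.Agent.Lib.Helper65.ASF.not_abelian h
          apply hne
          have h2 : (⟨x, hx'⟩ : ↥L) = ⟨y, hy⟩ := Subsingleton.elim _ _
          have h3 : x = y := congrArg Subtype.val h2
          rw [h3]
        · exact h1
      have hsymp : IsSymplecticTypeGroup r L :=
        { prime := hr
          pGroup := hpG
          cyclic_of_characteristic := fun A hA hAc =>
            Cfsg.Agent.Lib.Helper65.ASSN.cyclic_of_char H L h A hA hAc
          exponent_eq := hexpo }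
      refine ⟨r, p, e, k, hsymp, hrp p hmin.2.1, ?_, Or.inl ⟨hodd, ?_, hk1, ?_⟩⟩
      · rw [hcen, hz]
        exact hmin
      · rw [hcen, hz]
      · rw [hcard, hz, hnk]
        ring
  · -- `r = 2`, centre of order `2`
    subst hr2
    right
    left
    have h2 : (2 : F) ≠ 0 := by exact_mod_cast hr0
    exact ⟨hz, h2, hn0, htr⟩
  · -- `r = 2`, centre of order `4`
    subst hr2
    have hz0 : ((4 : ℕ) : F) ≠ 0 := by
      have h2 : ((2 : ℕ) : F) ≠ 0 := hr0
      have h4 : ((4 : ℕ) : F) = ((2 : ℕ) : F) * ((2 : ℕ) : F) := by norm_num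
      rw [h4]
      exact mul_ne_zero h2 h2
    have hroot : ∃ ζ : F, IsPrimitiveRoot ζ 4 := by
      have h1 := SR (by omega) L
      rw [hz] at h1
      exact h1
    have h24 : 2 * Nat.gcd 2 2 = 4 := by norm_num
    have hexpz : ∀ x ∈ L, x ^ 4 = 1 := by
      intro x hxL
      have h1 := hexp x hxL
      rw [h24] at h1
      exact h1
    obtain ⟨hreal, hcard⟩ := SLmain (by omega) H L h 2 Nat.prime_two hx 4 hexpz hz0 hroot
    rcases SM 4 hroot (by norm_num) with ⟨F₁, hF₁, hF₁z⟩ | ⟨p, e, hmin⟩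
    · left
      exact ⟨F₁, hF₁, hreal F₁ hF₁z⟩
    · right
      right
      have hexpo : Monoid.exponent ↥L = 2 * Nat.gcd 2 2 := by
        have hdvd : Monoid.exponent ↥L ∣ 2 * Nat.gcd 2 2 := by
          apply Monoid.exponent_dvd_of_forall_pow_eq_one
          intro x
          apply Subtype.ext
          exact hexp x.1 x.2
        rw [h24] at hdvd ⊢
        have hne1 : Monoid.exponent ↥L ≠ 1 := by
          intro h1
          rw [Monoid.exp_eq_one_iff] at h1
          obtain ⟨x, hx', y, hy, hne⟩ := Cfsg.Agent.Lib.Helper65.ASF.not_abelian h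
          apply hne
          have h2 : (⟨x, hx'⟩ : ↥L) = ⟨y, hy⟩ := Subsingleton.elim _ _
          have h3 : x = y := congrArg Subtype.val h2
          rw [h3]
        have hne2 : Monoid.exponent ↥L ≠ 2 := by
          intro h2
          obtain ⟨x, hx', y, hy, hne⟩ := Cfsg.Agent.Lib.Helper65.ASF.not_abelian h
          apply hne
          have h3 := mul_comm_of_exponent_two h2 (⟨x, hx'⟩ : ↥L) ⟨y, hy⟩
          exact congrArg Subtype.val h3
        obtain ⟨j, hj, hj2⟩ := (Nat.dvd_prime_pow Nat.prime_two).1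
          (show Monoid.exponent ↥L ∣ 2 ^ 2 from hdvd)
        rw [hj2] at hne1 hne2 ⊢
        interval_cases j
        · exact absurd rfl hne1
        · exact absurd rfl hne2
        · norm_num
      have hsymp : IsSymplecticTypeGroup 2 L :=
        { prime := Nat.prime_two
          pGroup := hpG
          cyclic_of_characteristic := fun A hA hAc =>
            Cfsg.Agent.Lib.Helper65.ASSN.cyclic_of_char H L h A hA hAc
          exponent_eq := hexpo }
      refine ⟨2, p, e, k, hsymp, hrp p hmin.2.1, ?_, Or.inr ⟨rfl, ?_, ?_⟩⟩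
      · rw [hcen, hz]
        exact hmin
      · rw [hcen, hz]
      · rw [hcard, hz, hnk]
        ring

/-- XTU: the symplectic-type branch inside `GU_n(q)`: a proper subfield, or the class-6 data. -/
theorem XTU (hF : Fintype.card F = q ^ 2) (hn : 3 ≤ n) (H L : Subgroup (GL (Fin n) F))
    (hLGU : L ≤ Cfsg.GU n F q) (h : SymT H L) :
    (∃ F₁ : Subfield F, F₁ ≠ ⊤ ∧ RealisableOver F₁ (matrixSet L)) ∨
    (∃ r p e k : ℕ, IsSymplecticTypeGroup r L ∧ r ≠ p ∧
      IsMinimalFieldFor (Nat.card (Subgroup.center L)) p e F ∧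
      ((Odd r ∧ Nat.card (Subgroup.center L) = r ∧ 1 ≤ k ∧ Nat.card L = r ^ (1 + 2 * k)) ∨
       (r = 2 ∧ e = 2 ∧ Nat.card (Subgroup.center L) = 4 ∧ Nat.card L = 2 ^ (2 + 2 * k)))) := by
  classical
  rcases XT3 (by omega) H L h with hsub | ⟨hz, h2, hn0, htr⟩ | ⟨r, p, e, k, hst, hrp, hmin, hcase⟩
  · exact Or.inl hsub
  · left
    obtain ⟨f, hb, hnd, hfix⟩ := SKB hn H L h h2 hn0 htr hz
    exact U7 hF (by omega) L hLGU h.abs f hb hnd hfix
  · right
    rcases hcase with hodd | ⟨hr2, hc4, hcard⟩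
    · exact ⟨r, p, e, k, hst, hrp, hmin, Or.inl hodd⟩
    · refine ⟨r, p, e, k, hst, hrp, hmin, Or.inr ⟨hr2, ?_, hc4, hcard⟩⟩
      have hmin4 : IsMinimalFieldFor 4 p e F := by
        rw [hc4] at hmin
        exact hmin
      rcases E4 p e hmin4 with he | he
      · exfalso
        -- `q ^ 2 = p` is impossible for a prime `p`
        have hp : p.Prime := hmin4.1
        have hcard : Fintype.card F = p ^ e := hmin4.2.2.1
        rw [he, pow_one, hF] at hcard
        have hq : q ∣ p := ⟨q, by rw [← hcard]; ring⟩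
        rcases (Nat.dvd_prime hp).1 hq with h1 | h1
        · rw [h1] at hcard
          have h5 : p = 1 := by
            rw [← hcard]
            norm_num
          have := hp.one_lt
          omega
        · rw [h1] at hcard
          have h3 : p * p = p * 1 := by
            rw [mul_one, ← sq]
            exact hcard
          have h4 := Nat.eq_of_mul_eq_mul_left hp.pos h3
          have := hp.one_lt
          omega
      · exact he

end Cfsg.Agent.Lib.Helper1.SUGXT
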