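import Mathlib
import Cfsg.Agent.Lib.Helper48.SVA

/-! S2425 piece FLAGTR (job 2332, for helper48): `x`-stable flags of subspaces correspond to
flags of `F[X]`-submodules of `Nx x`. -/

set_option autoImplicit false

namespace Cfsg.Agent.Lib.Helper48.SV

open Cfsg
open scoped MatrixGroups Polynomial

section Flag

variable {F : Type*} [Field F] {n : ℕ}

theorem flagtr_lsmul (x : GL (Fin n) F) :
    Algebra.lsmul F F (Fin n → F) (phi x) = phi x := by
  apply LinearMap.ext
  intro v
  rfl

theorem flagtr_phi_inj (x : GL (Fin n) F) : Function.Injective (phi x) := by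
  intro v w h
  have hmul : ((x⁻¹ : GL (Fin n) F) : Matrix (Fin n) (Fin n) F) *
      (x : Matrix (Fin n) (Fin n) F) = 1 := by
    rw [← Units.val_mul, inv_mul_cancel, Units.val_one]
  have e : ∀ u : Fin n → F,
      Matrix.toLin' ((x⁻¹ : GL (Fin n) F) : Matrix (Fin n) (Fin n) F) (phi x u) = u := by
    intro u
    show Matrix.toLin' _ (Matrix.toLin' _ u) = u
    rw [← Matrix.toLin'_mul_apply, hmul, Matrix.toLin'_one]
    rfl
  rw [← e v, ← e w, h]

theorem flagtr_mem_inv (x : GL (Fin n) F) (p : Submodule F (Fin n → F)) :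
    p ∈ (Algebra.lsmul F F (Fin n → F) (phi x)).invtSubmodule ↔ p.map (phi x) ≤ p := by
  rw [Module.End.mem_invtSubmodule, flagtr_lsmul, Submodule.map_le_iff_le_comap]

theorem flagtr_map_eq (x : GL (Fin n) F) (p : Submodule F (Fin n → F))
    (h : p.map (phi x) ≤ p) : p.map (phi x) = p := by
  apply Submodule.eq_of_le_of_finrank_eq h
  exact (Submodule.equivMapOfInjective (phi x) (flagtr_phi_inj x) p).finrank_eq.symm

theorem flagtr_dim (x : GL (Fin n) F) (p : Submodule F (Fin n → F))
    (hp : p ∈ (Algebra.lsmul F F (Fin n → F) (phi x)).invtSubmodule) :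
    dimS (Module.AEval.mapSubmodule F (Fin n → F) (phi x) ⟨p, hp⟩) = Module.finrank F p := by
  unfold dimS
  exact (Module.AEval.equiv_mapSubmodule (phi x) p hp).finrank_eq.symm

theorem flagtr_dim_symm (x : GL (Fin n) F) (c : Submodule F[X] (Nx x)) :
    Module.finrank F
      (((Module.AEval.mapSubmodule F (Fin n → F) (phi x)).symm c : _) :
        Submodule F (Fin n → F)) = dimS c := by
  have h := flagtr_dim x _ ((Module.AEval.mapSubmodule F (Fin n → F) (phi x)).symm c).2
  rw [← h]
  congr 1
  exact (Module.AEval.mapSubmodule F (Fin n → F) (phi x)).apply_symm_apply c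

theorem flagtr_dim_bot (x : GL (Fin n) F) : dimS (⊥ : Submodule F[X] (Nx x)) = 0 := by
  unfold dimS
  exact Module.finrank_zero_of_subsingleton

/-- piece FLAGTR: `x`-stable flags of subspaces = flags of `F[X]`-submodules of `Nx x` -/
theorem card_flags_translate [Finite F] (x : GL (Fin n) F) (μ : Fin n → ℕ) (hμ : ∑ i, μ i = n) :
    Nat.card {W : Fin (n + 1) → Submodule F (Fin n → F) //
        (Monotone W ∧ ∀ i : Fin (n + 1), Module.finrank F (W i) = psum μ i.val) ∧
          (fun i => (W i).map (phi x)) = W} =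
      Nat.card {c : Fin (n + 1) → Submodule F[X] (Nx x) // c 0 = ⊥ ∧ c (Fin.last n) = ⊤ ∧
        ∀ i : Fin n, c i.castSucc ≤ c i.succ ∧ dimS (c i.succ) = dimS (c i.castSucc) + μ i} := by
  classical
  have hinvW : ∀ (W : Fin (n + 1) → Submodule F (Fin n → F)),
      (fun i => (W i).map (phi x)) = W → ∀ i,
      W i ∈ (Algebra.lsmul F F (Fin n → F) (phi x)).invtSubmodule := by
    intro W hW i
    rw [flagtr_mem_inv]
    exact (congrFun hW i).le
  apply Nat.card_congr
  refine
    { toFun := fun W => ⟨fun i => Module.AEval.mapSubmodule F (Fin n → F) (phi x)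
        ⟨W.1 i, hinvW W.1 W.2.2 i⟩, ?_, ?_, ?_⟩
      invFun := fun c => ⟨fun i =>
        ((Module.AEval.mapSubmodule F (Fin n → F) (phi x)).symm (c.1 i) : _), ⟨?_, ?_⟩, ?_⟩
      left_inv := ?_
      right_inv := ?_ }
  · -- c 0 = ⊥
    have h0 : W.1 0 = ⊥ := by
      have := W.2.1.2 0
      rw [Fin.val_zero, psum_zero] at this
      exact Submodule.finrank_eq_zero.1 this
    ext m
    rw [Module.AEval.mem_mapSubmodule_apply]
    simp [h0]
  · -- c last = ⊤
    have hl : W.1 (Fin.last n) = ⊤ := by
      have := W.2.1.2 (Fin.last n)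
      rw [Fin.val_last, psum_top, hμ] at this
      apply Submodule.eq_top_of_finrank_eq
      rw [this, Module.finrank_fin_fun]
    ext m
    rw [Module.AEval.mem_mapSubmodule_apply]
    simp [hl]
  · intro i
    refine ⟨?_, ?_⟩
    · apply (Module.AEval.mapSubmodule F (Fin n → F) (phi x)).monotone
      exact W.2.1.1 (Fin.castSucc_le_succ i) 
    · rw [flagtr_dim, flagtr_dim, W.2.1.2, W.2.1.2, Fin.val_succ, Fin.val_castSucc, psum_succ]
  · -- monotone
    rw [Fin.monotone_iff_le_succ]
    intro i
    exact (Module.AEval.mapSubmodule F (Fin n → F) (phi x)).symm.monotone (c.2.2.2 i).1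
  · -- finrank
    intro i
    rw [flagtr_dim_symm]
    induction i using Fin.induction with
    | zero => rw [c.2.1, flagtr_dim_bot, Fin.val_zero, psum_zero]
    | succ i ih => rw [(c.2.2.2 i).2, ih, Fin.val_succ, Fin.val_castSucc, psum_succ]
  · funext i
    apply flagtr_map_eq
    rw [← flagtr_mem_inv]
    exact ((Module.AEval.mapSubmodule F (Fin n → F) (phi x)).symm (c.1 i)).2
  · intro W
    apply Subtype.ext
    funext i
    exact congrArg Subtype.val
      ((Module.AEval.mapSubmodule F (Fin n → F) (phi x)).symm_apply_apply ⟨W.1 i, _⟩)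
  · intro c
    apply Subtype.ext
    funext i
    exact (Module.AEval.mapSubmodule F (Fin n → F) (phi x)).apply_symm_apply (c.1 i)

end Flag

end Cfsg.Agent.Lib.Helper48.SV
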