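import Cfsg.Agent.Lib.Helper96.SpBlock

/-!
Characteristic 2: an involutory isometry of a nondegenerate alternating space has invariant
nondegenerate subspaces of every even dimension `m` with `n % 4 = 2` or `m % 4 = 0`
(piece CH2-EX of S5956, for helper96).
-/

set_option autoImplicit false

namespace Cfsg.Agent.Lib.Helper1.SpCh2

open Module Cfsg.Agent.Lib.Helper96.Sp

section

variable {F : Type*} [Field F] {V : Type*} [AddCommGroup V] [Module F V]
  [FiniteDimensional F V] {B : LinearMap.BilinForm F V}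

omit [FiniteDimensional F V] in
theorem nd_pair (hA : B.IsAlt) (a b : V) (hab : B a b ≠ 0) :
    ND B (Submodule.span F {a, b}) ∧ finrank F (Submodule.span F ({a, b} : Set V)) = 2 := by
  constructor
  · intro x hx h
    obtain ⟨s, t, rfl⟩ := Submodule.mem_span_pair.mp hx
    have ha : a ∈ Submodule.span F ({a, b} : Set V) := Submodule.subset_span (by simp)
    have hb : b ∈ Submodule.span F ({a, b} : Set V) := Submodule.subset_span (by simp)
    have h1 := h a ha
    have h2 := h b hb
    rw [map_add, LinearMap.add_apply, map_smul, map_smul, LinearMap.smul_apply,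
      LinearMap.smul_apply, hA a, smul_zero, zero_add, smul_eq_mul, alt_swap hA b a,
      mul_neg, neg_eq_zero] at h1
    rw [map_add, LinearMap.add_apply, map_smul, map_smul, LinearMap.smul_apply,
      LinearMap.smul_apply, hA b, smul_zero, add_zero, smul_eq_mul] at h2
    rw [(mul_eq_zero.mp h1).resolve_right hab, (mul_eq_zero.mp h2).resolve_right hab, zero_smul,
      zero_smul, add_zero]
  · have hli : LinearIndependent F ![a, b] := by
      rw [LinearIndependent.pair_iff]
      intro s t hst
      have h1 : B (s • a + t • b) b = 0 := by rw [hst, map_zero, LinearMap.zero_apply]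
      have h2 : B a (s • a + t • b) = 0 := by rw [hst, map_zero]
      rw [map_add, LinearMap.add_apply, map_smul, map_smul, LinearMap.smul_apply,
        LinearMap.smul_apply, hA b, smul_zero, add_zero, smul_eq_mul] at h1
      rw [map_add, map_smul, map_smul, hA a, smul_zero, zero_add, smul_eq_mul] at h2
      exact ⟨(mul_eq_zero.mp h1).resolve_right hab, (mul_eq_zero.mp h2).resolve_right hab⟩
    have h3 : ({a, b} : Set V) = Set.range ![a, b] := by
      rw [Matrix.range_cons_cons_empty]
    rw [h3, finrank_span_eq_card hli]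
    simp

omit [FiniteDimensional F V] in
theorem orth_pair {a b c d : V} (h1 : B a c = 0) (h2 : B a d = 0) (h3 : B b c = 0)
    (h4 : B b d = 0) :
    Orth B (Submodule.span F {a, b}) (Submodule.span F {c, d}) := by
  intro x hx y hy
  obtain ⟨s, t, rfl⟩ := Submodule.mem_span_pair.mp hx
  obtain ⟨s', t', rfl⟩ := Submodule.mem_span_pair.mp hy
  simp only [map_add, map_smul, LinearMap.add_apply, LinearMap.smul_apply, h1, h2, h3, h4,
    smul_zero, add_zero]

omit [FiniteDimensional F V] in
theorem map_span_pair_le (u : Module.End F V) {a b : V} {P : Submodule F V} (ha : u a ∈ P)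
    (hb : u b ∈ P) : (Submodule.span F {a, b}).map u ≤ P := by
  rw [Submodule.map_span, Submodule.span_le]
  rintro _ ⟨x, hx, rfl⟩
  rcases hx with rfl | rfl
  · exact ha
  · exact hb

omit [FiniteDimensional F V] in
theorem span_pair_le {a b : V} {P : Submodule F V} (ha : a ∈ P) (hb : b ∈ P) :
    Submodule.span F {a, b} ≤ P := by
  rw [Submodule.span_le]
  rintro x (rfl | rfl)
  · exact ha
  · exact hb

/-- SPLIT2: an invariant nondegenerate nonzero subspace contains an invariant nondegenerate
subspace of dimension 2 or 4. -/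
theorem split2 [CharP F 2] (hA : B.IsAlt) (u : Module.End F V) (hu : Isom B u)
    (hsq : u * u = 1) (Z : Submodule F V) (hZ : Z.map u ≤ Z) (hZnd : ND B Z) (hZ0 : Z ≠ ⊥) :
    ∃ P : Submodule F V, P ≤ Z ∧ P.map u ≤ P ∧ ND B P ∧
      (finrank F P = 2 ∨ finrank F P = 4) := by
  have huu : ∀ x, u (u x) = x := fun x => by
    have h := LinearMap.congr_fun hsq x
    simpa using h
  have hux : ∀ x y, B (u x) y = B x (u y) := fun x y => by
    rw [← hu (u x) y, huu]
  have hZu : ∀ z ∈ Z, u z ∈ Z := fun z hz => hZ ⟨z, hz, rfl⟩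
  have h2 : (2 : F) = 0 := CharTwo.two_eq_zero
  by_cases hfix : ∀ z ∈ Z, u z = z
  · obtain ⟨P, hPZ, hP, hP2⟩ := exists_plane hA hZnd hZ0
    refine ⟨P, hPZ, ?_, hP, Or.inl hP2⟩
    rintro _ ⟨x, hx, rfl⟩
    rw [hfix x (hPZ hx)]
    exact hx
  · push Not at hfix
    by_cases hq : ∃ v ∈ Z, B v (u v) ≠ 0
    · obtain ⟨v, hv, hvq⟩ := hq
      refine ⟨Submodule.span F {v, u v}, span_pair_le hv (hZu _ hv), ?_,
        (nd_pair hA v (u v) hvq).1, Or.inl (nd_pair hA v (u v) hvq).2⟩
      apply map_span_pair_le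
      · exact Submodule.subset_span (by simp)
      · rw [huu]
        exact Submodule.subset_span (by simp)
    · push Not at hq
      obtain ⟨w₀, hw₀, hw₀ne⟩ := hfix
      have hNw : u w₀ - w₀ ∈ Z := Z.sub_mem (hZu _ hw₀) hw₀
      obtain ⟨v, hv, hc⟩ : ∃ v ∈ Z, B v (u w₀ - w₀) ≠ 0 := by
        by_contra hcon
        push Not at hcon
        have h0 : u w₀ - w₀ = 0 :=
          hZnd _ hNw (fun v hv => by rw [alt_swap hA, hcon v hv, neg_zero])
        exact hw₀ne (sub_eq_zero.mp h0)
      have hNN : ∀ a b, B (u a - a) (u b - b) = 0 := by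
        intro a b
        simp only [map_sub, LinearMap.sub_apply]
        rw [hu, hux a b]
        linear_combination (B a b - B a (u b)) * h2
      have hself : ∀ a ∈ Z, B a (u a - a) = 0 := by
        intro a ha
        rw [map_sub, hq a ha, hA a, sub_zero]
      have hanti : ∀ a b, B b (u a - a) = - B a (u b - b) := by
        intro a b
        rw [map_sub, map_sub, ← hux b a, alt_swap hA (u b) a, alt_swap hA b a]
        ring
      have huN : ∀ a, u (u a - a) = -(u a - a) := by
        intro a
        rw [map_sub, huu, neg_sub]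
      have hxx : ∀ x : V, x + x = 0 := fun x => by rw [← two_smul F x, h2, zero_smul]
      obtain ⟨w, hw, hvw, hww⟩ : ∃ w ∈ Z, B v w = 0 ∧ u w - w = u w₀ - w₀ := by
        refine ⟨w₀ + (-(B v w₀) / B v (u w₀ - w₀)) • (u w₀ - w₀),
          Z.add_mem hw₀ (Z.smul_mem _ hNw), ?_, ?_⟩
        · rw [map_add, map_smul, smul_eq_mul]
          field_simp
          ring
        · rw [map_add, map_smul, huN]
          have h5 := hxx ((-(B v w₀) / B v (u w₀ - w₀)) • (u w₀ - w₀))
          rw [smul_neg]
          linear_combination (norm := abel) (-1 : ℤ) • h5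
      have hc' : B v (u w - w) ≠ 0 := by rw [hww]; exact hc
      have hc'' : B w (u v - v) ≠ 0 := by
        rw [hanti v w]
        exact neg_ne_zero.mpr hc'
      have nd1 := nd_pair hA v (u w - w) hc'
      have nd2 := nd_pair hA w (u v - v) hc''
      have horth : Orth B (Submodule.span F {v, u w - w}) (Submodule.span F {w, u v - v}) := by
        apply orth_pair hvw (hself v hv)
        · rw [alt_swap hA, hself w hw, neg_zero]
        · exact hNN w v
      have hnd := nd_sup hA nd1.1 nd2.1 horth
      have m1 : v ∈ Submodule.span F {v, u w - w} ⊔ Submodule.span F {w, u v - v} :=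
        Submodule.mem_sup_left (Submodule.subset_span (by simp))
      have m2 : u w - w ∈ Submodule.span F {v, u w - w} ⊔ Submodule.span F {w, u v - v} :=
        Submodule.mem_sup_left (Submodule.subset_span (by simp))
      have m3 : w ∈ Submodule.span F {v, u w - w} ⊔ Submodule.span F {w, u v - v} :=
        Submodule.mem_sup_right (Submodule.subset_span (by simp))
      have m4 : u v - v ∈ Submodule.span F {v, u w - w} ⊔ Submodule.span F {w, u v - v} :=
        Submodule.mem_sup_right (Submodule.subset_span (by simp))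
      refine ⟨Submodule.span F {v, u w - w} ⊔ Submodule.span F {w, u v - v}, ?_, ?_, hnd.1,
        Or.inr ?_⟩
      · exact sup_le (span_pair_le hv (Z.sub_mem (hZu _ hw) hw))
          (span_pair_le hw (Z.sub_mem (hZu _ hv) hv))
      · rw [Submodule.map_sup]
        apply sup_le
        · apply map_span_pair_le
          · have h6 := Submodule.add_mem _ m1 m4
            rw [add_sub_cancel] at h6
            exact h6
          · rw [huN]
            exact Submodule.neg_mem _ m2
        · apply map_span_pair_le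
          · have h6 := Submodule.add_mem _ m3 m2
            rw [add_sub_cancel] at h6
            exact h6
          · rw [huN]
            exact Submodule.neg_mem _ m4
      · rw [hnd.2, nd1.2, nd2.2]

theorem exists_nd_inv_aux [CharP F 2] (hA : B.IsAlt) (hN : ND B ⊤) (u : Module.End F V)
    (hu : Isom B u) (hsq : u * u = 1) (n : ℕ) :
    ∀ Z : Submodule F V, Z.map u ≤ Z → ND B Z → finrank F Z = n →
      ∀ m : ℕ, Even m → m ≤ n → (n % 4 = 2 ∨ m % 4 = 0) →
        ∃ W : Submodule F V, W ≤ Z ∧ W.map u ≤ W ∧ ND B W ∧ finrank F W = m := by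
  induction n using Nat.strong_induction_on with
  | _ n ih =>
    intro Z hZ hZnd hZn m hme hmn h4
    by_cases hm0 : m = 0
    · refine ⟨⊥, bot_le, ?_, nd_bot, ?_⟩
      · rw [Submodule.map_bot]
      · rw [finrank_bot, hm0]
    by_cases hmn' : m = n
    · exact ⟨Z, le_rfl, hZ, hZnd, by rw [hZn, hmn']⟩
    have hZ0 : Z ≠ ⊥ := by
      rintro rfl
      rw [finrank_bot] at hZn
      omega
    obtain ⟨P, hPZ, hPu, hPnd, hP24⟩ := split2 hA u hu hsq Z hZ hZnd hZ0
    obtain ⟨hZ'nd, hsup, hfin⟩ := nd_rel hA hPnd hZnd hPZ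
    have hZ'u : (Z ⊓ B.orthogonal P).map u ≤ Z ⊓ B.orthogonal P := by
      refine le_trans (Submodule.map_inf_le _) (inf_le_inf hZ (perp_invariant hN hu hPu))
    have hne : Even n := by
      rw [← hZn]
      exact even_finrank_of_nd hA Z hZnd
    obtain ⟨n2, hn2⟩ := hne
    obtain ⟨m2, hm2⟩ := hme
    obtain ⟨p, hp⟩ : ∃ p : ℕ, finrank F P = p := ⟨_, rfl⟩
    rw [hp] at hP24 hfin
    have hlt : n - p < n := by
      rcases hP24 with h | h <;> omega
    have hZ'n : finrank F ↥(Z ⊓ B.orthogonal P) = n - p := by omega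
    have hdec : (m ≤ n - p ∧ ((n - p) % 4 = 2 ∨ m % 4 = 0)) ∨
        (p ≤ m ∧ ((n - p) % 4 = 2 ∨ (m - p) % 4 = 0)) := by
      have hpn : p ≤ n := by omega
      rcases hP24 with h | h <;> omega
    have key1 : m ≤ n - p → ((n - p) % 4 = 2 ∨ m % 4 = 0) →
        ∃ W : Submodule F V, W ≤ Z ∧ W.map u ≤ W ∧ ND B W ∧ finrank F W = m := by
      intro h1 h2
      obtain ⟨W, hWZ, hWu, hWnd, hWm⟩ := ih (n - p) hlt (Z ⊓ B.orthogonal P) hZ'u hZ'nd
        hZ'n m ⟨m2, hm2⟩ h1 h2
      exact ⟨W, le_trans hWZ inf_le_left, hWu, hWnd, hWm⟩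
    have key2 : p ≤ m → ((n - p) % 4 = 2 ∨ (m - p) % 4 = 0) →
        ∃ W : Submodule F V, W ≤ Z ∧ W.map u ≤ W ∧ ND B W ∧ finrank F W = m := by
      intro h1 h2
      have hev : Even (m - p) := by
        rcases hP24 with h | h <;> exact ⟨m2 - p / 2, by omega⟩
      have hle : m - p ≤ n - p := by omega
      obtain ⟨W, hWZ, hWu, hWnd, hWm⟩ := ih (n - p) hlt (Z ⊓ B.orthogonal P) hZ'u hZ'nd
        hZ'n (m - p) hev hle h2
      have horth : Orth B P W := by
        rw [orth_iff_le_perp]
        exact le_trans hWZ inf_le_right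
      have hnd := nd_sup hA hPnd hWnd horth
      refine ⟨P ⊔ W, sup_le hPZ (le_trans hWZ inf_le_left), ?_, hnd.1, ?_⟩
      · rw [Submodule.map_sup]
        exact sup_le_sup hPu hWu
      · rw [hnd.2, hWm, hp]
        omega
    rcases hdec with ⟨h1, h2⟩ | ⟨h1, h2⟩
    · exact key1 h1 h2
    · exact key2 h1 h2

end

/-- CH2-EX. -/
theorem exists_nd_inv_of_invol {F : Type*} [Field F] [CharP F 2] {V : Type*} [AddCommGroup V]
    [Module F V] [FiniteDimensional F V] {B : LinearMap.BilinForm F V} (hA : B.IsAlt)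
    (hN : ND B ⊤) (u : Module.End F V) (hu : Isom B u) (hsq : u * u = 1)
    (m : ℕ) (hme : Even m) (hm : m ≤ finrank F V) (h4 : finrank F V % 4 = 2 ∨ m % 4 = 0) :
    ∃ W : Submodule F V, W.map u ≤ W ∧ ND B W ∧ finrank F W = m := by
  obtain ⟨W, -, h1, h2, h3⟩ := exists_nd_inv_aux hA hN u hu hsq (finrank F V) ⊤ le_top hN
    (finrank_top F V) m hme hm h4
  exact ⟨W, h1, h2, h3⟩

end Cfsg.Agent.Lib.Helper1.SpCh2
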