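import Mathlib
import Cfsg.Agent.Lib.Helper25.StDefs
import Cfsg.Agent.Lib.Helper48.GLnG
import Cfsg.Agent.Lib.Helper68.CoxLR
import Cfsg.Agent.Lib.Helper1.DCPar

/-!
# Steinberg project, piece P8 "StNorm" (for helper25)

The alternating sum `stSum` of the permutation characters on the standard parabolic subgroups has
norm `1` as soon as the Weyl group has at most one element without right ascent.
-/

set_option autoImplicit false

namespace Cfsg.Agent.Lib.Helper25

open Cfsg Cfsg.Agent.Lib.Helper8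

theorem stnorm_sum_subsets (r : ℕ) (A : Finset ℕ) (hA : A ⊆ Finset.range r) :
    ∑ J ∈ (Finset.range r).powerset, (if J ⊆ A then (-1 : ℤ) ^ J.card else 0)
      = if A = ∅ then 1 else 0 := by
  classical
  rw [← Finset.sum_filter]
  have h : (Finset.range r).powerset.filter (fun J => J ⊆ A) = A.powerset := by
    ext J
    simp only [Finset.mem_filter, Finset.mem_powerset]
    exact ⟨fun h => h.2, fun h => ⟨h.trans hA, h⟩⟩
  rw [h, Finset.sum_powerset_neg_one_pow_card]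

theorem stnorm_key {Wt : Type*} [Fintype Wt] (r : ℕ) (AL AR : Wt → Finset ℕ)
    (hL : ∀ w, AL w ⊆ Finset.range r) (hR : ∀ w, AR w ⊆ Finset.range r) :
    ∑ J ∈ (Finset.range r).powerset, ∑ K ∈ (Finset.range r).powerset,
      (-1 : ℤ) ^ J.card * (-1 : ℤ) ^ K.card *
        (∑ w : Wt, if (J ⊆ AL w ∧ K ⊆ AR w) then (1 : ℤ) else 0)
    = ∑ w : Wt, if (AL w = ∅ ∧ AR w = ∅) then (1 : ℤ) else 0 := by
  classical
  have h1 : ∀ J K : Finset ℕ, (-1 : ℤ) ^ J.card * (-1 : ℤ) ^ K.card *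
        (∑ w : Wt, if (J ⊆ AL w ∧ K ⊆ AR w) then (1 : ℤ) else 0)
      = ∑ w : Wt, (if J ⊆ AL w then (-1 : ℤ) ^ J.card else 0) *
          (if K ⊆ AR w then (-1 : ℤ) ^ K.card else 0) := by
    intro J K
    rw [Finset.mul_sum]
    apply Finset.sum_congr rfl
    intro w _
    by_cases hJ : J ⊆ AL w <;> by_cases hK : K ⊆ AR w <;> simp [hJ, hK]
  calc ∑ J ∈ (Finset.range r).powerset, ∑ K ∈ (Finset.range r).powerset,
      (-1 : ℤ) ^ J.card * (-1 : ℤ) ^ K.card *
        (∑ w : Wt, if (J ⊆ AL w ∧ K ⊆ AR w) then (1 : ℤ) else 0)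
      = ∑ J ∈ (Finset.range r).powerset, ∑ K ∈ (Finset.range r).powerset, ∑ w : Wt,
          (if J ⊆ AL w then (-1 : ℤ) ^ J.card else 0) *
            (if K ⊆ AR w then (-1 : ℤ) ^ K.card else 0) := by
        apply Finset.sum_congr rfl
        intro J _
        apply Finset.sum_congr rfl
        intro K _
        exact h1 J K
    _ = ∑ J ∈ (Finset.range r).powerset, ∑ w : Wt, ∑ K ∈ (Finset.range r).powerset,
          (if J ⊆ AL w then (-1 : ℤ) ^ J.card else 0) *
            (if K ⊆ AR w then (-1 : ℤ) ^ K.card else 0) := by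
        apply Finset.sum_congr rfl
        intro J _
        exact Finset.sum_comm
    _ = ∑ w : Wt, ∑ J ∈ (Finset.range r).powerset, ∑ K ∈ (Finset.range r).powerset,
          (if J ⊆ AL w then (-1 : ℤ) ^ J.card else 0) *
            (if K ⊆ AR w then (-1 : ℤ) ^ K.card else 0) := Finset.sum_comm
    _ = ∑ w : Wt, (∑ J ∈ (Finset.range r).powerset, (if J ⊆ AL w then (-1 : ℤ) ^ J.card else 0)) *
          (∑ K ∈ (Finset.range r).powerset, (if K ⊆ AR w then (-1 : ℤ) ^ K.card else 0)) := by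
        apply Finset.sum_congr rfl
        intro w _
        rw [Finset.sum_mul_sum]
    _ = ∑ w : Wt, if (AL w = ∅ ∧ AR w = ∅) then (1 : ℤ) else 0 := by
        apply Finset.sum_congr rfl
        intro w _
        rw [stnorm_sum_subsets r _ (hL w), stnorm_sum_subsets r _ (hR w)]
        by_cases h1 : AL w = ∅ <;> by_cases h2 : AR w = ∅ <;> simp [h1, h2]

theorem stnorm_cast_card {α : Type*} [Fintype α] (p : α → Prop) [DecidablePred p] :
    ((Finset.univ.filter p).card : ℂ) = ((∑ w : α, if p w then (1 : ℤ) else 0 : ℤ) : ℂ) := by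
  rw [Finset.card_filter]
  push_cast
  rfl

variable {G : Type*} [Group G]

theorem stnorm_classInner_sum_sum [Fintype G] {ι : Type*} (s : Finset ι) (c : ι → ℤ)
    (φ : ι → G → ℂ) :
    classInner (fun g => ∑ i ∈ s, (c i : ℂ) * φ i g) (fun g => ∑ j ∈ s, (c j : ℂ) * φ j g) =
      ∑ i ∈ s, ∑ j ∈ s, (c i : ℂ) * (c j : ℂ) * classInner (φ i) (φ j) := by
  have h := Helper48.classInner_sum_sum (fun i : s => c i.1) (fun i : s => φ i.1)
    (fun i : s => c i.1) (fun i : s => φ i.1)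
  have e : (fun g => ∑ i ∈ s, (c i : ℂ) * φ i g) = (fun g => ∑ i : s, (c i.1 : ℂ) * φ i.1 g) := by
    funext g
    exact (Finset.sum_coe_sort s (fun i => (c i : ℂ) * φ i g)).symm
  rw [e, h]
  rw [← Finset.sum_coe_sort s (fun i => ∑ j ∈ s, (c i : ℂ) * (c j : ℂ) * classInner (φ i) (φ j))]
  apply Finset.sum_congr rfl
  intro i _
  exact (Finset.sum_coe_sort s (fun j => (c i.1 : ℂ) * (c j : ℂ) * classInner (φ i.1) (φ j)))

/-- the image in the Weyl group of the `i`-th distinguished generator -/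
noncomputable def stnorm_tau (P : BNPair G) (σ : ℕ → G) (i : ℕ) : W P := by
  classical
  exact if h : σ i ∈ P.S then cl P (sN P h) else 1

theorem stnorm_tau_eq (P : BNPair G) (σ : ℕ → G) {i : ℕ} (h : σ i ∈ P.S) :
    stnorm_tau P σ i = cl P (sN P h) := by
  unfold stnorm_tau
  exact dif_pos h

theorem stnorm_lmin_iff (P : BNPair G) (σ : ℕ → G) {J : Set ℕ} (hJ : ∀ i ∈ J, σ i ∈ P.S)
    (w : W P) :
    LMin (SW P) (SWJ P (σ '' J)) w ↔
      ∀ i ∈ J, len (SW P) w < len (SW P) (stnorm_tau P σ i * w) := by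
  constructor
  · intro h i hi
    rw [stnorm_tau_eq P σ (hJ i hi)]
    exact h _ (mem_SWJ P (hJ i hi) ⟨i, hi, rfl⟩)
  · rintro h s ⟨s0, hs0, ⟨i, hi, rfl⟩, rfl⟩
    have h' := h i hi
    rw [stnorm_tau_eq P σ hs0] at h'
    exact h'

theorem stnorm_rmin_iff (P : BNPair G) (σ : ℕ → G) {J : Set ℕ} (hJ : ∀ i ∈ J, σ i ∈ P.S)
    (w : W P) :
    RMin (SW P) (SWJ P (σ '' J)) w ↔
      ∀ i ∈ J, len (SW P) w < len (SW P) (w * stnorm_tau P σ i) := by
  constructor
  · intro h i hi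
    rw [stnorm_tau_eq P σ (hJ i hi)]
    exact h _ (mem_SWJ P (hJ i hi) ⟨i, hi, rfl⟩)
  · rintro h s ⟨s0, hs0, ⟨i, hi, rfl⟩, rfl⟩
    have h' := h i hi
    rw [stnorm_tau_eq P σ hs0] at h'
    exact h'

theorem stnorm_noLAsc_iff (P : BNPair G) (σ : ℕ → G) {R : Set ℕ} (hS : P.S = σ '' R) (w : W P) :
    NoLAsc (SW P) w ↔ ∀ i ∈ R, ¬ len (SW P) w < len (SW P) (stnorm_tau P σ i * w) := by
  have hR : ∀ i ∈ R, σ i ∈ P.S := fun i hi => by rw [hS]; exact ⟨i, hi, rfl⟩
  constructor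
  · intro h i hi
    rw [stnorm_tau_eq P σ (hR i hi)]
    exact h _ (mem_SW P (hR i hi))
  · rintro h s ⟨s0, hs0, rfl⟩
    have hs0' : s0 ∈ σ '' R := by rw [← hS]; exact hs0
    obtain ⟨i, hi, hi'⟩ := hs0'
    subst hi'
    have h' := h i hi
    rw [stnorm_tau_eq P σ hs0] at h'
    exact h'

theorem stnorm_noRAsc_iff (P : BNPair G) (σ : ℕ → G) {R : Set ℕ} (hS : P.S = σ '' R) (w : W P) :
    NoRAsc (SW P) w ↔ ∀ i ∈ R, ¬ len (SW P) w < len (SW P) (w * stnorm_tau P σ i) := by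
  have hR : ∀ i ∈ R, σ i ∈ P.S := fun i hi => by rw [hS]; exact ⟨i, hi, rfl⟩
  constructor
  · intro h i hi
    rw [stnorm_tau_eq P σ (hR i hi)]
    exact h _ (mem_SW P (hR i hi))
  · rintro h s ⟨s0, hs0, rfl⟩
    have hs0' : s0 ∈ σ '' R := by rw [← hS]; exact hs0
    obtain ⟨i, hi, hi'⟩ := hs0'
    subst hi'
    have h' := h i hi
    rw [stnorm_tau_eq P σ hs0] at h'
    exact h'

/-- PIECE P8 -/
theorem stSum_norm [Fintype G] (P : BNPair G) (σ : ℕ → G) (r : ℕ)
    (hσ : Set.InjOn σ (Finset.range r : Set ℕ)) (hS : P.S = σ '' (Finset.range r : Set ℕ))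
    (hU : ∀ w w' : W P, NoRAsc (SW P) w → NoRAsc (SW P) w' → w = w') :
    classInner (stSum P σ r) (stSum P σ r) = 1 := by
  classical
  haveI : Fintype (W P) := Fintype.ofFinite _
  set AL : W P → Finset ℕ := fun w =>
    (Finset.range r).filter (fun i => len (SW P) w < len (SW P) (stnorm_tau P σ i * w)) with hAL
  set AR : W P → Finset ℕ := fun w =>
    (Finset.range r).filter (fun i => len (SW P) w < len (SW P) (w * stnorm_tau P σ i)) with hAR
  have hmem : ∀ i ∈ Finset.range r, σ i ∈ P.S := fun i hi => by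
    rw [hS]; exact ⟨i, Finset.mem_coe.2 hi, rfl⟩
  have e1 : stSum P σ r = fun g => ∑ J ∈ (Finset.range r).powerset,
      (((-1 : ℤ) ^ J.card : ℤ) : ℂ) * fixedPointCharacter (P.parabolic (σ '' (↑J : Set ℕ))) g := by
    funext g
    unfold stSum
    apply Finset.sum_congr rfl
    intro J _
    push_cast
    rfl
  rw [e1, stnorm_classInner_sum_sum (Finset.range r).powerset (fun J => (-1 : ℤ) ^ J.card)
    (fun J => fixedPointCharacter (P.parabolic (σ '' (↑J : Set ℕ))))]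
  have e2 : ∀ J ∈ (Finset.range r).powerset, ∀ K ∈ (Finset.range r).powerset,
      classInner (fixedPointCharacter (P.parabolic (σ '' (↑J : Set ℕ))))
        (fixedPointCharacter (P.parabolic (σ '' (↑K : Set ℕ))))
      = ((∑ w : W P, if (J ⊆ AL w ∧ K ⊆ AR w) then (1 : ℤ) else 0 : ℤ) : ℂ) := by
    intro J hJ K hK
    have hi : ∀ k ∈ (↑J : Set ℕ), σ k ∈ P.S := fun k hk =>
      hmem k (Finset.mem_powerset.1 hJ (Finset.mem_coe.1 hk))
    have hj : ∀ k ∈ (↑K : Set ℕ), σ k ∈ P.S := fun k hk =>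
      hmem k (Finset.mem_powerset.1 hK (Finset.mem_coe.1 hk))
    have hiS : σ '' (↑J : Set ℕ) ⊆ P.S := by rintro _ ⟨k, hk, rfl⟩; exact hi k hk
    have hjS : σ '' (↑K : Set ℕ) ⊆ P.S := by rintro _ ⟨k, hk, rfl⟩; exact hj k hk
    have hiff : ∀ w : W P, (LMin (SW P) (SWJ P (σ '' (↑J : Set ℕ))) w ∧
        RMin (SW P) (SWJ P (σ '' (↑K : Set ℕ))) w) ↔ (J ⊆ AL w ∧ K ⊆ AR w) := by
      intro w
      rw [stnorm_lmin_iff P σ hi, stnorm_rmin_iff P σ hj]
      constructor
      · rintro ⟨h1, h2⟩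
        exact ⟨fun k hk => Finset.mem_filter.2
            ⟨Finset.mem_powerset.1 hJ hk, h1 k (Finset.mem_coe.2 hk)⟩,
          fun k hk => Finset.mem_filter.2
            ⟨Finset.mem_powerset.1 hK hk, h2 k (Finset.mem_coe.2 hk)⟩⟩
      · rintro ⟨h1, h2⟩
        exact ⟨fun k hk => (Finset.mem_filter.1 (h1 (Finset.mem_coe.1 hk))).2,
          fun k hk => (Finset.mem_filter.1 (h2 (Finset.mem_coe.1 hk))).2⟩
    have hcard : Nat.card {w : W P // LMin (SW P) (SWJ P (σ '' (↑J : Set ℕ))) w ∧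
        RMin (SW P) (SWJ P (σ '' (↑K : Set ℕ))) w}
        = (Finset.univ.filter (fun w : W P => J ⊆ AL w ∧ K ⊆ AR w)).card := by
      rw [Nat.card_eq_fintype_card, Fintype.card_subtype]
      congr 1
      ext w
      simp only [Finset.mem_filter, Finset.mem_univ, true_and]
      exact hiff w
    rw [Helper48.classInner_fixedPointCharacter, card_dc_parabolic P hiS hjS, hcard,
      stnorm_cast_card]
  have e3 := stnorm_key r AL AR (fun w => Finset.filter_subset _ _)
    (fun w => Finset.filter_subset _ _)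
  obtain ⟨w0, hw0L, hw0R⟩ := exists_noAsc (SW_exchGen P)
  have hALe : ∀ w : W P, AL w = ∅ ↔ NoLAsc (SW P) w := by
    intro w
    rw [stnorm_noLAsc_iff P σ hS w, hAL, Finset.filter_eq_empty_iff]
    exact ⟨fun h i hi => h (Finset.mem_coe.1 hi), fun h i hi => h i (Finset.mem_coe.2 hi)⟩
  have hARe : ∀ w : W P, AR w = ∅ ↔ NoRAsc (SW P) w := by
    intro w
    rw [stnorm_noRAsc_iff P σ hS w, hAR, Finset.filter_eq_empty_iff]
    exact ⟨fun h i hi => h (Finset.mem_coe.1 hi), fun h i hi => h i (Finset.mem_coe.2 hi)⟩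
  have huniq : ∀ w : W P, (AL w = ∅ ∧ AR w = ∅) ↔ w = w0 := by
    intro w
    constructor
    · rintro ⟨-, h2⟩
      exact hU w w0 ((hARe w).1 h2) hw0R
    · rintro rfl
      exact ⟨(hALe _).2 hw0L, (hARe _).2 hw0R⟩
  calc ∑ J ∈ (Finset.range r).powerset, ∑ K ∈ (Finset.range r).powerset,
        (((-1 : ℤ) ^ J.card : ℤ) : ℂ) * (((-1 : ℤ) ^ K.card : ℤ) : ℂ) *
          classInner (fixedPointCharacter (P.parabolic (σ '' (↑J : Set ℕ))))
            (fixedPointCharacter (P.parabolic (σ '' (↑K : Set ℕ))))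
      = ∑ J ∈ (Finset.range r).powerset, ∑ K ∈ (Finset.range r).powerset,
          (((-1 : ℤ) ^ J.card * (-1 : ℤ) ^ K.card *
            (∑ w : W P, if (J ⊆ AL w ∧ K ⊆ AR w) then (1 : ℤ) else 0) : ℤ) : ℂ) := by
        apply Finset.sum_congr rfl
        intro J hJ
        apply Finset.sum_congr rfl
        intro K hK
        rw [e2 J hJ K hK, Int.cast_mul, Int.cast_mul]
    _ = ((∑ J ∈ (Finset.range r).powerset, ∑ K ∈ (Finset.range r).powerset,
          ((-1 : ℤ) ^ J.card * (-1 : ℤ) ^ K.card *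
            (∑ w : W P, if (J ⊆ AL w ∧ K ⊆ AR w) then (1 : ℤ) else 0)) : ℤ) : ℂ) := by
        rw [Int.cast_sum]
        apply Finset.sum_congr rfl
        intro J _
        rw [Int.cast_sum]
    _ = ((∑ w : W P, if (AL w = ∅ ∧ AR w = ∅) then (1 : ℤ) else 0 : ℤ) : ℂ) := by rw [e3]
    _ = 1 := by
        have h5 : (∑ w : W P, if (AL w = ∅ ∧ AR w = ∅) then (1 : ℤ) else 0) = 1 := by
          have h6 : ∀ w : W P, (if (AL w = ∅ ∧ AR w = ∅) then (1 : ℤ) else 0)
              = if w = w0 then 1 else 0 := by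
            intro w
            by_cases h : w = w0
            · rw [if_pos h, if_pos ((huniq w).2 h)]
            · rw [if_neg h, if_neg (fun h' => h ((huniq w).1 h'))]
          rw [Finset.sum_congr rfl (fun w _ => h6 w), Finset.sum_ite_eq' Finset.univ w0]
          simp
        rw [h5, Int.cast_one]

end Cfsg.Agent.Lib.Helper25
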