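import Mathlib
import Cfsg.Agent.Lib.Helper91.SuU

/-!
# Piece ETN for S5172 (helper91): diagonal elements of `GU` normalize `U` (even unitary case)
-/

set_option autoImplicit false

namespace Cfsg.Agent.Lib.Helper1.SuETN

open Matrix Cfsg.Agent.Lib.Helper91.SpU Cfsg.Agent.Lib.Helper91.SuU

theorem mul_diag_apply {n : Type*} [Fintype n] [DecidableEq n] (K : Type*) [Field K]
    (A : Matrix n n K) (hA : ∀ i j : n, i ≠ j → A i j = 0) (X : Matrix n n K) (i j : n) :
    (X * A) i j = X i j * A j j := by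
  rw [Matrix.mul_apply]
  apply Finset.sum_eq_single j
  · intro k _ hk
    rw [hA k j hk, mul_zero]
  · intro h
    exact absurd (Finset.mem_univ j) h

theorem diag_mul_apply {n : Type*} [Fintype n] [DecidableEq n] (K : Type*) [Field K]
    (A : Matrix n n K) (hA : ∀ i j : n, i ≠ j → A i j = 0) (X : Matrix n n K) (i j : n) :
    (A * X) i j = A i i * X i j := by
  rw [Matrix.mul_apply]
  apply Finset.sum_eq_single i
  · intro k _ hk
    rw [hA i k (Ne.symm hk), zero_mul]
  · intro h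
    exact absurd (Finset.mem_univ i) h

theorem diag_ne_zero {n : Type*} [Fintype n] [DecidableEq n] (K : Type*) [Field K]
    (X Y : Matrix n n K) (hX : ∀ i j : n, i ≠ j → X i j = 0) (hYX : Y * X = 1) (j : n) :
    X j j ≠ 0 := by
  have h1 := congrFun (congrFun hYX j) j
  rw [mul_diag_apply K X hX, Matrix.one_apply_eq] at h1
  exact right_ne_zero_of_mul_eq_one h1

theorem inv_diag {n : Type*} [Fintype n] [DecidableEq n] (K : Type*) [Field K]
    (X Y : Matrix n n K) (hX : ∀ i j : n, i ≠ j → X i j = 0) (hYX : Y * X = 1) :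
    ∀ i j : n, i ≠ j → Y i j = 0 := by
  intro i j hij
  have h1 := congrFun (congrFun hYX i) j
  rw [mul_diag_apply K X hX, Matrix.one_apply_ne hij] at h1
  rcases mul_eq_zero.mp h1 with h | h
  · exact h
  · exact absurd h (diag_ne_zero K X Y hX hYX j)

theorem conj_entry {n : Type*} [Fintype n] [DecidableEq n] (K : Type*) [Field K]
    (X Y M : Matrix n n K) (hX : ∀ i j : n, i ≠ j → X i j = 0) (hYX : Y * X = 1) (a b : n) :
    (X * M * Y) a b * X b b = X a a * M a b := by
  rw [← mul_diag_apply K X hX, Matrix.mul_assoc (X * M), hYX, Matrix.mul_one,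
    diag_mul_apply K X hX]

theorem conj_inU (l : ℕ) (K : Type*) [Field K] (σ : K →+* K)
    (x : GU l K σ) (hx : ∀ a b : Fin l ⊕ Fin l, a ≠ b → mat l K σ x a b = 0)
    (u : GU l K σ) (hu : InU l K σ u) : InU l K σ (x * u * x⁻¹) := by
  have hYX : mat l K σ x⁻¹ * mat l K σ x = 1 := by
    rw [← mat_mul, inv_mul_cancel, mat_one]
  have hne := diag_ne_zero K (mat l K σ x) (mat l K σ x⁻¹) hx hYX
  have hent := conj_entry K (mat l K σ x) (mat l K σ x⁻¹) (mat l K σ u) hx hYX
  have hmat : mat l K σ (x * u * x⁻¹) = mat l K σ x * mat l K σ u * mat l K σ x⁻¹ := by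
    rw [mat_mul, mat_mul]
  obtain ⟨hu21, hut⟩ := hu
  refine ⟨?_, ?_, ?_⟩
  · ext i j
    have h1 := hent (Sum.inr i) (Sum.inl j)
    have h2 : mat l K σ u (Sum.inr i) (Sum.inl j) = 0 := congrFun (congrFun hu21 i) j
    rw [h2, mul_zero] at h1
    rw [hmat]
    rcases mul_eq_zero.mp h1 with h | h
    · exact h
    · exact absurd h (hne _)
  · intro i j hji
    have h1 := hent (Sum.inl i) (Sum.inl j)
    have h2 : mat l K σ u (Sum.inl i) (Sum.inl j) = 0 := hut.1 i j hji
    rw [h2, mul_zero] at h1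
    rw [hmat]
    rcases mul_eq_zero.mp h1 with h | h
    · exact h
    · exact absurd h (hne _)
  · intro i
    have h1 := hent (Sum.inl i) (Sum.inl i)
    have h2 : mat l K σ u (Sum.inl i) (Sum.inl i) = 1 := hut.2 i
    rw [h2, mul_one] at h1
    rw [hmat]
    have h3 : (mat l K σ x * mat l K σ u * mat l K σ x⁻¹) (Sum.inl i) (Sum.inl i) *
        mat l K σ x (Sum.inl i) (Sum.inl i) = 1 * mat l K σ x (Sum.inl i) (Sum.inl i) := by
      rw [h1, one_mul]
    exact mul_right_cancel₀ (hne _) h3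

/-- ETN. -/
theorem torus_normalizes (l : ℕ) (K : Type*) [Field K] (σ : K →+* K) (hσ : ∀ x, σ (σ x) = x)
    (U : Subgroup (GU l K σ)) (hU : ∀ g, g ∈ U ↔ InU l K σ g)
    (x : GU l K σ) (hx : ∀ a b : Fin l ⊕ Fin l, a ≠ b → mat l K σ x a b = 0) :
    x ∈ Subgroup.normalizer (U : Set (GU l K σ)) := by
  have hYX : mat l K σ x⁻¹ * mat l K σ x = 1 := by
    rw [← mat_mul, inv_mul_cancel, mat_one]
  rw [Subgroup.mem_normalizer_iff]
  intro h
  constructor
  · intro hh
    have hh' : h ∈ U := hh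
    show x * h * x⁻¹ ∈ U
    rw [hU] at hh' ⊢
    exact conj_inU l K σ x hx h hh'
  · intro hh
    have hh' : x * h * x⁻¹ ∈ U := hh
    show h ∈ U
    rw [hU] at hh' ⊢
    have h1 := conj_inU l K σ x⁻¹ (inv_diag K (mat l K σ x) (mat l K σ x⁻¹) hx hYX) _ hh'
    rw [inv_inv] at h1
    have e : x⁻¹ * (x * h * x⁻¹) * x = h := by group
    rw [e] at h1
    exact h1

end Cfsg.Agent.Lib.Helper1.SuETN
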