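import Mathlib

/-! S5980 piece TD2-TV (job 2344, for helper98): an explicit symplectic transvection. -/

set_option autoImplicit false

namespace Cfsg.Agent.Lib.Helper98.TD2

open Matrix Polynomial
open scoped Kronecker

universe u

theorem td2tv_pow {R : Type*} [Ring R] {F : Type*} [Field F] [Module F R]
    [IsScalarTower F R R] (N : R) (hNN : N * N = 0) (k : ℕ) :
    (1 + N) ^ k = 1 + (k : F) • N := by
  induction k with
  | zero => simp
  | succ k ih =>
    rw [pow_succ, ih, add_mul, mul_add, mul_add, mul_one, one_mul, mul_one, smul_mul_assoc, hNN, smul_zero,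
      add_zero, Nat.cast_succ, add_smul, one_smul]
    abel

/-! ### TD2-TV -/
theorem exists_sp_transv {F : Type*} [Field F] (p : ℕ) [Fact p.Prime] [CharP F p] (d : ℕ)
    (hd : 1 ≤ d) :
    ∃ M : Matrix (Fin d ⊕ Fin d) (Fin d ⊕ Fin d) F, M ∈ Matrix.symplecticGroup (Fin d) F ∧
      M ^ p = 1 ∧ (M - 1).rank ≤ 1 ∧
      ∀ z : F, M ≠ z • (1 : Matrix (Fin d ⊕ Fin d) (Fin d ⊕ Fin d) F) := by
  classical
  set i0 : Fin d := ⟨0, hd⟩ with hi0
  set E : Matrix (Fin d) (Fin d) F := Matrix.single i0 i0 1 with hE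
  set N : Matrix (Fin d ⊕ Fin d) (Fin d ⊕ Fin d) F := Matrix.fromBlocks 0 E 0 0 with hN
  have hET : Eᵀ = E := by
    rw [hE, Matrix.transpose_single]
  have hMN : Matrix.fromBlocks 1 E 0 1 = 1 + N := by
    rw [hN, ← Matrix.fromBlocks_one, Matrix.fromBlocks_add]
    simp
  have hNN : N * N = 0 := by
    rw [hN, Matrix.fromBlocks_multiply]
    simp
  refine ⟨Matrix.fromBlocks 1 E 0 1, ?_, ?_, ?_, ?_⟩
  · rw [SymplecticGroup.mem_iff, Matrix.J, Matrix.fromBlocks_transpose,
      Matrix.fromBlocks_multiply, Matrix.fromBlocks_multiply, hET]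
    simp
  · rw [hMN, td2tv_pow (F := F) N hNN p, CharP.cast_eq_zero F p, zero_smul, add_zero]
  · rw [hMN, add_sub_cancel_left]
    have hv : N = Matrix.vecMulVec (Sum.elim (Pi.single i0 (1 : F)) 0)
        (Sum.elim 0 (Pi.single i0 (1 : F))) := by
      ext (i | i) (j | j)
      · simp [hN, Matrix.vecMulVec_apply]
      · by_cases hi : i = i0 <;> by_cases hj : j = i0 <;>
          simp [hN, hE, Matrix.vecMulVec_apply, hi, hj, eq_comm]
      · simp [hN, Matrix.vecMulVec_apply]
      · simp [hN, Matrix.vecMulVec_apply]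
    rw [hv]
    exact Matrix.rank_vecMulVec_le _ _
  · intro z hz
    have h1 := congrFun (congrFun hz (Sum.inl i0)) (Sum.inr i0)
    simp [hE] at h1

end Cfsg.Agent.Lib.Helper98.TD2
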