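import Mathlib
import Cfsg.Agent.Lib.Helper44.UDDefs
import Cfsg.Agent.Lib.Helper44.UDDefs2

/-!
# S5655 (helper44), piece DHOM: the block homomorphism from the stabiliser of `F c0` to `GU_N`
-/

set_option autoImplicit false
set_option linter.unusedSectionVars false

namespace Cfsg.Agent.Lib.Helper44.UD

open Matrix Cfsg.Agent.Lib.Helper93 Cfsg.Agent.Lib.Helper18 Cfsg.Agent.Lib.Helper7

section
variable {F : Type*} [Field F] [Fintype F] {q : ℕ}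

/-- the lower right `N × N` block -/
def uddhom_blk {N : ℕ} (M : Matrix (Fin (N + 2)) (Fin (N + 2)) F) : Matrix (Fin N) (Fin N) F :=
  Matrix.of fun i j => M i.succ.succ j.succ.succ

theorem uddhom_blk_apply {N : ℕ} (M : Matrix (Fin (N + 2)) (Fin (N + 2)) F) (i j : Fin N) :
    uddhom_blk M i j = M i.succ.succ j.succ.succ := rfl

theorem uddhom_sum {N : ℕ} (f : Fin (N + 2) → F) :
    ∑ s, f s = f 0 + f 1 + ∑ i : Fin N, f i.succ.succ := by
  rw [Fin.sum_univ_succ, Fin.sum_univ_succ, ← add_assoc]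
  rfl

theorem uddhom_c0_0 (N : ℕ) : (c0 N : Fin (N + 2) → F) 0 = 1 := by
  simp [c0]

theorem uddhom_c0_1 (N : ℕ) : (c0 N : Fin (N + 2) → F) 1 = 1 := by
  simp [c0]

theorem uddhom_c0_succ (N : ℕ) (i : Fin N) : (c0 N : Fin (N + 2) → F) i.succ.succ = 0 := by
  have h1 : i.succ.succ ≠ (0 : Fin (N + 2)) := Fin.succ_ne_zero _
  have h2 : i.succ.succ ≠ (1 : Fin (N + 2)) := by
    intro h
    have h3 := congrArg Fin.val h
    simp at h3
  simp [c0, Pi.single_eq_of_ne h1, Pi.single_eq_of_ne h2]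

theorem uddhom_mulVec_c0 {N : ℕ} (M : Matrix (Fin (N + 2)) (Fin (N + 2)) F) (r : Fin (N + 2)) :
    (M *ᵥ c0 N) r = M r 0 + M r 1 := by
  show ∑ s, M r s * c0 N s = _
  rw [uddhom_sum, uddhom_c0_0, uddhom_c0_1]
  simp [uddhom_c0_succ]

theorem uddhom_rows (h2 : (2 : F) = 0) {N : ℕ} (M : Matrix (Fin (N + 2)) (Fin (N + 2)) F)
    (hM : ∃ κ : F, M *ᵥ c0 N = κ • c0 N) (i : Fin N) : M i.succ.succ 0 = M i.succ.succ 1 := by
  obtain ⟨κ, hκ⟩ := hM
  have h := congrFun hκ i.succ.succ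
  rw [uddhom_mulVec_c0, Pi.smul_apply, uddhom_c0_succ, smul_zero] at h
  linear_combination h - M i.succ.succ 1 * h2

theorem uddhom_herm {N : ℕ} (u v : Fin (N + 2) → F) :
    Cfsg.hermForm (N + 2) F q u v
      = u 0 * v 0 ^ q + u 1 * v 1 ^ q + ∑ i : Fin N, u i.succ.succ * v i.succ.succ ^ q := by
  unfold Cfsg.hermForm
  exact uddhom_sum (fun s => u s * v s ^ q)

theorem uddhom_kappa_ne {N : ℕ} (g : GL (Fin (N + 2)) F) {κ : F}
    (hκ : (g : Matrix (Fin (N + 2)) (Fin (N + 2)) F) *ᵥ c0 N = κ • c0 N) : κ ≠ 0 := by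
  intro h0
  rw [h0, zero_smul] at hκ
  have h1 : ((g⁻¹ : GL (Fin (N + 2)) F) : Matrix (Fin (N + 2)) (Fin (N + 2)) F) *ᵥ
      ((g : Matrix (Fin (N + 2)) (Fin (N + 2)) F) *ᵥ c0 N) = c0 N := by
    rw [Matrix.mulVec_mulVec, ← Units.val_mul, inv_mul_cancel, Units.val_one, Matrix.one_mulVec]
  rw [hκ, Matrix.mulVec_zero] at h1
  have h2 := congrFun h1 0
  rw [uddhom_c0_0] at h2
  exact zero_ne_one h2

theorem uddhom_mulVec_single {N : ℕ} (M : Matrix (Fin (N + 2)) (Fin (N + 2)) F)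
    (c r : Fin (N + 2)) : (M *ᵥ Pi.single c 1) r = M r c := by
  simp [Matrix.mulVec, dotProduct, Pi.single_apply]

theorem uddhom_cols (hF : Fintype.card F = q ^ 2) (h2 : (2 : F) = 0) {N : ℕ}
    (g : GL (Fin (N + 2)) F) (hg : g ∈ Cfsg.GU (N + 2) F q)
    (hM : ∃ κ : F, (g : Matrix (Fin (N + 2)) (Fin (N + 2)) F) *ᵥ c0 N = κ • c0 N) (j : Fin N) :
    (g : Matrix (Fin (N + 2)) (Fin (N + 2)) F) 0 j.succ.succ
      = (g : Matrix (Fin (N + 2)) (Fin (N + 2)) F) 1 j.succ.succ := by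
  obtain ⟨κ, hκ⟩ := hM
  have hκ0 := uddhom_kappa_ne g hκ
  have hq0 : q ≠ 0 := herm_q_ne_zero hF
  have h1 := (mem_GU_iff g).1 hg (Pi.single j.succ.succ 1) (c0 N)
  rw [hκ, hf_smul_right, hf_single_left, uddhom_c0_succ, zero_pow hq0] at h1
  have h3 : Cfsg.hermForm (N + 2) F q
      ((g : Matrix (Fin (N + 2)) (Fin (N + 2)) F) *ᵥ Pi.single j.succ.succ 1) (c0 N) = 0 := by
    rcases mul_eq_zero.1 h1 with h | h
    · exact absurd ((pow_eq_zero_iff hq0).1 h) hκ0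
    · exact h
  rw [uddhom_herm, uddhom_c0_0, uddhom_c0_1, one_pow, mul_one, mul_one] at h3
  have h4 : ∑ i : Fin N, ((g : Matrix (Fin (N + 2)) (Fin (N + 2)) F) *ᵥ
      Pi.single j.succ.succ 1) i.succ.succ * (c0 N : Fin (N + 2) → F) i.succ.succ ^ q = 0 := by
    apply Finset.sum_eq_zero
    intro i _
    rw [uddhom_c0_succ, zero_pow hq0, mul_zero]
  rw [h4, add_zero, uddhom_mulVec_single, uddhom_mulVec_single] at h3
  linear_combination h3 - (g : Matrix (Fin (N + 2)) (Fin (N + 2)) F) 1 j.succ.succ * h2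

theorem uddhom_blk_mul (h2 : (2 : F) = 0) {N : ℕ} (M M' : Matrix (Fin (N + 2)) (Fin (N + 2)) F)
    (hr : ∀ i : Fin N, M i.succ.succ 0 = M i.succ.succ 1)
    (hc : ∀ j : Fin N, M' 0 j.succ.succ = M' 1 j.succ.succ) :
    uddhom_blk (M * M') = uddhom_blk M * uddhom_blk M' := by
  ext i j
  rw [uddhom_blk_apply, Matrix.mul_apply, Matrix.mul_apply, uddhom_sum, hr i, hc j]
  simp only [uddhom_blk_apply]
  linear_combination (M i.succ.succ 1 * M' 1 j.succ.succ) * h2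

theorem uddhom_blk_one {N : ℕ} : uddhom_blk (1 : Matrix (Fin (N + 2)) (Fin (N + 2)) F) = 1 := by
  ext i j
  rw [uddhom_blk_apply, Matrix.one_apply, Matrix.one_apply]
  simp [Fin.succ_inj]

/-- extension of a vector by two zero coordinates -/
def uddhom_ext {N : ℕ} (x : Fin N → F) : Fin (N + 2) → F := Fin.cons 0 (Fin.cons 0 x)

theorem uddhom_ext_0 {N : ℕ} (x : Fin N → F) : uddhom_ext x 0 = 0 := rfl

theorem uddhom_ext_1 {N : ℕ} (x : Fin N → F) : uddhom_ext x 1 = 0 := rfl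

theorem uddhom_ext_succ {N : ℕ} (x : Fin N → F) (i : Fin N) : uddhom_ext x i.succ.succ = x i := rfl

theorem uddhom_mulVec_ext {N : ℕ} (M : Matrix (Fin (N + 2)) (Fin (N + 2)) F) (x : Fin N → F)
    (r : Fin (N + 2)) : (M *ᵥ uddhom_ext x) r = ∑ k : Fin N, M r k.succ.succ * x k := by
  show ∑ s, M r s * uddhom_ext x s = _
  rw [uddhom_sum, uddhom_ext_0, uddhom_ext_1, mul_zero, mul_zero, zero_add, zero_add]
  apply Finset.sum_congr rfl
  intro k _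
  rw [uddhom_ext_succ]

theorem uddhom_blk_pres (h2 : (2 : F) = 0) {N : ℕ} (g : GL (Fin (N + 2)) F)
    (hg : g ∈ Cfsg.GU (N + 2) F q)
    (hc : ∀ j : Fin N, (g : Matrix (Fin (N + 2)) (Fin (N + 2)) F) 0 j.succ.succ
      = (g : Matrix (Fin (N + 2)) (Fin (N + 2)) F) 1 j.succ.succ) (x y : Fin N → F) :
    Cfsg.hermForm N F q (uddhom_blk (g : Matrix (Fin (N + 2)) (Fin (N + 2)) F) *ᵥ x)
      (uddhom_blk (g : Matrix (Fin (N + 2)) (Fin (N + 2)) F) *ᵥ y) = Cfsg.hermForm N F q x y := by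
  have h1 := (mem_GU_iff g).1 hg (uddhom_ext x) (uddhom_ext y)
  rw [uddhom_herm, uddhom_herm] at h1
  have e0 : ∀ z : Fin N → F,
      ((g : Matrix (Fin (N + 2)) (Fin (N + 2)) F) *ᵥ uddhom_ext z) 0
        = ((g : Matrix (Fin (N + 2)) (Fin (N + 2)) F) *ᵥ uddhom_ext z) 1 := by
    intro z
    rw [uddhom_mulVec_ext, uddhom_mulVec_ext]
    apply Finset.sum_congr rfl
    intro k _
    rw [hc k]
  have e2 : ∀ (z : Fin N → F) (i : Fin N),
      ((g : Matrix (Fin (N + 2)) (Fin (N + 2)) F) *ᵥ uddhom_ext z) i.succ.succ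
        = (uddhom_blk (g : Matrix (Fin (N + 2)) (Fin (N + 2)) F) *ᵥ z) i := by
    intro z i
    rw [uddhom_mulVec_ext]
    rfl
  rw [e0 x, e0 y] at h1
  simp only [e2, uddhom_ext_0, uddhom_ext_1, uddhom_ext_succ, zero_mul, zero_add] at h1
  unfold Cfsg.hermForm
  linear_combination h1 - (((g : Matrix (Fin (N + 2)) (Fin (N + 2)) F) *ᵥ uddhom_ext x) 1 *
    ((g : Matrix (Fin (N + 2)) (Fin (N + 2)) F) *ᵥ uddhom_ext y) 1 ^ q) * h2

end

theorem ud_dhom {F : Type*} [Field F] [Fintype F] (q : ℕ) : DHom2Stmt F q := by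
  intro hF h2 N X hX
  have hinv : ∀ g : GL (Fin (N + 2)) F,
      (∃ κ : F, (g : Matrix (Fin (N + 2)) (Fin (N + 2)) F) *ᵥ c0 N = κ • c0 N) →
      ∃ κ : F, ((g⁻¹ : GL (Fin (N + 2)) F) : Matrix (Fin (N + 2)) (Fin (N + 2)) F) *ᵥ c0 N
        = κ • c0 N := by
    rintro g ⟨κ, hκ⟩
    have hκ0 := uddhom_kappa_ne g hκ
    refine ⟨κ⁻¹, ?_⟩
    have h1 : ((g⁻¹ : GL (Fin (N + 2)) F) : Matrix (Fin (N + 2)) (Fin (N + 2)) F) *ᵥ
        ((g : Matrix (Fin (N + 2)) (Fin (N + 2)) F) *ᵥ c0 N) = c0 N := by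
      rw [Matrix.mulVec_mulVec, ← Units.val_mul, inv_mul_cancel, Units.val_one, Matrix.one_mulVec]
    rw [hκ, Matrix.mulVec_smul] at h1
    calc ((g⁻¹ : GL (Fin (N + 2)) F) : Matrix (Fin (N + 2)) (Fin (N + 2)) F) *ᵥ c0 N
        = κ⁻¹ • (κ • (((g⁻¹ : GL (Fin (N + 2)) F) : Matrix (Fin (N + 2)) (Fin (N + 2)) F) *ᵥ
            c0 N)) := by rw [smul_smul, inv_mul_cancel₀ hκ0, one_smul]
      _ = κ⁻¹ • c0 N := by rw [h1]
  have hmul : ∀ g g' : GL (Fin (N + 2)) F,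
      (∃ κ : F, (g : Matrix (Fin (N + 2)) (Fin (N + 2)) F) *ᵥ c0 N = κ • c0 N) →
      (∃ κ : F, (g' : Matrix (Fin (N + 2)) (Fin (N + 2)) F) *ᵥ c0 N = κ • c0 N) →
      ∃ κ : F, ((g * g' : GL (Fin (N + 2)) F) : Matrix (Fin (N + 2)) (Fin (N + 2)) F) *ᵥ c0 N
        = κ • c0 N := by
    rintro g g' ⟨κ, hκ⟩ ⟨κ', hκ'⟩
    refine ⟨κ' * κ, ?_⟩
    rw [Units.val_mul, ← Matrix.mulVec_mulVec, hκ', Matrix.mulVec_smul, hκ, smul_smul]
  have hblk_mul : ∀ g g' : GL (Fin (N + 2)) F, g ∈ X → g' ∈ X →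
      (∃ κ : F, (g : Matrix (Fin (N + 2)) (Fin (N + 2)) F) *ᵥ c0 N = κ • c0 N) →
      (∃ κ : F, (g' : Matrix (Fin (N + 2)) (Fin (N + 2)) F) *ᵥ c0 N = κ • c0 N) →
      uddhom_blk ((g * g' : GL (Fin (N + 2)) F) : Matrix (Fin (N + 2)) (Fin (N + 2)) F)
        = uddhom_blk (g : Matrix (Fin (N + 2)) (Fin (N + 2)) F) *
          uddhom_blk (g' : Matrix (Fin (N + 2)) (Fin (N + 2)) F) := by
    intro g g' hg hg' hs hs'
    rw [Units.val_mul]
    exact uddhom_blk_mul h2 _ _ (uddhom_rows h2 _ hs) (uddhom_cols hF h2 g' (hX hg') hs')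
  have hblk_inv : ∀ g : GL (Fin (N + 2)) F, g ∈ X →
      (∃ κ : F, (g : Matrix (Fin (N + 2)) (Fin (N + 2)) F) *ᵥ c0 N = κ • c0 N) →
      uddhom_blk (g : Matrix (Fin (N + 2)) (Fin (N + 2)) F) *
        uddhom_blk ((g⁻¹ : GL (Fin (N + 2)) F) : Matrix (Fin (N + 2)) (Fin (N + 2)) F) = 1 ∧
      uddhom_blk ((g⁻¹ : GL (Fin (N + 2)) F) : Matrix (Fin (N + 2)) (Fin (N + 2)) F) *
        uddhom_blk (g : Matrix (Fin (N + 2)) (Fin (N + 2)) F) = 1 := by
    intro g hg hs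
    constructor
    · rw [← hblk_mul g g⁻¹ hg (X.inv_mem hg) hs (hinv g hs), mul_inv_cancel, Units.val_one,
        uddhom_blk_one]
    · rw [← hblk_mul g⁻¹ g (X.inv_mem hg) hg (hinv g hs) hs, inv_mul_cancel, Units.val_one,
        uddhom_blk_one]
  refine ⟨{ carrier := {A | ∃ g ∈ X,
                (∃ κ : F, (g : Matrix (Fin (N + 2)) (Fin (N + 2)) F) *ᵥ c0 N = κ • c0 N) ∧
                ∀ i j : Fin N, (A : Matrix (Fin N) (Fin N) F) i j =
                  (g : Matrix (Fin (N + 2)) (Fin (N + 2)) F) i.succ.succ j.succ.succ}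
            mul_mem' := ?_
            one_mem' := ?_
            inv_mem' := ?_ }, ?_, ?_, ?_⟩
  · rintro A A' ⟨g, hg, hs, hA⟩ ⟨g', hg', hs', hA'⟩
    refine ⟨g * g', X.mul_mem hg hg', hmul g g' hs hs', ?_⟩
    intro i j
    have h1 := congrFun (congrFun (hblk_mul g g' hg hg' hs hs') i) j
    rw [uddhom_blk_apply] at h1
    rw [h1, Units.val_mul, Matrix.mul_apply, Matrix.mul_apply]
    apply Finset.sum_congr rfl
    intro k _
    rw [hA i k, hA' k j]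
    rfl
  · refine ⟨1, X.one_mem, ⟨1, ?_⟩, ?_⟩
    · rw [Units.val_one, Matrix.one_mulVec, one_smul]
    · intro i j
      have h1 := congrFun (congrFun (uddhom_blk_one (F := F) (N := N)) i) j
      rw [uddhom_blk_apply] at h1
      rw [Units.val_one, Units.val_one, h1]
  · rintro A ⟨g, hg, hs, hA⟩
    refine ⟨g⁻¹, X.inv_mem hg, hinv g hs, ?_⟩
    have hAe : (A : Matrix (Fin N) (Fin N) F)
        = uddhom_blk (g : Matrix (Fin (N + 2)) (Fin (N + 2)) F) := by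
      ext i j
      exact hA i j
    have h1 : (A : Matrix (Fin N) (Fin N) F) *
        uddhom_blk ((g⁻¹ : GL (Fin (N + 2)) F) : Matrix (Fin (N + 2)) (Fin (N + 2)) F) = 1 := by
      rw [hAe]
      exact (hblk_inv g hg hs).1
    have h3 : ((A⁻¹ : GL (Fin N) F) : Matrix (Fin N) (Fin N) F)
        = uddhom_blk ((g⁻¹ : GL (Fin (N + 2)) F) : Matrix (Fin (N + 2)) (Fin (N + 2)) F) :=
      Units.inv_eq_of_mul_eq_one_right h1
    intro i j
    rw [h3]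
    rfl
  · rintro A ⟨g, hg, hs, hA⟩
    have hAe : (A : Matrix (Fin N) (Fin N) F)
        = uddhom_blk (g : Matrix (Fin (N + 2)) (Fin (N + 2)) F) := by
      ext i j
      exact hA i j
    rw [mem_GU_iff]
    intro u v
    rw [hAe]
    exact uddhom_blk_pres h2 g (hX hg) (uddhom_cols hF h2 g (hX hg) hs) u v
  · intro A
    exact Iff.rfl
  · intro g hg hs
    obtain ⟨h1, h1'⟩ := hblk_inv g hg hs
    exact ⟨⟨uddhom_blk (g : Matrix (Fin (N + 2)) (Fin (N + 2)) F),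
      uddhom_blk ((g⁻¹ : GL (Fin (N + 2)) F) : Matrix (Fin (N + 2)) (Fin (N + 2)) F), h1, h1'⟩,
      fun i j => rfl⟩

end Cfsg.Agent.Lib.Helper44.UD
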