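import Mathlib
import Cfsg.Agent.Lib.Helper44.UDDefs

/-!
# S5655 (helper44), piece TRICK: a finite-field pigeonhole
-/

set_option autoImplicit false

namespace Cfsg.Agent.Lib.Helper44.UD

open Matrix Cfsg.Agent.Lib.Helper93 Cfsg.Agent.Lib.Helper18 Cfsg.Agent.Lib.Helper7

private theorem udtrick_card_fix {F : Type*} [Field F] [Fintype F] [DecidableEq F] (q : ℕ)
    (hq : 1 < q) : (Finset.univ.filter (fun c : F => c ^ q = c)).card ≤ q := by
  have hne : (Polynomial.X ^ q - Polynomial.X : Polynomial F) ≠ 0 :=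
    FiniteField.X_pow_card_sub_X_ne_zero F hq
  have hsub : Finset.univ.filter (fun c : F => c ^ q = c) ⊆
      (Polynomial.X ^ q - Polynomial.X : Polynomial F).roots.toFinset := by
    intro c hc
    rw [Finset.mem_filter] at hc
    rw [Multiset.mem_toFinset, Polynomial.mem_roots hne, Polynomial.IsRoot.def]
    simp [hc.2]
  calc (Finset.univ.filter (fun c : F => c ^ q = c)).card
      ≤ (Polynomial.X ^ q - Polynomial.X : Polynomial F).roots.toFinset.card :=
        Finset.card_le_card hsub
    _ ≤ Multiset.card (Polynomial.X ^ q - Polynomial.X : Polynomial F).roots :=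
        Multiset.toFinset_card_le _
    _ ≤ (Polynomial.X ^ q - Polynomial.X : Polynomial F).natDegree := Polynomial.card_roots' _
    _ = q := FiniteField.X_pow_card_sub_X_natDegree_eq F hq

private theorem udtrick_fiber {F : Type*} [Field F] [Fintype F] [DecidableEq F] (q : ℕ) (γ : F)
    (hγ : γ ≠ 0) (c : F) :
    ((Finset.univ.filter (fun t : F => t ^ (q + 1) = 1)).filter
      (fun t => t * γ + (t * γ) ^ q = c)).card ≤ 2 := by
  by_contra hcon
  rw [not_le, Finset.two_lt_card] at hcon
  obtain ⟨a, ha, b, hb, d, hd, hab, had, hbd⟩ := hcon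
  have key : ∀ t ∈ ((Finset.univ.filter (fun t : F => t ^ (q + 1) = 1)).filter
      (fun t => t * γ + (t * γ) ^ q = c)), γ * t ^ 2 - c * t + γ ^ q = 0 := by
    intro t ht
    rw [Finset.mem_filter, Finset.mem_filter] at ht
    obtain ⟨⟨-, ht1⟩, ht2⟩ := ht
    rw [mul_pow] at ht2
    rw [pow_succ] at ht1
    linear_combination t * ht2 - γ ^ q * ht1
  have ka := key a ha
  have kb := key b hb
  have kd := key d hd
  have h1 : (a - b) * (γ * (a + b) - c) = 0 := by linear_combination ka - kb
  have h2 : (a - d) * (γ * (a + d) - c) = 0 := by linear_combination ka - kd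
  have h1' : γ * (a + b) - c = 0 := by
    rcases mul_eq_zero.1 h1 with h | h
    · exact absurd (sub_eq_zero.1 h) hab
    · exact h
  have h2' : γ * (a + d) - c = 0 := by
    rcases mul_eq_zero.1 h2 with h | h
    · exact absurd (sub_eq_zero.1 h) had
    · exact h
  have h3 : γ * (b - d) = 0 := by linear_combination h1' - h2'
  rcases mul_eq_zero.1 h3 with h | h
  · exact hγ h
  · exact hbd (sub_eq_zero.1 h)

theorem ud_trick {F : Type*} [Field F] [Fintype F] (q : ℕ) : TrickStmt F q := by
  classical
  intro hF γ γ' ρ hγ hγ' hρ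
  have hq : 2 ≤ q := herm_two_le hF
  have hMcard : (Finset.univ.filter (fun t : F => t ^ (q + 1) = 1)).card = q + 1 :=
    herm_card_norm_one hF
  have hFqcard : (Finset.univ.filter (fun c : F => c ^ q = c)).card ≤ q :=
    udtrick_card_fix q (by omega)
  have hI : ∀ g : F, g ≠ 0 →
      q + 1 ≤ 2 * ((Finset.univ.filter (fun t : F => t ^ (q + 1) = 1)).image
        (fun t => t * g + (t * g) ^ q)).card ∧
      (Finset.univ.filter (fun t : F => t ^ (q + 1) = 1)).image (fun t => t * g + (t * g) ^ q) ⊆
        Finset.univ.filter (fun c : F => c ^ q = c) := by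
    intro g hg
    constructor
    · have h0 := Finset.card_le_mul_card_image (f := fun t : F => t * g + (t * g) ^ q)
        (Finset.univ.filter (fun t : F => t ^ (q + 1) = 1)) 2
        (fun c _ => udtrick_fiber q g hg c)
      rw [hMcard] at h0
      exact h0
    · intro c hc
      obtain ⟨t, -, rfl⟩ := Finset.mem_image.1 hc
      rw [Finset.mem_filter]
      refine ⟨Finset.mem_univ _, ?_⟩
      rw [herm_add_pow hF, herm_pow_pow hF, add_comm]
  obtain ⟨h1, h1'⟩ := hI γ hγ
  obtain ⟨h2, h2'⟩ := hI γ' hγ'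
  have hJcard : (((Finset.univ.filter (fun t : F => t ^ (q + 1) = 1)).image
      (fun t => t * γ' + (t * γ') ^ q)).image (fun c => ρ - c)).card
      = ((Finset.univ.filter (fun t : F => t ^ (q + 1) = 1)).image
        (fun t => t * γ' + (t * γ') ^ q)).card :=
    Finset.card_image_of_injective _ sub_right_injective
  have hJsub : ((Finset.univ.filter (fun t : F => t ^ (q + 1) = 1)).image
      (fun t => t * γ' + (t * γ') ^ q)).image (fun c => ρ - c) ⊆
      Finset.univ.filter (fun c : F => c ^ q = c) := by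
    intro x hx
    obtain ⟨c, hc, rfl⟩ := Finset.mem_image.1 hx
    have hc' := h2' hc
    rw [Finset.mem_filter] at hc' ⊢
    refine ⟨Finset.mem_univ _, ?_⟩
    rw [herm_sub_pow hF, hρ, hc'.2]
  have hnd : ¬ Disjoint ((Finset.univ.filter (fun t : F => t ^ (q + 1) = 1)).image
      (fun t => t * γ + (t * γ) ^ q))
      (((Finset.univ.filter (fun t : F => t ^ (q + 1) = 1)).image
      (fun t => t * γ' + (t * γ') ^ q)).image (fun c => ρ - c)) := by
    intro hd
    have h3 := Finset.card_union_of_disjoint hd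
    have h4 := Finset.card_le_card (Finset.union_subset h1' hJsub)
    omega
  obtain ⟨x, hx1, hx2⟩ := Finset.not_disjoint_iff.1 hnd
  obtain ⟨t, ht, rfl⟩ := Finset.mem_image.1 hx1
  obtain ⟨c, hc, hcx⟩ := Finset.mem_image.1 hx2
  obtain ⟨t', ht', rfl⟩ := Finset.mem_image.1 hc
  refine ⟨t, t', (Finset.mem_filter.1 ht).2, (Finset.mem_filter.1 ht').2, ?_⟩
  have hcx' : ρ - (t' * γ' + (t' * γ') ^ q) = t * γ + (t * γ) ^ q := hcx
  rw [← hcx']
  ring

end Cfsg.Agent.Lib.Helper44.UD
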